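import Mathlib
import Cfsg.Prelude.Def_OddOrderLocal
import Cfsg.Agent.Lib.Helper75.BGUtil

/-!
Bender–Glauberman, structure of a complement `E` of `M_σ` in a maximal subgroup `M`
(statement S1415), derived from Theorem 10.2 (S1405) taken as hypotheses.
-/

set_option autoImplicit false

namespace Cfsg.Agent.Lib.Helper75.BG

open Cfsg
open scoped commutatorElement

/-- A complement `E` of `M_σ` in `M` maps isomorphically onto `M / O_σ(M)`; consequently a prime
`p ∉ σ(M)` dividing `|M'|` divides `|E'|`. -/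
theorem dvd_card_commutator_compl {G : Type*} [Group G] [Finite G] (M E : Subgroup G)
    (hE : Cfsg.IsComplIn E (Cfsg.sigmaCore M) M) (p : ℕ) (hp : p.Prime)
    (hpσ : p ∉ Cfsg.sigma M) (hpM' : p ∣ Nat.card ↥⁅M, M⁆) :
    p ∣ Nat.card ↥(commutator ↥E) := by
  obtain ⟨hEM, hSM, hES, hprod⟩ := hE
  have hinj : Function.Injective ((QuotientGroup.mk' (Cfsg.piCore (Cfsg.sigma M) ↥M)).comp
      (Subgroup.inclusion hEM)) := by
    rw [injective_iff_map_eq_one]
    intro e he
    have h1 : Subgroup.inclusion hEM e ∈ Cfsg.piCore (Cfsg.sigma M) ↥M :=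
      (QuotientGroup.eq_one_iff _).mp he
    have h2 : (e : G) ∈ Cfsg.sigmaCore M := ⟨Subgroup.inclusion hEM e, h1, rfl⟩
    have h3 : (e : G) ∈ E ⊓ Cfsg.sigmaCore M := ⟨e.2, h2⟩
    rw [hES, Subgroup.mem_bot] at h3
    exact Subtype.ext h3
  have hsurj : Function.Surjective ((QuotientGroup.mk' (Cfsg.piCore (Cfsg.sigma M) ↥M)).comp
      (Subgroup.inclusion hEM)) := by
    intro q
    obtain ⟨m, rfl⟩ := QuotientGroup.mk_surjective q
    obtain ⟨a, ha, b, hb, hab⟩ := hprod m m.2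
    obtain ⟨b', hb', hb'eq⟩ := hb
    refine ⟨⟨a, ha⟩, ?_⟩
    show (QuotientGroup.mk (Subgroup.inclusion hEM ⟨a, ha⟩) :
      ↥M ⧸ Cfsg.piCore (Cfsg.sigma M) ↥M) = QuotientGroup.mk m
    apply QuotientGroup.eq.mpr
    have : (Subgroup.inclusion hEM ⟨a, ha⟩)⁻¹ * m = b' := by
      apply Subtype.ext
      have hb'' : (b' : G) = b := hb'eq
      show a⁻¹ * (m : G) = (b' : G)
      rw [hab, hb'']
      group
    rw [this]
    exact hb'
  have hc1 : (commutator ↥E).map ((QuotientGroup.mk' (Cfsg.piCore (Cfsg.sigma M) ↥M)).comp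
      (Subgroup.inclusion hEM)) = commutator (↥M ⧸ Cfsg.piCore (Cfsg.sigma M) ↥M) := by
    rw [commutator_def, commutator_def, Subgroup.map_commutator,
      Subgroup.map_top_of_surjective _ hsurj]
  have hc2 : (commutator ↥M).map (QuotientGroup.mk' (Cfsg.piCore (Cfsg.sigma M) ↥M)) =
      commutator (↥M ⧸ Cfsg.piCore (Cfsg.sigma M) ↥M) := by
    rw [commutator_def, commutator_def, Subgroup.map_commutator,
      Subgroup.map_top_of_surjective _ (QuotientGroup.mk'_surjective _)]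
  have hcard1 : Nat.card ↥(commutator ↥E) =
      Nat.card ↥((commutator ↥M).map (QuotientGroup.mk' (Cfsg.piCore (Cfsg.sigma M) ↥M))) := by
    rw [hc2, ← hc1, Subgroup.card_map_of_injective hinj]
  rw [hcard1]
  have hpM : p ∣ Nat.card ↥(commutator ↥M) := by
    have : Nat.card ↥⁅M, M⁆ = Nat.card ↥(commutator ↥M) := by
      rw [← Subgroup.map_subtype_commutator, Subgroup.card_map_of_injective M.subtype_injective]
    rwa [this] at hpM'
  have hpS : ¬ p ∣ Nat.card ↥(Cfsg.piCore (Cfsg.sigma M) ↥M) := by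
    intro h
    apply hpσ
    apply Cfsg.Agent.Lib.Helper23.piCoreOf_isPi (Cfsg.sigma M) M p hp
    unfold Cfsg.piCoreOf
    rw [Subgroup.card_map_of_injective M.subtype_injective]
    exact h
  have h1 : Nat.card ↥(commutator ↥M) =
      Nat.card ((QuotientGroup.mk' (Cfsg.piCore (Cfsg.sigma M) ↥M)).domRestrict
        (commutator ↥M)).ker *
      ((QuotientGroup.mk' (Cfsg.piCore (Cfsg.sigma M) ↥M)).domRestrict
        (commutator ↥M)).ker.index := (Subgroup.card_mul_index _).symm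
  have h2 : ((QuotientGroup.mk' (Cfsg.piCore (Cfsg.sigma M) ↥M)).domRestrict
        (commutator ↥M)).ker.index =
      Nat.card ↥((commutator ↥M).map (QuotientGroup.mk' (Cfsg.piCore (Cfsg.sigma M) ↥M))) := by
    rw [Subgroup.index_ker, MonoidHom.domRestrict_range]
  have h3 : Nat.card ((QuotientGroup.mk' (Cfsg.piCore (Cfsg.sigma M) ↥M)).domRestrict
        (commutator ↥M)).ker ∣ Nat.card ↥(Cfsg.piCore (Cfsg.sigma M) ↥M) := by
    have hle : (((QuotientGroup.mk' (Cfsg.piCore (Cfsg.sigma M) ↥M)).domRestrict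
        (commutator ↥M)).ker.map (commutator ↥M).subtype) ≤ Cfsg.piCore (Cfsg.sigma M) ↥M := by
      rintro _ ⟨x, hx, rfl⟩
      exact (QuotientGroup.eq_one_iff _).mp (MonoidHom.mem_ker.mp hx)
    have := Subgroup.card_dvd_of_le hle
    rwa [Subgroup.card_map_of_injective (Subgroup.subtype_injective _)] at this
  rw [h1, h2] at hpM
  rcases (Nat.Prime.dvd_mul hp).mp hpM with h | h
  · exact absurd (h.trans h3) hpS
  · exact h

/-- Statement S1415 from Theorem 10.2 (S1405): `M_α ≤ M_σ` and `(M/M_α)'` nilpotent. -/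
theorem s1415_core {G : Type*} [Group G] [Finite G] (hG : Cfsg.IsMinSimpleOddOrder G)
    (M : Subgroup G) (hM : IsCoatom M)
    (hασ : Cfsg.alphaCore M ≤ Cfsg.sigmaCore M)
    (hnilα : Group.IsNilpotent
      ↥((commutator ↥M).map (QuotientGroup.mk' (Cfsg.piCore (Cfsg.alpha M) ↥M))))
    (E : Subgroup G) (hE : Cfsg.IsComplIn E (Cfsg.sigmaCore M) M) :
    Group.IsNilpotent ↥⁅E, E⁆ ∧
      (∀ E₁ : Subgroup G, Cfsg.IsPiHallOf (Cfsg.tau1 M) E₁ E → IsCyclic E₁) ∧
      ∀ E₃ : Subgroup G, Cfsg.IsPiHallOf (Cfsg.tau3 M) E₃ E →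
        IsCyclic E₃ ∧ E₃ ≤ ⁅E, E⁆ ∧ E ≤ Subgroup.normalizer (E₃ : Set G) := by
  have hE' := hE
  obtain ⟨hEM, hSM, hES, hprod⟩ := hE
  have hodd : Odd (Nat.card G) := hG.1
  have hp2 : ∀ p : ℕ, p.Prime → p ∣ Nat.card M → p ≠ 2 := by
    rintro p hp hdvd rfl
    have h2 : 2 ∣ Nat.card G := hdvd.trans (Subgroup.card_subgroup_dvd_card M)
    exact (Nat.not_even_iff_odd.mpr hodd) (even_iff_two_dvd.mpr h2)
  -- Part 1: `E'` is nilpotent
  have hnilE' : Group.IsNilpotent ↥(commutator ↥E) := by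
    have hφinj : Function.Injective ((QuotientGroup.mk' (Cfsg.piCore (Cfsg.alpha M) ↥M)).comp
        (Subgroup.inclusion hEM)) := by
      rw [injective_iff_map_eq_one]
      intro e he
      have h1 : Subgroup.inclusion hEM e ∈ Cfsg.piCore (Cfsg.alpha M) ↥M :=
        (QuotientGroup.eq_one_iff _).mp he
      have h2 : (e : G) ∈ Cfsg.alphaCore M := ⟨Subgroup.inclusion hEM e, h1, rfl⟩
      have h3 : (e : G) ∈ E ⊓ Cfsg.sigmaCore M := ⟨e.2, hασ h2⟩
      rw [hES, Subgroup.mem_bot] at h3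
      exact Subtype.ext h3
    have hle : (commutator ↥E).map ((QuotientGroup.mk' (Cfsg.piCore (Cfsg.alpha M) ↥M)).comp
        (Subgroup.inclusion hEM)) ≤
        (commutator ↥M).map (QuotientGroup.mk' (Cfsg.piCore (Cfsg.alpha M) ↥M)) := by
      rw [commutator_def, commutator_def, Subgroup.map_commutator, Subgroup.map_commutator,
        Subgroup.map_top_of_surjective _ (QuotientGroup.mk'_surjective _)]
      exact Subgroup.commutator_mono le_top le_top
    have h1 := isNilpotent_of_le hle hnilα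
    haveI := h1
    exact Group.nilpotent_of_mulEquiv
      (Subgroup.equivMapOfInjective (commutator ↥E) _ hφinj).symm
  have hnilE : Group.IsNilpotent ↥⁅E, E⁆ := by
    rw [← Subgroup.map_subtype_commutator]
    haveI := hnilE'
    exact Group.nilpotent_of_mulEquiv
      (Subgroup.equivMapOfInjective (commutator ↥E) E.subtype E.subtype_injective)
  refine ⟨hnilE, ?_, ?_⟩
  · -- Part 2: Hall `τ₁`-subgroups are cyclic
    rintro E₁ ⟨hE₁E, hE₁π, -⟩
    have hbot : E₁ ⊓ ⁅M, M⁆ = ⊥ := by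
      by_contra hne
      have hcard : Nat.card ↥(E₁ ⊓ ⁅M, M⁆) ≠ 1 := fun h => hne (Subgroup.card_eq_one.mp h)
      obtain ⟨p, hp, hdvd⟩ := Nat.exists_prime_and_dvd hcard
      have h1 := hE₁π p hp (hdvd.trans (Subgroup.card_dvd_of_le inf_le_left))
      exact h1.2.2.2.1 (hdvd.trans (Subgroup.card_dvd_of_le inf_le_right))
    have hcomm : ∀ a ∈ E₁, ∀ b ∈ E₁, a * b = b * a := by
      intro a ha b hb
      have h1 : ⁅a, b⁆ ∈ E₁ ⊓ ⁅M, M⁆ :=
        ⟨by
          rw [commutatorElement_def]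
          exact E₁.mul_mem (E₁.mul_mem (E₁.mul_mem ha hb) (E₁.inv_mem ha)) (E₁.inv_mem hb),
         Subgroup.commutator_mem_commutator (hEM (hE₁E ha)) (hEM (hE₁E hb))⟩
      rw [hbot, Subgroup.mem_bot] at h1
      exact commutatorElement_eq_one_iff_mul_comm.mp h1
    have hnil : Group.IsNilpotent E₁ := by
      letI : CommGroup ↥E₁ :=
        { (inferInstance : Group ↥E₁) with
          mul_comm := fun a b => Subtype.ext (hcomm a a.2 b b.2) }
      exact CommGroup.isNilpotent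
    exact isCyclic_of_nilpotent_rank_one hodd M E₁ (hE₁E.trans hEM) hnil
      (fun p hp hdvd => (hE₁π p hp hdvd).2.2.2.2)
  · -- Part 3: Hall `τ₃`-subgroups
    rintro E₃ ⟨hE₃E, hE₃π, hE₃idx⟩
    have h3a : ∀ p : ℕ, p.Prime → p ∣ Nat.card E₃ → ¬ p ∣ (commutator ↥E).index := by
      intro p hp hdvd
      haveI : Fact p.Prime := ⟨hp⟩
      obtain ⟨-, hpσ, hpM', hrk⟩ := hE₃π p hp hdvd
      have hpM : p ∣ Nat.card M :=
        hdvd.trans (Subgroup.card_dvd_of_le (hE₃E.trans hEM))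
      obtain ⟨P⟩ : Nonempty (Sylow p ↥E) := inferInstance
      haveI : IsCyclic ↥(P : Subgroup ↥E) :=
        isCyclic_sylow_of_rank_one M E hEM p (hp2 p hp hpM) hrk P
      rcases Sylow.not_dvd_card_commutator_or_not_dvd_index_commutator P with h | h
      · exact absurd (dvd_card_commutator_compl M E hE' p hp hpσ hpM') h
      · exact h
    have h3b : E₃ ≤ ⁅E, E⁆ := by
      have hL : (E₃.subgroupOf E) ≤ commutator ↥E := by
        apply le_of_coprime_relIndex (commutator ↥E) (E₃.subgroupOf E)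
        · rw [Subgroup.normalizer_eq_top]
          exact le_top
        · rw [Subgroup.normalizer_eq_top, Subgroup.relIndex_top_right,
            Nat.card_congr (Subgroup.subgroupOfEquivOfLe hE₃E).toEquiv]
          exact Nat.coprime_of_dvd h3a
      intro x hx
      rw [← Subgroup.map_subtype_commutator]
      exact ⟨⟨x, hE₃E hx⟩, hL (Subgroup.mem_subgroupOf.mpr hx), rfl⟩
    have hnil₃ : Group.IsNilpotent E₃ := isNilpotent_of_le h3b hnilE
    refine ⟨isCyclic_of_nilpotent_rank_one hodd M E₃ (hE₃E.trans hEM) hnil₃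
      (fun p hp hdvd => (hE₃π p hp hdvd).2.2.2), h3b, ?_⟩
    -- normality
    intro e he
    apply mem_normalizer_of_map_le
    have hconjle : E₃.map (MulAut.conj e).toMonoidHom ≤ ⁅E, E⁆ := by
      rintro _ ⟨x, hx, rfl⟩
      have hx' := h3b hx
      rw [← Subgroup.map_subtype_commutator] at hx' ⊢
      obtain ⟨x', hx'mem, rfl⟩ := hx'
      refine ⟨⟨e, he⟩ * x' * ⟨e, he⟩⁻¹, ?_, rfl⟩
      exact (inferInstance : (commutator ↥E).Normal).conj_mem x' hx'mem ⟨e, he⟩
    haveI := hnilE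
    have hcop : (Nat.card ↥(E₃.subgroupOf ⁅E, E⁆)).Coprime (E₃.subgroupOf ⁅E, E⁆).index := by
      rw [Nat.card_congr (Subgroup.subgroupOfEquivOfLe h3b).toEquiv]
      apply Nat.coprime_of_dvd
      intro p hp hdvd hidx
      have h1 : E₃.relIndex ⁅E, E⁆ ∣ E₃.relIndex E := by
        have hEE : ⁅E, E⁆ ≤ E := Subgroup.commutator_le_self E
        exact Dvd.intro _ (Subgroup.relIndex_mul_relIndex E₃ ⁅E, E⁆ E h3b hEE)
      exact hE₃idx p hp (hE₃π p hp hdvd) (hidx.trans h1)
    have hcard : Nat.card ↥((E₃.map (MulAut.conj e).toMonoidHom).subgroupOf ⁅E, E⁆) =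
        Nat.card ↥(E₃.subgroupOf ⁅E, E⁆) := by
      rw [Nat.card_congr (Subgroup.subgroupOfEquivOfLe h3b).toEquiv,
        Nat.card_congr (Subgroup.subgroupOfEquivOfLe hconjle).toEquiv,
        Subgroup.card_map_of_injective (MulAut.conj e).injective]
    have heq := hall_unique_of_nilpotent (E₃.subgroupOf ⁅E, E⁆)
      ((E₃.map (MulAut.conj e).toMonoidHom).subgroupOf ⁅E, E⁆) hcop hcard
    intro y hy
    have hy' : (⟨y, hconjle hy⟩ : ↥⁅E, E⁆) ∈
        (E₃.map (MulAut.conj e).toMonoidHom).subgroupOf ⁅E, E⁆ :=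
      Subgroup.mem_subgroupOf.mpr hy
    rw [heq] at hy'
    exact Subgroup.mem_subgroupOf.mp hy'

end Cfsg.Agent.Lib.Helper75.BG
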