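import Mathlib
import Cfsg.Prelude.Def_Characters
import Cfsg.Prelude.Def_Blocks
import Cfsg.Prelude.Def_CharExt
import Cfsg.Agent.S0193
import Cfsg.Agent.Lib.Helper3.CharValues
import Cfsg.Agent.Lib.Helper15.DetChar
import Cfsg.Agent.Lib.Helper15.LinChar
import Cfsg.Agent.Lib.Helper80.CharOps
import Cfsg.Agent.Lib.Helper80.CharKer
import Cfsg.Agent.Lib.Helper82.AbelianSylow
import Cfsg.Agent.Lib.Helper75.CharDecomp
import Cfsg.Agent.Lib.Helper75.CharInd
import Cfsg.Agent.Lib.Helper75.Clifford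
import Cfsg.Agent.Lib.Helper75.CliffordCorr
import Cfsg.Agent.Lib.Helper75.CliffordCorr2
import Cfsg.Agent.Lib.Helper75.Gallagher
import Cfsg.Agent.Lib.Helper75.CentExt
import Cfsg.Agent.Lib.Helper75.CentExt6
import Cfsg.Agent.Lib.Helper75.CentExt7

/-!
# Induction from a normal subgroup with abelian coprime inertia quotient
-/

set_option autoImplicit false
set_option linter.style.haveILetI false

namespace Cfsg.Agent.Lib.Helper75

open Representation Module
open Cfsg.Agent.Lib.Helper3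
open scoped ComplexConjugate

universe u

section

variable {G : Type u} [Group G] [Finite G] (N : Subgroup G) [hN : N.Normal]

/-- an irreducible character trivial on `N` with `G ⧸ N` abelian is linear -/
theorem irr_one_eq_one_of_quotient_comm (hab : ∀ x y : G, x * y * x⁻¹ * y⁻¹ ∈ N) {β : G → ℂ}
    (hβ : Cfsg.IsIrrCharacter G β) (hβN : ∀ n : N, β n = β 1) : β 1 = 1 := by
  obtain ⟨ψ, hψ, hψβ⟩ := Cfsg.Agent.Lib.Helper80.exists_isIrrCharacter_deflate N hβ
    (fun x hx => hβN ⟨x, hx⟩)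
  have hcomm : ∀ a b : G ⧸ N, a * b = b * a := by
    intro a b
    obtain ⟨x, rfl⟩ := QuotientGroup.mk_surjective a
    obtain ⟨y, rfl⟩ := QuotientGroup.mk_surjective b
    rw [← QuotientGroup.mk_mul, ← QuotientGroup.mk_mul, QuotientGroup.eq]
    have h2 := hab y⁻¹ x⁻¹
    simpa [mul_assoc] using h2
  have h1 := Cfsg.Agent.Lib.Helper82.irr_one_eq_one_of_comm hcomm hψ
  rw [← hψβ 1]
  exact h1

/-- the determinant of a representation with invariant character is invariant -/
theorem detCharHom_conj_invariant {d : ℕ} (Y : Representation ℂ N (Fin d → ℂ))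
    (hinv : ∀ (g : G) (n : N), Y.character (MulAut.conjNormal g n) = Y.character n)
    (g : G) (n : N) :
    Cfsg.Agent.Lib.Helper15.detCharHom Y.character (MulAut.conjNormal g n) =
      Cfsg.Agent.Lib.Helper15.detCharHom Y.character n := by
  apply Units.ext
  rw [Cfsg.Agent.Lib.Helper15.detCharHom_apply, Cfsg.Agent.Lib.Helper15.detCharHom_apply,
    Cfsg.Agent.Lib.Helper15.detChar_character, Cfsg.Agent.Lib.Helper15.detChar_character]
  exact Cfsg.Agent.Lib.Helper15.det_eq_of_character_eq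
    (Y.comp (MulAut.conjNormal g : MulAut N).toMonoidHom) Y (funext (hinv g)) n

/-- with `G ⧸ N` abelian of order prime to `|N|`, every irreducible character over an invariant
`θ ∈ Irr(N)` restricts to `θ` -/
theorem res_eq_of_coprime_of_comm [Fintype G] [Fintype N] {θ : N → ℂ}
    (hθ : Cfsg.IsIrrCharacter N θ)
    (hinv : ∀ (g : G) (n : N), θ ⟨g * n * g⁻¹, hN.conj_mem (n : G) n.2 g⟩ = θ n)
    (hab : ∀ x y : G, x * y * x⁻¹ * y⁻¹ ∈ N) (hcop : Nat.Coprime (Nat.card N) N.index)
    {ψ : G → ℂ} (hψ : Cfsg.IsIrrCharacter G ψ)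
    (h : Cfsg.classInner (fun n : N => ψ n) θ ≠ 0) : ∀ n : N, ψ n = θ n := by
  obtain ⟨d, Y, hY, rfl⟩ := hθ
  have hY' : Y.IsIrreducible := hY
  have hinv' : ∀ (g : G) (n : N), Y.character (MulAut.conjNormal g n) = Y.character n := by
    intro g n
    rw [← hinv g n]
    congr 1
  have hlam_e : ∀ n : N, Cfsg.Agent.Lib.Helper15.detCharHom Y.character n ^ Nat.card N = 1 :=
    fun n => by rw [← map_pow, pow_card_eq_one', map_one]
  obtain ⟨μ, hμN, -⟩ := exists_lin_extension_of_coprime N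
    (Cfsg.Agent.Lib.Helper15.detCharHom Y.character) (detCharHom_conj_invariant N Y hinv')
    (Nat.card N) hlam_e hcop.symm
  have hd : d ∣ Nat.card N := by
    have := Cfsg.Agent.Lib.Helper80.charDegree_dvd_card
      (⟨d, Y, hY, rfl⟩ : Cfsg.IsIrrCharacter N Y.character)
    rwa [Cfsg.Agent.Lib.Helper80.charDegree_char] at this
  obtain ⟨X, hXirr, hX⟩ := exists_extension_of_det N Y hinv' μ
    (fun n => by
      rw [hμN, Cfsg.Agent.Lib.Helper15.detCharHom_apply,
        Cfsg.Agent.Lib.Helper15.detChar_character])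
    (Nat.Coprime.coprime_dvd_right hd hcop.symm)
  have hχirr : Cfsg.IsIrrCharacter G X.character := ⟨d, X, hXirr, rfl⟩
  have hres : (fun n : N => X.character n) = Y.character := by
    funext n
    show LinearMap.trace ℂ _ (X n) = LinearMap.trace ℂ _ (Y n)
    rw [hX]
  obtain ⟨β, hβirr, hβN, hβχ⟩ := gallagher_exists N hχirr (by rw [hres]; exact ⟨d, Y, hY, rfl⟩)
    hψ (by rw [hres]; exact h)
  have hβ1 : β 1 = 1 := irr_one_eq_one_of_quotient_comm N hab hβirr hβN
  intro n
  rw [hβχ, Pi.mul_apply, hβN, hβ1, one_mul]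
  exact congrFun hres n

end

/-- **induction with abelian coprime inertia quotient**: if the inertia group `T` of
`θ ∈ Irr(H)`, `H` normal, has `T/H` abelian of order prime to `|H|`, then `θ^G` is a sum of
`|T : H|` distinct irreducible characters of degree `|G : T| θ(1)` -/
theorem ind_eq_sum_of_coprime_abelian {G : Type u} [Group G] [Fintype G] (H T : Subgroup G)
    [hN : H.Normal] (θ : H → ℂ) (hθ : Cfsg.IsIrrCharacter H θ)
    (hT : ∀ g : G, g ∈ T ↔ ∀ h : H, θ ⟨g * h * g⁻¹, hN.conj_mem h h.2 g⟩ = θ h)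
    (hab : ∀ x ∈ T, ∀ y ∈ T, x * y * x⁻¹ * y⁻¹ ∈ H)
    (hcop : Nat.Coprime (Nat.card H) (H.relIndex T)) :
    ∃ C : Finset (G → ℂ), (∀ χ ∈ C, Cfsg.IsIrrCharacter G χ) ∧ C.card = H.relIndex T ∧
      Cfsg.indFun H θ = ∑ χ ∈ C, χ ∧ ∀ χ ∈ C, χ 1 = (T.index : ℂ) * θ 1 := by
  classical
  haveI : Fintype H := Fintype.ofFinite H
  haveI : Fintype T := Fintype.ofFinite T
  haveI : Fintype (Cfsg.IrrCharacter G) := Fintype.ofFinite _
  have hθc := isCharacter_of_irr hθ
  have hθcf := isClassFunction_of_isCharacter hθc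
  have hT' : ∀ g : G, g ∈ T ↔ conjChar H θ g = θ := by
    intro g
    rw [hT g, ← mem_inertia_iff', mem_inertia_iff]
  have hHT : H ≤ T := fun g hg => (hT' g).2 (conjChar_of_mem H hθcf hg)
  have keyA : ∀ ψ : T → ℂ, Cfsg.IsIrrCharacter T ψ →
      Cfsg.classInner (fun n : H => ψ ⟨n, hHT n.2⟩) θ ≠ 0 → ∀ n : H, ψ ⟨n, hHT n.2⟩ = θ n := by
    intro ψ hψ hne
    haveI : Fintype (H.subgroupOf T) := Fintype.ofFinite _
    have hθ'irr : Cfsg.IsIrrCharacter (H.subgroupOf T)
        (fun n' : H.subgroupOf T => θ (Subgroup.subgroupOfEquivOfLe hHT n')) :=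
      Cfsg.Agent.Lib.Helper80.isIrrCharacter_comp_mulEquiv (Subgroup.subgroupOfEquivOfLe hHT) hθ
    have hinv' : ∀ (t : T) (n' : H.subgroupOf T),
        (fun n' : H.subgroupOf T => θ (Subgroup.subgroupOfEquivOfLe hHT n'))
          ⟨t * n' * t⁻¹, (inferInstance : (H.subgroupOf T).Normal).conj_mem (n' : T) n'.2 t⟩ =
        (fun n' : H.subgroupOf T => θ (Subgroup.subgroupOfEquivOfLe hHT n')) n' := by
      intro t n'
      exact (hT (t : G)).1 t.2 (Subgroup.subgroupOfEquivOfLe hHT n')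
    have hab' : ∀ x y : T, x * y * x⁻¹ * y⁻¹ ∈ H.subgroupOf T := by
      intro x y
      rw [Subgroup.mem_subgroupOf]
      simpa using hab x x.2 y y.2
    have hcop' : Nat.Coprime (Nat.card (H.subgroupOf T)) (H.subgroupOf T).index := by
      rw [Nat.card_congr (Subgroup.subgroupOfEquivOfLe hHT).toEquiv]
      exact hcop
    have hne' : Cfsg.classInner (fun n' : H.subgroupOf T => ψ n')
        (fun n' : H.subgroupOf T => θ (Subgroup.subgroupOfEquivOfLe hHT n')) ≠ 0 := by
      rw [classInner_subgroupOf H T hHT ψ θ]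
      exact hne
    have h3 := res_eq_of_coprime_of_comm (H.subgroupOf T) hθ'irr hinv' hab' hcop' hψ hne'
    intro n
    have h2 := h3 ((Subgroup.subgroupOfEquivOfLe hHT).symm n)
    simp only [MulEquiv.apply_symm_apply] at h2
    rw [← h2]
    rfl
  have hΦc : Cfsg.IsCharacter G (Cfsg.indFun H θ) := isCharacter_indFun H hθc
  obtain ⟨m, hm, hsum⟩ := char_eq_sum_irr hΦc
  have keyB : ∀ χ : Cfsg.IrrCharacter G, m χ ≠ 0 →
      m χ = 1 ∧ (χ : G → ℂ) 1 = (T.index : ℂ) * θ 1 := by
    intro χ hχ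
    have hχc := isCharacter_of_irr χ.2
    have hχcf := isClassFunction_of_isCharacter hχc
    have h2 := hm χ
    rw [frobenius_reciprocity H _ hχcf] at h2
    have hcon : Cfsg.classInner (fun n : H => (χ : G → ℂ) n) θ ≠ 0 := by
      rw [classInner_conj_symm, h2]
      simpa using hχ
    obtain ⟨ψ, hψ, hψχ, hψθ⟩ := clifford_correspondence H T hHT χ.2 hθ hT' hcon
    have hne : Cfsg.classInner (fun n : H => ψ ⟨n, hHT n.2⟩) θ ≠ 0 := by
      rw [hψθ]
      exact hcon
    have hres := keyA ψ hψ hne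
    have hres' : (fun n : H => ψ ⟨n, hHT n.2⟩) = θ := funext hres
    constructor
    · have h3 : Cfsg.classInner (fun n : H => (χ : G → ℂ) n) θ = 1 := by
        rw [← hψθ, hres', classInner_irr_self hθ]
      rw [classInner_conj_symm, h3, map_one] at h2
      exact_mod_cast h2.symm
    · rw [← hψχ, indFun_one, ← hres 1]
      rfl
  refine ⟨(Finset.univ.filter (fun χ : Cfsg.IrrCharacter G => m χ ≠ 0)).map
    ⟨Subtype.val, Subtype.val_injective⟩, ?_, ?_, ?_, ?_⟩
  · intro χ hχ
    rw [Finset.mem_map] at hχ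
    obtain ⟨χ', _, rfl⟩ := hχ
    exact χ'.2
  · rw [Finset.card_map]
    have hnorm := Cfsg.Agent.S0193.result H θ hθ
    have hcardT : Nat.card {g : G // ∀ h : H, θ ⟨g * h * g⁻¹, hN.conj_mem h h.2 g⟩ = θ h} =
        Nat.card T := Nat.card_congr (Equiv.subtypeEquivRight (fun g => (hT g).symm))
    have hinner : Cfsg.classInner (Cfsg.indFun H θ) (Cfsg.indFun H θ) =
        ∑ χ : Cfsg.IrrCharacter G, (m χ : ℂ) * (m χ : ℂ) := by
      nth_rewrite 1 [hsum]
      rw [classInner_sum_left]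
      refine Finset.sum_congr rfl (fun χ _ => ?_)
      rw [classInner_smul_left, classInner_conj_symm, hm χ, Complex.conj_natCast]
    have hsq : ∑ χ : Cfsg.IrrCharacter G, (m χ : ℂ) * (m χ : ℂ) =
        ((Finset.univ.filter (fun χ : Cfsg.IrrCharacter G => m χ ≠ 0)).card : ℂ) := by
      rw [Finset.card_eq_sum_ones, Finset.sum_filter]
      push_cast
      refine Finset.sum_congr rfl (fun χ _ => ?_)
      by_cases h : m χ = 0
      · simp [h]
      · rw [if_pos h, (keyB χ h).1]
        simp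
    rw [hinner, hsq, hcardT] at hnorm
    have h5 : Nat.card H * (Finset.univ.filter (fun χ : Cfsg.IrrCharacter G => m χ ≠ 0)).card =
        Nat.card T := by exact_mod_cast hnorm
    have h6 : H.relIndex T * Nat.card H = Nat.card T := by
      rw [Subgroup.relIndex, ← Nat.card_congr (Subgroup.subgroupOfEquivOfLe hHT).toEquiv,
        mul_comm]
      exact Subgroup.card_mul_index _
    have hpos : 0 < Nat.card H := Nat.card_pos
    have h7 : Nat.card H * (Finset.univ.filter (fun χ : Cfsg.IrrCharacter G => m χ ≠ 0)).card =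
        Nat.card H * H.relIndex T := by rw [h5, ← h6, mul_comm]
    exact Nat.eq_of_mul_eq_mul_left hpos h7
  · rw [Finset.sum_map]
    nth_rewrite 1 [hsum]
    rw [Finset.sum_filter]
    refine Finset.sum_congr rfl (fun χ _ => ?_)
    by_cases h : m χ = 0
    · simp [h]
    · rw [if_pos h, (keyB χ h).1]
      simp
  · intro χ hχ
    rw [Finset.mem_map] at hχ
    obtain ⟨χ', hχ', rfl⟩ := hχ
    exact (keyB χ' (Finset.mem_filter.1 hχ').2).2

end Cfsg.Agent.Lib.Helper75
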