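import Mathlib
import Cfsg.Prelude.Def_Blocks
import Cfsg.Agent.Lib.Helper16.LocalRing

/-!
# Valuation-like tools for the local ring of algebraic integers at a modular maximal ideal

* `memLocalRing_of_pow`: the local ring is closed under taking roots.
* `exists_pow_div_prime`: every element of the local ideal has a power divisible by `p`.
* `pRoot`: a `j`-th root of `p`.
* `natCast_eq_zero_of_forall_div_pow`: a natural number divisible (in the local ring) by all
  powers of `p` is zero.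
-/

set_option autoImplicit false

namespace Cfsg.Agent.Lib.Helper75

open Cfsg Cfsg.Agent.Lib.Helper16 Polynomial

variable {M : Ideal Cfsg.AlgInt}

/-- the local ring is root closed -/
lemma memLocalRing_of_pow {x : ℂ} {j : ℕ} (hj : 0 < j) (h : MemLocalRing M (x ^ j)) :
    MemLocalRing M x := by
  obtain ⟨a, b, hb, hab⟩ := h
  have hb0 : (b : ℂ) ≠ 0 := coe_ne_zero_of_not_mem hb
  have h1 : (x * (b : ℂ)) ^ j = (a : ℂ) * (b : ℂ) ^ (j - 1) := by
    rw [mul_pow, ← hab]
    obtain ⟨i, rfl⟩ : ∃ i, j = i + 1 := ⟨j - 1, by omega⟩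
    simp only [Nat.add_sub_cancel]
    field_simp
    ring
  have h2 : IsIntegral ℤ ((x * (b : ℂ)) ^ j) := by
    rw [h1]
    exact (a * b ^ (j - 1) : Cfsg.AlgInt).2
  have h3 : IsIntegral ℤ (x * (b : ℂ)) := IsIntegral.of_pow hj h2
  refine ⟨⟨x * (b : ℂ), h3⟩, b, hb, ?_⟩
  show x * (b : ℂ) / (b : ℂ) = x
  field_simp

/-- an integer in the maximal ideal is divisible by `p` -/
lemma int_dvd_of_mem {p : ℕ} (hM : Cfsg.IsPModular p M) (c : ℤ)
    (hc : ((c : ℤ) : Cfsg.AlgInt) ∈ M) : (p : ℤ) ∣ c := by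
  by_contra hnd
  have hp : Prime (p : ℤ) := Nat.prime_iff_prime_int.mp hM.1
  have hcop : IsCoprime (p : ℤ) c := (Prime.coprime_iff_not_dvd hp).mpr hnd
  obtain ⟨s, t, hst⟩ := hcop
  have h1 : ((s * p + t * c : ℤ) : Cfsg.AlgInt) = 1 := by rw [hst]; simp
  have h2 : ((s * p + t * c : ℤ) : Cfsg.AlgInt) ∈ M := by
    push_cast
    exact M.add_mem (M.mul_mem_left _ hM.2.2) (M.mul_mem_left _ hc)
  rw [h1] at h2
  exact one_not_mem (isPrime_of_isPModular hM) h2

/-- the polynomial trick: if `a ∈ M` and `a ^ i * g(a) ∈ p * AlgInt` for an integer polynomial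
`g` not all of whose coefficients are divisible by `p`, then `a ^ j * u ∈ p * AlgInt` for some
`u ∉ M`. -/
lemma exists_pow_mul_aux {p : ℕ} (hM : Cfsg.IsPModular p M) (a : Cfsg.AlgInt) (ha : a ∈ M) :
    ∀ (i₀ : ℕ) (g : ℤ[X]), ¬ (p : ℤ) ∣ g.coeff i₀ → ∀ i : ℕ,
      (∃ w : Cfsg.AlgInt, a ^ i * aeval a g = (p : Cfsg.AlgInt) * w) →
      ∃ (j : ℕ) (u w : Cfsg.AlgInt), u ∉ M ∧ a ^ j * u = (p : Cfsg.AlgInt) * w := by
  intro i₀
  induction i₀ with
  | zero =>
    intro g hg i ⟨w, hw⟩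
    refine ⟨i, aeval a g, w, ?_, hw⟩
    intro hu
    apply hg
    apply int_dvd_of_mem hM
    have e : aeval a g = aeval a g.divX * a + ((g.coeff 0 : ℤ) : Cfsg.AlgInt) := by
      conv_lhs => rw [← Polynomial.divX_mul_X_add g]
      simp
    have h1 : ((g.coeff 0 : ℤ) : Cfsg.AlgInt) = aeval a g - aeval a g.divX * a := by
      rw [e]; ring
    rw [h1]
    exact M.sub_mem hu (M.mul_mem_left _ ha)
  | succ k ih =>
    intro g hg i ⟨w, hw⟩
    by_cases h0 : (p : ℤ) ∣ g.coeff 0
    · obtain ⟨c', hc'⟩ := h0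
      apply ih g.divX (by rw [Polynomial.coeff_divX]; exact hg) (i + 1)
      refine ⟨w - a ^ i * ((c' : ℤ) : Cfsg.AlgInt), ?_⟩
      have e : aeval a g = aeval a g.divX * a + ((g.coeff 0 : ℤ) : Cfsg.AlgInt) := by
        conv_lhs => rw [← Polynomial.divX_mul_X_add g]
        simp
      rw [e, hc'] at hw
      push_cast at hw
      have : a ^ (i + 1) * aeval a g.divX = a ^ i * (aeval a g.divX * a + (p : Cfsg.AlgInt) * (c' : Cfsg.AlgInt)) -
          (p : Cfsg.AlgInt) * (a ^ i * (c' : Cfsg.AlgInt)) := by ring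
      rw [this, hw]
      push_cast
      ring
    · -- same as the base case
      refine ⟨i, aeval a g, w, ?_, hw⟩
      intro hu
      apply h0
      apply int_dvd_of_mem hM
      have e : aeval a g = aeval a g.divX * a + ((g.coeff 0 : ℤ) : Cfsg.AlgInt) := by
        conv_lhs => rw [← Polynomial.divX_mul_X_add g]
        simp
      have h1 : ((g.coeff 0 : ℤ) : Cfsg.AlgInt) = aeval a g - aeval a g.divX * a := by
        rw [e]; ring
      rw [h1]
      exact M.sub_mem hu (M.mul_mem_left _ ha)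

/-- every element of the local ideal has a positive power divisible by `p` in the local ring -/
lemma exists_pow_div_prime {p : ℕ} (hM : Cfsg.IsPModular p M) {x : ℂ} (hx : MemLocalIdeal M x) :
    ∃ j : ℕ, 0 < j ∧ MemLocalRing M (x ^ j / (p : ℂ)) := by
  have hMp := isPrime_of_isPModular hM
  obtain ⟨a, b, ha, hb, hab⟩ := hx
  obtain ⟨f, hfm, hf⟩ := a.2
  have hf' : aeval a f = 0 := by
    apply Subtype.ext
    rw [Polynomial.aeval_subalgebra_coe]
    simpa [Polynomial.aeval_def] using hf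
  have hcoeff : ¬ (p : ℤ) ∣ f.coeff f.natDegree := by
    rw [Polynomial.coeff_natDegree, hfm.leadingCoeff]
    intro h
    have := Int.le_of_dvd one_pos h
    have hp2 := hM.1.two_le
    omega
  obtain ⟨j, u, w, hu, hjw⟩ := exists_pow_mul_aux hM a ha f.natDegree f hcoeff 0
    ⟨0, by rw [hf']; simp⟩
  have hp0 : (p : ℂ) ≠ 0 := by exact_mod_cast hM.1.ne_zero
  have hb0 : (b : ℂ) ≠ 0 := coe_ne_zero_of_not_mem hb
  have hu0 : (u : ℂ) ≠ 0 := coe_ne_zero_of_not_mem hu
  have hjw' : (a : ℂ) ^ j * (u : ℂ) = (p : ℂ) * (w : ℂ) := by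
    have := congrArg (fun z : Cfsg.AlgInt => (z : ℂ)) hjw
    simpa using this
  have hj : 0 < j := by
    rcases Nat.eq_zero_or_pos j with h | h
    · exfalso
      subst h
      apply hu
      have : u = (p : Cfsg.AlgInt) * w := by simpa using hjw
      rw [this]
      exact M.mul_mem_right _ hM.2.2
    · exact h
  refine ⟨j, hj, w, u * b ^ j, ?_, ?_⟩
  · intro h
    rcases hMp.mem_or_mem h with h | h
    · exact hu h
    · exact hb (hMp.mem_of_pow_mem _ h)
  · rw [← hab]
    have e : (a : ℂ) ^ j = (p : ℂ) * (w : ℂ) / (u : ℂ) := by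
      rw [← hjw']; field_simp
    show (w : ℂ) / ((u : ℂ) * (b : ℂ) ^ j) = ((a : ℂ) / (b : ℂ)) ^ j / (p : ℂ)
    rw [div_pow, e]
    field_simp

/-- a `j`-th root of `p` -/
noncomputable def pRoot (p j : ℕ) : ℂ := (p : ℂ) ^ ((j : ℂ)⁻¹)

lemma pRoot_pow (p : ℕ) {j : ℕ} (hj : j ≠ 0) : pRoot p j ^ j = (p : ℂ) := by
  unfold pRoot
  exact Complex.cpow_nat_inv_pow _ hj

lemma pRoot_ne_zero {p : ℕ} (hp : p ≠ 0) {j : ℕ} (hj : j ≠ 0) : pRoot p j ≠ 0 := by
  intro h
  have := pRoot_pow p hj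
  rw [h, zero_pow hj] at this
  exact hp (by exact_mod_cast this.symm)

/-- a finite family of elements of the local ideal is divisible by a common root of `p` -/
lemma exists_pRoot_div {p : ℕ} (hM : Cfsg.IsPModular p M) {ι : Type*} [Finite ι] (d : ι → ℂ)
    (hd : ∀ i, MemLocalIdeal M (d i)) :
    ∃ j : ℕ, j ≠ 0 ∧ ∀ i, MemLocalRing M (d i / pRoot p j) := by
  classical
  have := Fintype.ofFinite ι
  have hMp := isPrime_of_isPModular hM
  choose j hj0 hj using fun i => exists_pow_div_prime hM (hd i)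
  refine ⟨(∑ i, j i) + 1, by omega, fun i => ?_⟩
  have hJ : (∑ i, j i) + 1 ≠ 0 := by omega
  apply memLocalRing_of_pow (j := (∑ i, j i) + 1) (by omega)
  rw [div_pow, pRoot_pow p hJ]
  have hle : j i ≤ (∑ i, j i) + 1 :=
    le_trans (Finset.single_le_sum (f := j) (fun _ _ => Nat.zero_le _) (Finset.mem_univ i))
      (Nat.le_succ _)
  obtain ⟨r, hr⟩ := Nat.exists_eq_add_of_le hle
  rw [hr, pow_add]
  have : d i ^ j i * d i ^ r / (p : ℂ) = d i ^ j i / (p : ℂ) * d i ^ r := by ring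
  rw [this]
  exact memLocalRing_mul hMp (hj i) (memLocalRing_pow hMp (MemLocalIdeal.memLocalRing (hd i)) r)

/-- a natural number divisible in the local ring by every power of `p` is zero -/
lemma natCast_eq_zero_of_forall_div_pow {p : ℕ} (hM : Cfsg.IsPModular p M) (m : ℕ)
    (h : ∀ k : ℕ, MemLocalRing M ((m : ℂ) / (p : ℂ) ^ k)) : m = 0 := by
  have hMp := isPrime_of_isPModular hM
  have hp0 : (p : ℂ) ≠ 0 := by exact_mod_cast hM.1.ne_zero
  have key : ∀ k : ℕ, ∀ m : ℕ, MemLocalRing M ((m : ℂ) / (p : ℂ) ^ k) → p ^ k ∣ m := by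
    intro k
    induction k with
    | zero => intro m _; simp
    | succ k ih =>
      intro m hm
      have h1 : MemLocalIdeal M (m : ℂ) := by
        have e : (m : ℂ) = ((m : ℂ) / (p : ℂ) ^ (k + 1) * (p : ℂ) ^ k) * (p : ℂ) := by
          field_simp
          ring
        rw [e]
        exact memLocalIdeal_mul_left hMp
          (memLocalRing_mul hMp hm (memLocalRing_pow hMp (memLocalRing_natCast hMp p) k))
          ((memLocalIdeal_natCast_iff hM p).mpr dvd_rfl)
      obtain ⟨m', rfl⟩ := (memLocalIdeal_natCast_iff hM m).mp h1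
      have h2 : MemLocalRing M ((m' : ℂ) / (p : ℂ) ^ k) := by
        have e : (m' : ℂ) / (p : ℂ) ^ k = ((p * m' : ℕ) : ℂ) / (p : ℂ) ^ (k + 1) := by
          push_cast
          field_simp
          ring
        rw [e]; exact hm
      rw [pow_succ, mul_comm]
      exact Nat.mul_dvd_mul_left p (ih m' h2)
  by_contra hm
  have h1 := key m m (h m)
  have h2 := Nat.le_of_dvd (Nat.pos_of_ne_zero hm) h1
  have h3 := Nat.lt_pow_self (n := m) hM.1.one_lt
  omega

end Cfsg.Agent.Lib.Helper75
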