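import Mathlib
import Cfsg.Prelude.Def_Blocks
import Cfsg.Agent.Lib.Helper16.Cover
import Cfsg.Agent.Lib.Helper77.ClassAlg
import Cfsg.Agent.Lib.Helper75.CovVal

/-!
# The algebra of `N`-invariant functions on `G`, graded by `G ⧸ N`

Tools for the covering theorem: convolution of `N`-invariant functions, restriction to `N`,
the functional `TT θ φ = ω_θ(φ|_N)`, homogeneous components.
-/

set_option autoImplicit false
set_option linter.unusedSectionVars false

namespace Cfsg.Agent.Lib.Helper75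

open Cfsg Cfsg.Agent.Lib.Helper16
open scoped ComplexConjugate

section
variable {G : Type*} [Group G] [Fintype G] (N : Subgroup G) [hN : N.Normal] [Fintype N]
  {M : Ideal Cfsg.AlgInt}

lemma cv_apply {H : Type*} [Group H] [Fintype H] (a b : H → ℂ) (g : H) :
    conv a b g = ∑ h : H, a h * b (h⁻¹ * g) := rfl

lemma cv_assoc {H : Type*} [Group H] [Fintype H] (a b c : H → ℂ) :
    conv (conv a b) c = conv a (conv b c) :=
  Cfsg.Agent.Lib.Helper77.conv_assoc a b c

lemma cv_add_left {H : Type*} [Group H] [Fintype H] (a a' b : H → ℂ) :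
    conv (a + a') b = conv a b + conv a' b :=
  Cfsg.Agent.Lib.Helper77.conv_add_left a a' b

lemma cv_add_right {H : Type*} [Group H] [Fintype H] (a b b' : H → ℂ) :
    conv a (b + b') = conv a b + conv a b' :=
  Cfsg.Agent.Lib.Helper77.conv_add_right a b b'

lemma cv_zero_left {H : Type*} [Group H] [Fintype H] (b : H → ℂ) : conv 0 b = 0 :=
  Cfsg.Agent.Lib.Helper77.conv_zero_left b

lemma cv_zero_right {H : Type*} [Group H] [Fintype H] (a : H → ℂ) : conv a 0 = 0 :=
  Cfsg.Agent.Lib.Helper77.conv_zero_right a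

lemma cv_delta1_left {H : Type*} [Group H] [Fintype H] (b : H → ℂ) :
    conv Cfsg.Agent.Lib.Helper77.delta1 b = b :=
  Cfsg.Agent.Lib.Helper77.conv_delta1_left b

lemma cv_delta1_right {H : Type*} [Group H] [Fintype H] (a : H → ℂ) :
    conv a Cfsg.Agent.Lib.Helper77.delta1 = a :=
  Cfsg.Agent.Lib.Helper77.conv_delta1_right a

/-- invariance under conjugation by `N` -/
def NInv (φ : G → ℂ) : Prop := ∀ n ∈ N, ∀ g : G, φ (n * g * n⁻¹) = φ g

/-- supported on `N` -/
def SuppN (φ : G → ℂ) : Prop := ∀ g, g ∉ N → φ g = 0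

/-- supported on the coset `t` -/
def CosetSupp (t : G ⧸ N) (φ : G → ℂ) : Prop := ∀ g : G, (g : G ⧸ N) ≠ t → φ g = 0

open scoped Classical in
/-- the homogeneous component of degree `t` -/
noncomputable def comp (t : G ⧸ N) (φ : G → ℂ) : G → ℂ :=
  fun g => if (g : G ⧸ N) = t then φ g else 0

lemma sum_eq_sum_subgroup (f : G → ℂ) (hf : ∀ g, g ∉ N → f g = 0) :
    ∑ g : G, f g = ∑ n : N, f n := by
  classical
  have h1 : ∑ n : N, f n =
      ∑ g ∈ (Finset.univ : Finset N).map (Function.Embedding.subtype _), f g := by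
    rw [Finset.sum_map]; rfl
  rw [h1]
  symm
  apply Finset.sum_subset (Finset.subset_univ _)
  intro x _ hx
  apply hf
  intro hxN
  apply hx
  rw [Finset.mem_map]
  exact ⟨⟨x, hxN⟩, Finset.mem_univ _, rfl⟩

lemma nInv_of_isClassFunction {φ : G → ℂ} (h : Cfsg.IsClassFunction G φ) : NInv N φ :=
  fun n _ g => h g n

lemma nInv_conv {a b : G → ℂ} (ha : NInv N a) (hb : NInv N b) : NInv N (conv a b) := by
  intro n hn g
  unfold conv
  apply Fintype.sum_equiv (MulAut.conj n⁻¹).toEquiv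
  intro x
  simp only [MulEquiv.toEquiv_eq_coe, MulEquiv.coe_toEquiv, MulAut.conj_apply, inv_inv]
  have h1 := ha n⁻¹ (N.inv_mem hn) x
  simp only [inv_inv] at h1
  rw [h1]
  have h2 := hb n⁻¹ (N.inv_mem hn) (x⁻¹ * (n * g * n⁻¹))
  simp only [inv_inv] at h2
  rw [← h2]
  congr 2
  group

lemma conv_comm_of_suppN {w A : G → ℂ} (hw : SuppN N w) (hA : NInv N A) :
    conv A w = conv w A := by
  funext g
  simp only [cv_apply]
  apply Fintype.sum_equiv ((Equiv.inv G).trans (Equiv.mulRight g))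
  intro h
  simp only [Equiv.trans_apply, Equiv.inv_apply, Equiv.coe_mulRight, mul_inv_rev, inv_inv]
  by_cases hk : h⁻¹ * g ∈ N
  · have e : A (g⁻¹ * h * g) = A h := by
      have := hA (h⁻¹ * g)⁻¹ (N.inv_mem hk) h
      rw [← this]
      congr 1
      group
    rw [e, mul_comm]
  · rw [hw _ hk]
    ring

lemma resFun_conv_left {w : G → ℂ} (hw : SuppN N w) (F : G → ℂ) :
    resFun N (conv w F) = conv (resFun N w) (resFun N F) := by
  funext m
  show ∑ x : G, w x * F (x⁻¹ * m) = ∑ n : N, w n * F ((n⁻¹ * m : N) : G)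
  rw [sum_eq_sum_subgroup N (fun x => w x * F (x⁻¹ * m)) (fun g hg => by simp [hw g hg])]
  rfl

lemma resFun_conv_right {w : G → ℂ} (hw : SuppN N w) (F : G → ℂ) :
    resFun N (conv F w) = conv (resFun N F) (resFun N w) := by
  funext m
  show ∑ x : G, F x * w (x⁻¹ * m) = ∑ n : N, F n * w ((n⁻¹ * m : N) : G)
  rw [sum_eq_sum_subgroup N (fun x => F x * w (x⁻¹ * m)) (fun g hg => by
    have : g⁻¹ * (m : G) ∉ N := fun h => hg (by
      have h1 := (N.mul_mem_cancel_right m.2).mp h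
      exact N.inv_mem_iff.mp h1)
    simp [hw _ this])]
  rfl

lemma isClassFunction_resFun_of_nInv {φ : G → ℂ} (h : NInv N φ) :
    Cfsg.IsClassFunction N (resFun N φ) := by
  intro n x
  show φ ((x * n * x⁻¹ : N) : G) = φ n
  have := h x x.2 n
  simpa using this

/-- the functional `φ ↦ ω_θ(φ|_N)` -/
noncomputable def TT (θ : N → ℂ) (φ : G → ℂ) : ℂ := omega θ (resFun N φ)

lemma TT_add (θ : N → ℂ) (φ ψ : G → ℂ) : TT N θ (φ + ψ) = TT N θ φ + TT N θ ψ := by
  unfold TT
  rw [show resFun N (φ + ψ) = resFun N φ + resFun N ψ from rfl, omega_add]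

lemma TT_zero (θ : N → ℂ) : TT N θ (0 : G → ℂ) = 0 := by
  unfold TT
  rw [show resFun N (0 : G → ℂ) = 0 from rfl, omega_zero]

lemma TT_conv_mid (θ : Cfsg.IrrCharacter N) {A w B' : G → ℂ} (hA : NInv N A) (hB : NInv N B')
    (hw : NInv N w) (hws : SuppN N w) :
    TT N (θ : N → ℂ) (conv (conv A w) B') =
      TT N (θ : N → ℂ) w * TT N (θ : N → ℂ) (conv A B') := by
  unfold TT
  rw [conv_comm_of_suppN N hws hA, cv_assoc, resFun_conv_left N hws,
    omega_conv θ (isClassFunction_resFun_of_nInv N hw)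
      (isClassFunction_resFun_of_nInv N (nInv_conv N hA hB))]

lemma cosetSupp_conv {t s : G ⧸ N} {a b : G → ℂ} (ha : CosetSupp N t a)
    (hb : CosetSupp N s b) : CosetSupp N (t * s) (conv a b) := by
  intro g hg
  show ∑ x, a x * b (x⁻¹ * g) = 0
  apply Finset.sum_eq_zero
  intro x _
  by_cases hx : (x : G ⧸ N) = t
  · have : ((x⁻¹ * g : G) : G ⧸ N) ≠ s := by
      intro h
      apply hg
      have e : (g : G ⧸ N) = (x : G ⧸ N) * ((x⁻¹ * g : G) : G ⧸ N) := by
        rw [← QuotientGroup.mk_mul]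
        congr 1
        group
      rw [e, hx, h]
    rw [hb _ this, mul_zero]
  · rw [ha _ hx, zero_mul]

lemma suppN_of_cosetSupp_one {φ : G → ℂ} (h : CosetSupp N 1 φ) : SuppN N φ := by
  intro g hg
  apply h
  intro h1
  exact hg ((QuotientGroup.eq_one_iff g).mp h1)

lemma cosetSupp_comp (t : G ⧸ N) (φ : G → ℂ) : CosetSupp N t (comp N t φ) := by
  intro g hg
  unfold comp
  rw [if_neg hg]

lemma nInv_comp {φ : G → ℂ} (h : NInv N φ) (t : G ⧸ N) : NInv N (comp N t φ) := by
  intro n hn g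
  unfold comp
  have e : ((n * g * n⁻¹ : G) : G ⧸ N) = (g : G ⧸ N) := by
    rw [QuotientGroup.mk_mul, QuotientGroup.mk_mul, QuotientGroup.mk_inv,
      (QuotientGroup.eq_one_iff n).mpr hn]
    simp
  rw [e, h n hn g]

lemma sum_comp [Fintype (G ⧸ N)] (φ : G → ℂ) : ∑ t : G ⧸ N, comp N t φ = φ := by
  classical
  funext g
  rw [Finset.sum_apply]
  unfold comp
  rw [Finset.sum_ite_eq]
  simp

lemma resFun_comp_conv (t : G ⧸ N) (E c : G → ℂ) :
    resFun N (conv (comp N t E) c) = resFun N (conv E (comp N t⁻¹ c)) := by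
  funext m
  show ∑ x, comp N t E x * c (x⁻¹ * m) = ∑ x, E x * comp N t⁻¹ c (x⁻¹ * m)
  apply Finset.sum_congr rfl
  intro x _
  unfold comp
  have e : ((x⁻¹ * (m : G) : G) : G ⧸ N) = (x : G ⧸ N)⁻¹ := by
    rw [QuotientGroup.mk_mul, (QuotientGroup.eq_one_iff (m : G)).mpr m.2, mul_one,
      QuotientGroup.mk_inv]
  rw [e]
  by_cases hx : (x : G ⧸ N) = t
  · rw [if_pos hx, if_pos (by rw [hx])]
  · rw [if_neg hx, if_neg (fun h => hx (inv_injective h)), zero_mul, mul_zero]

/-- `N`-invariant functions with values in the local ring -/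
def Lam (M : Ideal Cfsg.AlgInt) (φ : G → ℂ) : Prop :=
  NInv N φ ∧ ∀ g, MemLocalRing M (φ g)

lemma lam_conv (hM : M.IsPrime) {a b : G → ℂ} (ha : Lam N M a) (hb : Lam N M b) :
    Lam N M (conv a b) :=
  ⟨nInv_conv N ha.1 hb.1, fun _ =>
    memLocalRing_sum hM _ _ (fun x _ => memLocalRing_mul hM (ha.2 x) (hb.2 _))⟩

lemma lam_comp (hM : M.IsPrime) {a : G → ℂ} (ha : Lam N M a) (t : G ⧸ N) :
    Lam N M (comp N t a) := by
  refine ⟨nInv_comp N ha.1 t, fun g => ?_⟩
  unfold comp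
  split_ifs
  · exact ha.2 g
  · exact memLocalRing_zero hM

lemma lam_delta1 (hM : M.IsPrime) : Lam N M (Cfsg.Agent.Lib.Helper77.delta1 : G → ℂ) := by
  refine ⟨nInv_of_isClassFunction N Cfsg.Agent.Lib.Helper77.isClassFunction_delta1,
    Cfsg.Agent.Lib.Helper77.locInt_delta1 hM⟩

lemma lam_of_isRClass {α : G → ℂ} (h : IsRClass M α) : Lam N M α :=
  ⟨nInv_of_isClassFunction N h.1, h.2⟩

lemma isRClass_resFun_of_lam {φ : G → ℂ} (h : Lam N M φ) : IsRClass M (resFun N φ) :=
  ⟨isClassFunction_resFun_of_nInv N h.1, fun n => h.2 n⟩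

lemma memLocalRing_TT (hM : M.IsPrime) (θ : Cfsg.IrrCharacter N) {φ : G → ℂ}
    (h : Lam N M φ) : MemLocalRing M (TT N (θ : N → ℂ) φ) :=
  memLocalRing_omega hM θ (isRClass_resFun_of_lam N h)

/-- if no member of `B` lies over `θ`, then `ω_θ` kills `(e_B * c)|_N` for every `N`-invariant
`c` -/
theorem TT_conv_blockCoeff_eq_zero (hM : M.IsPrime) {B : Set (Cfsg.IrrCharacter G)}
    (hB : Cfsg.IsPBlock M B) (θ : Cfsg.IrrCharacter N)
    (hθ : ∀ χ ∈ B, Cfsg.classInner (fun n : N => (χ : G → ℂ) n) (θ : N → ℂ) = 0)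
    {c : G → ℂ} (hc : NInv N c) :
    TT N (θ : N → ℂ) (conv (Cfsg.blockCoeff B) c) = 0 := by
  classical
  haveI : Fintype (Cfsg.IrrCharacter N) := Fintype.ofFinite _
  set S : Finset (Cfsg.IrrCharacter N) := Finset.univ.filter
    (fun θ' => ∀ χ ∈ B, Cfsg.classInner (fun n : N => (χ : G → ℂ) n) (θ' : N → ℂ) = 0) with hS
  have hSstab : ∀ θ' ∈ S, ∀ g : G, conjIrr N θ' g ∈ S := by
    intro θ' hθ' g
    rw [hS, Finset.mem_filter] at hθ' ⊢
    refine ⟨Finset.mem_univ _, fun χ hχ => ?_⟩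
    have := Cfsg.Agent.Lib.Helper75.classInner_res_conjChar N
      (fun g x => irrCharacter_conj_eq χ x g) (θ' : N → ℂ) g
    show Cfsg.classInner (fun n : N => (χ : G → ℂ) n) (conjChar N (θ' : N → ℂ) g) = 0
    rw [this]
    exact hθ'.2 χ hχ
  have hεc : Cfsg.IsClassFunction G (normalIdem N S) := isClassFunction_normalIdem N S hSstab
  have hE := isRClass_blockCoeff hM hB
  have h0 : conv (Cfsg.blockCoeff B) (normalIdem N S) = 0 := by
    apply eq_zero_of_omega_eq_zero (isClassFunction_conv hE.1 hεc)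
    intro ψ
    rw [omega_conv ψ hE.1 hεc, omega_blockCoeff hM hB]
    split_ifs with hψ
    · rw [omega_normalIdem_eq_zero N S _ (fun θ' hθ' => by
        rw [hS, Finset.mem_filter] at hθ'
        exact hθ'.2 ψ hψ), mul_zero]
    · rw [zero_mul]
  have hεs : SuppN N (normalIdem N S) :=
    fun g hg => Cfsg.Agent.Lib.Helper3.extendByZero_of_not_mem N _ hg
  have h1 : conv (conv (Cfsg.blockCoeff B) c) (normalIdem N S) = 0 := by
    rw [cv_assoc, conv_comm_of_suppN N hεs hc, ← cv_assoc, h0, cv_zero_left]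
  have h2 := congrArg (resFun N) h1
  rw [resFun_conv_right N hεs] at h2
  have h3 : resFun N (normalIdem N S) = ∑ θ' ∈ S, idem (θ' : N → ℂ) := by
    funext m
    unfold resFun normalIdem
    rw [Cfsg.Agent.Lib.Helper3.extendByZero_coe]
  have hz : Cfsg.IsClassFunction N (resFun N (conv (Cfsg.blockCoeff B) c)) :=
    isClassFunction_resFun_of_nInv N (nInv_conv N (nInv_of_isClassFunction N hE.1) hc)
  have hi : Cfsg.IsClassFunction N (resFun N (normalIdem N S)) :=
    isClassFunction_resFun_of_nInv N (nInv_of_isClassFunction N hεc)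
  have h4 := omega_conv θ hz hi
  rw [h2] at h4
  have h5 : omega (θ : N → ℂ) (resFun N (normalIdem N S)) = 1 := by
    rw [h3, omega_sum]
    simp_rw [omega_idem]
    rw [Finset.sum_ite_eq', if_pos (by
      rw [hS, Finset.mem_filter]
      exact ⟨Finset.mem_univ _, hθ⟩)]
  rw [h5, mul_one] at h4
  unfold TT
  rw [← h4]
  show omega (θ : N → ℂ) (0 : N → ℂ) = 0
  exact omega_zero _

/-- congruence of central characters modulo a divisor of all the differences -/
lemma memLocalRing_omega_sub_div (hM : M.IsPrime) {H : Type*} [Group H] [Fintype H]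
    (χ ψ : Cfsg.IrrCharacter H) (ϖ : ℂ)
    (h : ∀ g : H, MemLocalRing M
      ((Cfsg.centralChar (χ : H → ℂ) g - Cfsg.centralChar (ψ : H → ℂ) g) / ϖ))
    {α : H → ℂ} (hα : IsRClass M α) :
    MemLocalRing M ((omega (χ : H → ℂ) α - omega (ψ : H → ℂ) α) / ϖ) := by
  classical
  unfold omega
  rw [← Finset.sum_sub_distrib, Finset.sum_div]
  apply sum_class_invariant_mem (MemLocalRing M) (memLocalRing_zero hM)
    (fun a b ha hb => memLocalRing_add hM ha hb)
    (fun g => (α g * (χ : H → ℂ) g / (χ : H → ℂ) 1 - α g * (ψ : H → ℂ) g / (ψ : H → ℂ) 1) / ϖ)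
  · intro x g
    simp only [hα.1 g x, irrCharacter_conj_eq]
  · intro g
    have e : ((Subgroup.centralizer ({g} : Set H)).index : ℂ) *
        ((α g * (χ : H → ℂ) g / (χ : H → ℂ) 1 - α g * (ψ : H → ℂ) g / (ψ : H → ℂ) 1) / ϖ) =
        α g * ((Cfsg.centralChar (χ : H → ℂ) g - Cfsg.centralChar (ψ : H → ℂ) g) / ϖ) := by
      unfold Cfsg.centralChar
      ring
    rw [e]
    exact memLocalRing_mul hM (hα.2 g) (h g)
  · intro x g _
    exact Finset.mem_univ _

end

end Cfsg.Agent.Lib.Helper75
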