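import Mathlib
import Cfsg.Prelude.Def_Blocks
import Cfsg.Agent.Lib.Helper75.CovAlg
import Cfsg.Agent.Lib.Helper75.CharDecomp
import Cfsg.Agent.Lib.Helper75.CharInd
import Cfsg.Agent.Lib.Helper80.CharKer

/-!
# The covering theorem for blocks of a normal subgroup

If a block `B` of `G` covers a block `b` of the normal subgroup `N`, then every member of `b`
lies under some member of `B`.

The proof is elementary: with `E` the block idempotent of `B` (as a function on `G`), the
homogeneous components of `E` for the `G ⧸ N`-grading all lie in the "ideal" of `N`-invariant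
functions `y` with `ω_θ₀((y * c)|_N) ≡ 0` modulo a fixed element `ϖ` of the local ideal, for a
character `θ₀` of `b` under `B`, as soon as some member of `b` is not under `B`.  A pigeonhole
argument on the degrees shows that a product of `k |G : N|` such components has
`ω_θ₀ ≡ 0` modulo `ϖ ^ k`.  As `E` is idempotent, `ω_θ₀(E|_N)`, a nonzero rational number,
would be divisible by all powers of `ϖ`.
-/

set_option autoImplicit false
set_option linter.unusedSectionVars false

namespace Cfsg.Agent.Lib.Helper75

open Cfsg Cfsg.Agent.Lib.Helper16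
open scoped ComplexConjugate

/-- pigeonhole: a list of at least `|Q|` elements of a finite group `Q` has a nonempty block of
consecutive entries, of length at most `|Q|`, with product `1` -/
lemma exists_block_prod_one {Q : Type*} [Group Q] [Fintype Q] {α : Type*} (f : α → Q)
    (L : List α) (hL : Fintype.card Q ≤ L.length) :
    ∃ L₁ L₂ L₃ : List α, L = L₁ ++ L₂ ++ L₃ ∧ L₂ ≠ [] ∧ L₂.length ≤ Fintype.card Q ∧
      (L₂.map f).prod = 1 := by
  classical
  set n := Fintype.card Q with hn
  let P : Fin (n + 1) → Q := fun i => ((L.take i).map f).prod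
  have key : ∀ i j : Fin (n + 1), i < j → P i = P j →
      ∃ L₁ L₂ L₃ : List α, L = L₁ ++ L₂ ++ L₃ ∧ L₂ ≠ [] ∧ L₂.length ≤ n ∧
        (L₂.map f).prod = 1 := by
    intro i j hij hP
    have hi : (i : ℕ) < j := hij
    have hj : (j : ℕ) ≤ n := Nat.lt_succ_iff.mp j.2
    have e1 : L.take j = L.take i ++ (L.take j).drop i := by
      have := List.take_append_drop i (L.take j)
      rw [List.take_take, min_eq_left hi.le] at this
      exact this.symm
    refine ⟨L.take i, (L.take j).drop i, L.drop j, ?_, ?_, ?_, ?_⟩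
    · rw [← e1, List.take_append_drop]
    · intro h
      have := congrArg List.length h
      simp only [List.length_drop, List.length_take, List.length_nil] at this
      omega
    · simp only [List.length_drop, List.length_take]
      omega
    · have h1 : P j = P i * (((L.take j).drop i).map f).prod := by
        show ((L.take j).map f).prod = ((L.take i).map f).prod * _
        conv_lhs => rw [e1]
        rw [List.map_append, List.prod_append]
      rw [← hP] at h1
      exact (mul_eq_left.mp h1.symm)
  obtain ⟨i, j, hij, hP⟩ := Fintype.exists_ne_map_eq_of_card_lt P (by simp [hn])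
  rcases lt_or_gt_of_ne hij with h | h
  · exact key i j h hP
  · exact key j i h hP.symm

section main
variable {G : Type*} [Group G] [Fintype G] (N : Subgroup G) [hN : N.Normal] [Fintype N]
  {M : Ideal Cfsg.AlgInt}

/-- iterated convolution product of a list -/
noncomputable def lprod : List (G → ℂ) → (G → ℂ)
  | [] => Cfsg.Agent.Lib.Helper77.delta1
  | a :: l => conv a (lprod l)

lemma lprod_nil : lprod ([] : List (G → ℂ)) = Cfsg.Agent.Lib.Helper77.delta1 := rfl

lemma lprod_cons (a : G → ℂ) (l : List (G → ℂ)) : lprod (a :: l) = conv a (lprod l) := rfl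

lemma lprod_append (l₁ l₂ : List (G → ℂ)) :
    lprod (l₁ ++ l₂) = conv (lprod l₁) (lprod l₂) := by
  induction l₁ with
  | nil => rw [List.nil_append, lprod_nil, cv_delta1_left]
  | cons a l ih => rw [List.cons_append, lprod_cons, lprod_cons, ih, cv_assoc]

lemma lam_lprod (hM : M.IsPrime) (l : List (G → ℂ)) (h : ∀ y ∈ l, Lam N M y) :
    Lam N M (lprod l) := by
  induction l with
  | nil => exact lam_delta1 N hM
  | cons a l ih =>
    rw [lprod_cons]
    exact lam_conv N hM (h a (List.mem_cons_self)) (ih (fun y hy => h y (List.mem_cons_of_mem _ hy)))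

lemma cosetSupp_lprod (L : List ((G ⧸ N) × (G → ℂ))) (h : ∀ q ∈ L, CosetSupp N q.1 q.2) :
    CosetSupp N (L.map Prod.fst).prod (lprod (L.map Prod.snd)) := by
  induction L with
  | nil =>
    intro g hg
    simp only [List.map_nil, List.prod_nil] at hg
    show Cfsg.Agent.Lib.Helper77.delta1 g = 0
    rw [Cfsg.Agent.Lib.Helper77.delta1_apply, if_neg]
    intro h1
    apply hg
    rw [h1]
    rfl
  | cons q L ih =>
    rw [List.map_cons, List.map_cons, List.prod_cons, lprod_cons]
    exact cosetSupp_conv N (h q (List.mem_cons_self))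
      (ih (fun q' hq' => h q' (List.mem_cons_of_mem _ hq')))

/-- membership in the "ideal" of `N`-invariant functions `y` with `ω_θ₀((y * c)|_N)` divisible
by `ϖ` for all `c` -/
def Jmem (M : Ideal Cfsg.AlgInt) (ϖ : ℂ) (θ₀ : N → ℂ) (y : G → ℂ) : Prop :=
  Lam N M y ∧ ∀ c, Lam N M c → MemLocalRing M (TT N θ₀ (conv y c) / ϖ)

theorem pigeon_aux (hM : M.IsPrime) (θ₀ : Cfsg.IrrCharacter N) (ϖ : ℂ) [Fintype (G ⧸ N)] :
    ∀ (k : ℕ) (L : List ((G ⧸ N) × (G → ℂ))),
      (∀ q ∈ L, CosetSupp N q.1 q.2 ∧ Jmem N M ϖ (θ₀ : N → ℂ) q.2) →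
      k * Fintype.card (G ⧸ N) ≤ L.length →
      ∀ c, Lam N M c →
        MemLocalRing M (TT N (θ₀ : N → ℂ) (conv (lprod (L.map Prod.snd)) c) / ϖ ^ k) := by
  intro k
  induction k with
  | zero =>
    intro L hL _ c hc
    rw [pow_zero, div_one]
    apply memLocalRing_TT N hM θ₀
    apply lam_conv N hM _ hc
    apply lam_lprod N hM
    intro y hy
    rw [List.mem_map] at hy
    obtain ⟨q, hq, rfl⟩ := hy
    exact (hL q hq).2.1
  | succ k ih =>
    intro L hL hlen c hc
    have hn : Fintype.card (G ⧸ N) ≤ L.length := by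
      have : Fintype.card (G ⧸ N) ≤ (k + 1) * Fintype.card (G ⧸ N) := Nat.le_mul_of_pos_left _ (by omega)
      omega
    obtain ⟨L₁, L₂, L₃, hL123, hne, hlen2, hprod⟩ := exists_block_prod_one Prod.fst L hn
    have hL₁ : ∀ q ∈ L₁, CosetSupp N q.1 q.2 ∧ Jmem N M ϖ (θ₀ : N → ℂ) q.2 := by
      intro q hq
      apply hL q
      rw [hL123]
      simp [hq]
    have hL₂ : ∀ q ∈ L₂, CosetSupp N q.1 q.2 ∧ Jmem N M ϖ (θ₀ : N → ℂ) q.2 := by
      intro q hq
      apply hL q
      rw [hL123]
      simp [hq]
    have hL₃ : ∀ q ∈ L₃, CosetSupp N q.1 q.2 ∧ Jmem N M ϖ (θ₀ : N → ℂ) q.2 := by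
      intro q hq
      apply hL q
      rw [hL123]
      simp [hq]
    have lamL : ∀ L' : List ((G ⧸ N) × (G → ℂ)),
        (∀ q ∈ L', CosetSupp N q.1 q.2 ∧ Jmem N M ϖ (θ₀ : N → ℂ) q.2) →
        Lam N M (lprod (L'.map Prod.snd)) := by
      intro L' hL'
      apply lam_lprod N hM
      intro y hy
      rw [List.mem_map] at hy
      obtain ⟨q, hq, rfl⟩ := hy
      exact (hL' q hq).2.1
    set A := lprod (L₁.map Prod.snd) with hA
    set w := lprod (L₂.map Prod.snd) with hw
    set C := lprod (L₃.map Prod.snd) with hC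
    have hAl : Lam N M A := lamL L₁ hL₁
    have hwl : Lam N M w := lamL L₂ hL₂
    have hCl : Lam N M C := lamL L₃ hL₃
    have hws : SuppN N w := by
      apply suppN_of_cosetSupp_one
      have := cosetSupp_lprod N L₂ (fun q hq => (hL₂ q hq).1)
      rwa [hprod] at this
    -- `TT w` is divisible by `ϖ`
    have hTw : MemLocalRing M (TT N (θ₀ : N → ℂ) w / ϖ) := by
      obtain ⟨q, L₂', rfl⟩ := List.exists_cons_of_ne_nil hne
      have hq := (hL₂ q (List.mem_cons_self)).2.2
      have hl' : Lam N M (lprod (L₂'.map Prod.snd)) :=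
        lamL L₂' (fun q' hq' => hL₂ q' (List.mem_cons_of_mem _ hq'))
      have := hq _ hl'
      rw [hw, List.map_cons, lprod_cons]
      exact this
    have e1 : lprod (L.map Prod.snd) = conv (conv A w) C := by
      rw [hL123, List.map_append, List.map_append, lprod_append, lprod_append]
    have e2 : lprod ((L₁ ++ L₃).map Prod.snd) = conv A C := by
      rw [List.map_append, lprod_append]
    have hIH := ih (L₁ ++ L₃) (by
      intro q hq
      rw [List.mem_append] at hq
      rcases hq with hq | hq
      · exact hL₁ q hq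
      · exact hL₃ q hq) (by
      have h1 : L.length = L₁.length + L₂.length + L₃.length := by
        rw [hL123, List.length_append, List.length_append]
      rw [List.length_append]
      have h2 : (k + 1) * Fintype.card (G ⧸ N) = k * Fintype.card (G ⧸ N) + Fintype.card (G ⧸ N) := by
        ring
      omega) c hc
    rw [e2] at hIH
    rw [e1, cv_assoc, TT_conv_mid N θ₀ hAl.1 (lam_conv N hM hCl hc).1 hwl.1 hws, ← cv_assoc]
    have e3 : TT N (θ₀ : N → ℂ) w * TT N (θ₀ : N → ℂ) (conv (conv A C) c) / ϖ ^ (k + 1) =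
        (TT N (θ₀ : N → ℂ) w / ϖ) * (TT N (θ₀ : N → ℂ) (conv (conv A C) c) / ϖ ^ k) := by
      rw [pow_succ]
      ring
    rw [e3]
    exact memLocalRing_mul hM hTw hIH

lemma lprod_mid (l : List (G → ℂ)) (y : G → ℂ) (r : List (G → ℂ)) :
    lprod (l ++ [y] ++ r) = conv (lprod l) (conv y (lprod r)) := by
  rw [List.append_assoc, lprod_append, List.singleton_append, lprod_cons]

theorem pigeon_main (hM : M.IsPrime) (θ₀ : Cfsg.IrrCharacter N) (ϖ : ℂ) [Fintype (G ⧸ N)]
    (k : ℕ) :
    ∀ (l₁ : List (G → ℂ)),
      (∀ y ∈ l₁, y ∈ AddSubmonoid.closure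
        {y : G → ℂ | ∃ t : G ⧸ N, CosetSupp N t y ∧ Jmem N M ϖ (θ₀ : N → ℂ) y}) →
      ∀ (L : List ((G ⧸ N) × (G → ℂ))),
        (∀ q ∈ L, CosetSupp N q.1 q.2 ∧ Jmem N M ϖ (θ₀ : N → ℂ) q.2) →
        k * Fintype.card (G ⧸ N) ≤ l₁.length + L.length →
        ∀ c, Lam N M c →
          MemLocalRing M
            (TT N (θ₀ : N → ℂ) (conv (lprod (l₁ ++ L.map Prod.snd)) c) / ϖ ^ k) := by
  intro l₁
  induction l₁ using List.reverseRecOn with
  | nil =>
    intro _ L hL hlen c hc
    rw [List.nil_append]
    exact pigeon_aux N hM θ₀ ϖ k L hL (by simpa using hlen) c hc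
  | append_singleton l y ih =>
    intro hl
    have hy := hl y (by simp)
    have hl' : ∀ y' ∈ l, y' ∈ AddSubmonoid.closure
        {y : G → ℂ | ∃ t : G ⧸ N, CosetSupp N t y ∧ Jmem N M ϖ (θ₀ : N → ℂ) y} :=
      fun y' hy' => hl y' (by simp [hy'])
    have hlen' : (l ++ [y]).length = l.length + 1 := by simp
    rw [hlen']
    clear hl hlen'
    induction hy using AddSubmonoid.closure_induction with
    | mem y hy =>
      obtain ⟨t, ht, hJ⟩ := hy
      intro L hL hlen c hc
      have e : l ++ [y] ++ L.map Prod.snd = l ++ (((t, y) :: L).map Prod.snd) := by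
        rw [List.map_cons, List.append_assoc, List.singleton_append]
      rw [e]
      apply ih hl' ((t, y) :: L) _ _ c hc
      · intro q hq
        rw [List.mem_cons] at hq
        rcases hq with rfl | hq
        · exact ⟨ht, hJ⟩
        · exact hL q hq
      · rw [List.length_cons]
        omega
    | zero =>
      intro L _ _ c _
      rw [lprod_mid, cv_zero_left, cv_zero_right, cv_zero_left, TT_zero, zero_div]
      exact memLocalRing_zero hM
    | add y₁ y₂ _ _ h₁ h₂ =>
      intro L hL hlen c hc
      rw [lprod_mid, cv_add_left, cv_add_right, cv_add_left, TT_add, add_div]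
      have := memLocalRing_add hM (h₁ L hL hlen c hc) (h₂ L hL hlen c hc)
      rw [lprod_mid, lprod_mid] at this
      exact this

end main

end Cfsg.Agent.Lib.Helper75
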