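import Mathlib
import Cfsg.Prelude.Def_Blocks
import Cfsg.Agent.Lib.Helper75.CovMain

/-!
# The covering theorem: every member of a covered block lies under the covering block
-/

set_option autoImplicit false
set_option linter.unusedSectionVars false

namespace Cfsg.Agent.Lib.Helper75

open Cfsg Cfsg.Agent.Lib.Helper16
open scoped ComplexConjugate

section
variable {G : Type*} [Group G] [Fintype G] (N : Subgroup G) [hN : N.Normal] [Fintype N]
  {M : Ideal Cfsg.AlgInt}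

lemma conv_blockCoeff_idem (hM : M.IsPrime) {B : Set (Cfsg.IrrCharacter G)}
    (hB : Cfsg.IsPBlock M B) :
    conv (Cfsg.blockCoeff B) (Cfsg.blockCoeff B) = Cfsg.blockCoeff B := by
  classical
  have hE := isRClass_blockCoeff hM hB
  have h : conv (Cfsg.blockCoeff B) (Cfsg.blockCoeff B) - Cfsg.blockCoeff B = 0 := by
    apply eq_zero_of_omega_eq_zero
    · intro g h
      simp only [Pi.sub_apply]
      rw [isClassFunction_conv hE.1 hE.1 g h, hE.1 g h]
    · intro ψ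
      rw [omega_sub, omega_conv ψ hE.1 hE.1, omega_blockCoeff hM hB]
      split_ifs <;> simp
  exact sub_eq_zero.mp h

lemma lprod_replicate_idem {E : G → ℂ} (hE : conv E E = E) (m : ℕ) :
    lprod (List.replicate (m + 1) E) = E := by
  induction m with
  | zero =>
    show conv E Cfsg.Agent.Lib.Helper77.delta1 = E
    exact cv_delta1_right E
  | succ m ih => rw [List.replicate_succ, lprod_cons, ih, hE]

/-- `ω_θ₀(e_B|_N)` times `θ₀(1) |G : N|` is a natural number, nonzero when some member of `B`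
lies over `θ₀` -/
lemma TT_blockCoeff_nat (θ₀ : Cfsg.IrrCharacter N) (B : Set (Cfsg.IrrCharacter G)) :
    ∃ m : ℕ, (m : ℂ) = TT N (θ₀ : N → ℂ) (Cfsg.blockCoeff B) *
        ((Cfsg.charDegree (θ₀ : N → ℂ) * N.index : ℕ) : ℂ) ∧
      ∀ χ ∈ B, Cfsg.classInner (fun n : N => (χ : G → ℂ) n) (θ₀ : N → ℂ) ≠ 0 → m ≠ 0 := by
  classical
  haveI : Fintype (Cfsg.IrrCharacter G) := Fintype.ofFinite _
  have hk : ∀ χ : Cfsg.IrrCharacter G, ∃ k : ℕ,
      Cfsg.classInner (θ₀ : N → ℂ) (fun n : N => (χ : G → ℂ) n) = k :=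
    fun χ => classInner_irr_char_nat
      (isCharacter_res N (Cfsg.Agent.Lib.Helper3.isCharacter_of_irr χ.2)) θ₀.2
  choose k hk using hk
  have hdχ : ∀ χ : Cfsg.IrrCharacter G, (χ : G → ℂ) 1 = (Cfsg.charDegree (χ : G → ℂ) : ℂ) :=
    fun χ => Cfsg.Agent.Lib.Helper80.char_one_eq_charDegree
      (Cfsg.Agent.Lib.Helper3.isCharacter_of_irr χ.2)
  have hd₀ : (θ₀ : N → ℂ) 1 = (Cfsg.charDegree (θ₀ : N → ℂ) : ℂ) :=
    Cfsg.Agent.Lib.Helper80.char_one_eq_charDegree
      (Cfsg.Agent.Lib.Helper3.isCharacter_of_irr θ₀.2)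
  have hθ1 : (θ₀ : N → ℂ) 1 ≠ 0 := irr_one_ne_zero θ₀
  have hN0 : (Nat.card N : ℂ) ≠ 0 := card_ne_zero
  have hG0 : (Nat.card G : ℂ) ≠ 0 := card_ne_zero
  have hG : (Nat.card G : ℂ) = (N.index : ℂ) * (Nat.card N : ℂ) := by
    rw [← Nat.cast_mul, Subgroup.index_mul_card]
  refine ⟨∑ χ : Cfsg.IrrCharacter G,
    if χ ∈ B then Cfsg.charDegree (χ : G → ℂ) * k χ else 0, ?_, ?_⟩
  · -- the inner sums
    have hsum : ∀ χ : Cfsg.IrrCharacter G,
        ∑ n : N, conj ((χ : G → ℂ) n) * (θ₀ : N → ℂ) n = (Nat.card N : ℂ) * (k χ : ℂ) := by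
      intro χ
      rw [← hk χ]
      unfold Cfsg.classInner
      rw [← mul_assoc, mul_inv_cancel₀ hN0, one_mul]
      apply Finset.sum_congr rfl
      intro n _
      ring
    have h1 : TT N (θ₀ : N → ℂ) (Cfsg.blockCoeff B) =
        (Nat.card G : ℂ)⁻¹ * (∑ χ : Cfsg.IrrCharacter G,
          if χ ∈ B then (χ : G → ℂ) 1 * ((Nat.card N : ℂ) * (k χ : ℂ)) else 0) /
          (θ₀ : N → ℂ) 1 := by
      unfold TT omega resFun Cfsg.blockCoeff
      rw [← Finset.sum_div]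
      congr 1
      simp_rw [finsum_mem_eq_sum_ite, mul_assoc, ← Finset.mul_sum]
      congr 1
      simp_rw [Finset.sum_mul]
      rw [Finset.sum_comm]
      apply Finset.sum_congr rfl
      intro χ _
      split_ifs with h
      · rw [← hsum χ, Finset.mul_sum]
        apply Finset.sum_congr rfl
        intro n _
        ring
      · simp
    rw [h1]
    push_cast
    rw [hG, hd₀]
    have hd₀' : (Cfsg.charDegree (θ₀ : N → ℂ) : ℂ) ≠ 0 := by rw [← hd₀]; exact hθ1
    have hI0 : (N.index : ℂ) ≠ 0 := by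
      intro h
      rw [h, zero_mul] at hG
      exact hG0 hG
    have e : ∀ χ : Cfsg.IrrCharacter G,
        (if χ ∈ B then (χ : G → ℂ) 1 * ((Nat.card N : ℂ) * (k χ : ℂ)) else 0) =
        (Nat.card N : ℂ) *
          (if χ ∈ B then (Cfsg.charDegree (χ : G → ℂ) : ℂ) * (k χ : ℂ) else 0) := by
      intro χ
      split_ifs
      · rw [hdχ χ]; ring
      · simp
    simp_rw [e]
    rw [← Finset.mul_sum]
    field_simp
  · intro χ hχ hne hm
    have h0 := (Finset.sum_eq_zero_iff (s := Finset.univ)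
      (f := fun χ : Cfsg.IrrCharacter G =>
        if χ ∈ B then Cfsg.charDegree (χ : G → ℂ) * k χ else 0)).mp hm χ (Finset.mem_univ _)
    simp only [if_pos hχ] at h0
    rcases Nat.mul_eq_zero.mp h0 with h | h
    · exact (Cfsg.Agent.Lib.Helper80.charDegree_pos χ.2).ne' h
    · apply hne
      rw [classInner_conj_symm, hk χ, h]
      simp

/-- **Covering theorem.** If the block `B` of `G` covers the block `b` of the normal subgroup
`N` (some `χ₀ ∈ B` lies over some `θ₀ ∈ b`), then every `θ ∈ b` lies under some `χ ∈ B`. -/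
theorem exists_over_of_cover {p : ℕ} (hM : Cfsg.IsPModular p M)
    {B : Set (Cfsg.IrrCharacter G)} (hB : Cfsg.IsPBlock M B)
    {b : Set (Cfsg.IrrCharacter N)} (hb : Cfsg.IsPBlock M b)
    {χ₀ : Cfsg.IrrCharacter G} (hχ₀ : χ₀ ∈ B) {θ₀ : Cfsg.IrrCharacter N} (hθ₀ : θ₀ ∈ b)
    (hcon : Cfsg.classInner (fun n : N => (χ₀ : G → ℂ) n) (θ₀ : N → ℂ) ≠ 0)
    {θ : Cfsg.IrrCharacter N} (hθ : θ ∈ b) :
    ∃ χ ∈ B, Cfsg.classInner (fun n : N => (χ : G → ℂ) n) (θ : N → ℂ) ≠ 0 := by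
  classical
  by_contra hno
  push Not at hno
  have hMp := isPrime_of_isPModular hM
  haveI : Fintype (G ⧸ N) := Fintype.ofFinite _
  have hs : Cfsg.SameBlock M (θ₀ : N → ℂ) (θ : N → ℂ) := IsPBlock.sameBlock hMp hb hθ₀ hθ
  obtain ⟨j, hj0, hj⟩ := exists_pRoot_div hM
    (fun n : N => Cfsg.centralChar (θ₀ : N → ℂ) n - Cfsg.centralChar (θ : N → ℂ) n) hs
  have hE := isRClass_blockCoeff hMp hB
  have hEl : Lam N M (Cfsg.blockCoeff B) := lam_of_isRClass N hE
  have hU2 : ∀ c, Lam N M c →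
      MemLocalRing M (TT N (θ₀ : N → ℂ) (conv (Cfsg.blockCoeff B) c) / pRoot p j) := by
    intro c hc
    have h1 := TT_conv_blockCoeff_eq_zero N hMp hB θ hno hc.1
    have h2 := memLocalRing_omega_sub_div hMp θ₀ θ (pRoot p j) hj
      (isRClass_resFun_of_lam N (lam_conv N hMp hEl hc))
    unfold TT at h1 ⊢
    rw [h1, sub_zero] at h2
    exact h2
  have hcomp : ∀ t : G ⧸ N, comp N t (Cfsg.blockCoeff B) ∈
      {y : G → ℂ | ∃ t : G ⧸ N, CosetSupp N t y ∧ Jmem N M (pRoot p j) (θ₀ : N → ℂ) y} := by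
    intro t
    refine ⟨t, cosetSupp_comp N t _, lam_comp N hMp hEl t, fun c hc => ?_⟩
    have : TT N (θ₀ : N → ℂ) (conv (comp N t (Cfsg.blockCoeff B)) c) =
        TT N (θ₀ : N → ℂ) (conv (Cfsg.blockCoeff B) (comp N t⁻¹ c)) := by
      unfold TT
      rw [resFun_comp_conv]
    rw [this]
    exact hU2 _ (lam_comp N hMp hc t⁻¹)
  have hEcl : Cfsg.blockCoeff B ∈ AddSubmonoid.closure
      {y : G → ℂ | ∃ t : G ⧸ N, CosetSupp N t y ∧ Jmem N M (pRoot p j) (θ₀ : N → ℂ) y} := by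
    rw [← sum_comp N (Cfsg.blockCoeff B)]
    exact AddSubmonoid.sum_mem _ (fun t _ => AddSubmonoid.subset_closure (hcomp t))
  have hidem := conv_blockCoeff_idem hMp hB
  have hpow : ∀ k : ℕ,
      MemLocalRing M (TT N (θ₀ : N → ℂ) (Cfsg.blockCoeff B) / pRoot p j ^ k) := by
    intro k
    have := pigeon_main N hMp θ₀ (pRoot p j) k
      (List.replicate (k * Fintype.card (G ⧸ N) + 1) (Cfsg.blockCoeff B))
      (fun y hy => by rw [List.eq_of_mem_replicate hy]; exact hEcl) [] (by simp) (by simp)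
      Cfsg.Agent.Lib.Helper77.delta1 (lam_delta1 N hMp)
    rw [List.map_nil, List.append_nil, lprod_replicate_idem hidem, cv_delta1_right] at this
    exact this
  have hpk : ∀ k : ℕ,
      MemLocalRing M (TT N (θ₀ : N → ℂ) (Cfsg.blockCoeff B) / (p : ℂ) ^ k) := by
    intro k
    have := hpow (j * k)
    rwa [pow_mul, pRoot_pow p hj0] at this
  obtain ⟨m, hm, hm0⟩ := TT_blockCoeff_nat N θ₀ B
  have hmz : m = 0 := by
    apply natCast_eq_zero_of_forall_div_pow hM
    intro k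
    rw [hm]
    have e : TT N (θ₀ : N → ℂ) (Cfsg.blockCoeff B) *
        ((Cfsg.charDegree (θ₀ : N → ℂ) * N.index : ℕ) : ℂ) / (p : ℂ) ^ k =
        TT N (θ₀ : N → ℂ) (Cfsg.blockCoeff B) / (p : ℂ) ^ k *
        ((Cfsg.charDegree (θ₀ : N → ℂ) * N.index : ℕ) : ℂ) := by ring
    rw [e]
    exact memLocalRing_mul hMp (hpk k) (memLocalRing_natCast hMp _)
  exact hm0 χ₀ hχ₀ hcon hmz

end

end Cfsg.Agent.Lib.Helper75
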