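import Mathlib
import Cfsg.Prelude.Def_OddOrderChar
import Cfsg.Prelude.Def_OddOrderLocal
import Cfsg.Agent.Lib.Helper25.AnnihCard
import Cfsg.Agent.Lib.Helper25.IrrComp
import Cfsg.Agent.Lib.Helper26.VChar
import Cfsg.Agent.Lib.Helper75.CharInd
import Cfsg.Agent.Lib.Helper3.BrauerIdeal

/-!
# The values of a cyclic TI family on `W ∖ (W₁ ∪ W₂)`

A family `χ` of class functions indexed by the linear characters of `W = W₁ ⊔ W₂` that is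
orthonormal, sends `1` to `1` and satisfies the induction formula of Peterfalvi (3.2)
automatically agrees with the linear characters on `W ∖ (W₁ ∪ W₂)`.
-/

set_option autoImplicit false

namespace Cfsg.Agent.Lib.Helper75.CycFam

open Cfsg.Agent.Lib.Helper25
open scoped ComplexConjugate

/-- The function `(1 - φ)(1 - ψ)` on `W`. -/
noncomputable def alpha {W : Type*} [Group W] (φ ψ : W →* ℂˣ) : W → ℂ :=
  fun w => 1 - (φ w : ℂ) - (ψ w : ℂ) + (φ w : ℂ) * (ψ w : ℂ)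

theorem alpha_one_left {W : Type*} [Group W] (ψ : W →* ℂˣ) : alpha 1 ψ = 0 := by
  funext w
  simp [alpha]

theorem alpha_one_right {W : Type*} [Group W] (φ : W →* ℂˣ) : alpha φ 1 = 0 := by
  funext w
  simp [alpha]

/-- The kernel identity: a function on `W` is recovered at a point outside `W₁ ∪ W₂` from its
inner products with the functions `(1 - φ)(1 - ψ)`. -/
theorem kernel_identity {G : Type*} [Group G] [Finite G] (W₁ W₂ : Subgroup G)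
    (hdisj : W₁ ⊓ W₂ = ⊥) (hcomm : ∀ a ∈ W₁, ∀ b ∈ W₂, a * b = b * a)
    (hcyc : IsCyclic ↥(W₁ ⊔ W₂)) [Fintype ↥(W₁ ⊔ W₂)]
    [Fintype (annih (W₂.subgroupOf (W₁ ⊔ W₂)))] [Fintype (annih (W₁.subgroupOf (W₁ ⊔ W₂)))]
    (u : ↥(W₁ ⊔ W₂)) (hu1 : (u : G) ∉ W₁) (hu2 : (u : G) ∉ W₂) (θ : ↥(W₁ ⊔ W₂) → ℂ) :
    θ u = ∑ φ : annih (W₂.subgroupOf (W₁ ⊔ W₂)), ∑ ψ : annih (W₁.subgroupOf (W₁ ⊔ W₂)),
      ((φ.1 u : ℂˣ) : ℂ) * ((ψ.1 u : ℂˣ) : ℂ) * Cfsg.classInner θ (alpha φ.1 ψ.1) := by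
  classical
  have hc : ∀ a b : ↥(W₁ ⊔ W₂), a * b = b * a := fun a b => mul_comm' a b
  have hS : ∀ (N : Subgroup ↥(W₁ ⊔ W₂)) [Fintype (annih N)], u ∉ N → ∀ w : ↥(W₁ ⊔ W₂),
      ∑ φ : annih N, ((φ.1 u : ℂˣ) : ℂ) * (1 - conj ((φ.1 w : ℂˣ) : ℂ)) =
        -(if u * w⁻¹ ∈ N then (Fintype.card (annih N) : ℂ) else 0) := by
    intro N _ huN w
    have h1 : ∀ φ : annih N, ((φ.1 u : ℂˣ) : ℂ) * (1 - conj ((φ.1 w : ℂˣ) : ℂ)) =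
        ((φ.1 u : ℂˣ) : ℂ) - ((φ.1 (u * w⁻¹) : ℂˣ) : ℂ) := by
      intro φ
      rw [conj_linChar, map_mul, map_inv, Units.val_mul]
      ring
    simp_rw [h1]
    rw [Finset.sum_sub_distrib, sum_annih hc N u, sum_annih hc N (u * w⁻¹), if_neg huN, zero_sub]
  have hu1' : u ∉ W₁.subgroupOf (W₁ ⊔ W₂) := fun h => hu1 (Subgroup.mem_subgroupOf.mp h)
  have hu2' : u ∉ W₂.subgroupOf (W₁ ⊔ W₂) := fun h => hu2 (Subgroup.mem_subgroupOf.mp h)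
  have hcard : (Fintype.card (annih (W₂.subgroupOf (W₁ ⊔ W₂))) : ℂ) *
      (Fintype.card (annih (W₁.subgroupOf (W₁ ⊔ W₂))) : ℂ) = (Nat.card ↥(W₁ ⊔ W₂) : ℂ) := by
    rw [← Nat.card_eq_fintype_card, ← Nat.card_eq_fintype_card,
      card_annih_right W₁ W₂ hdisj hcomm hcyc, card_annih_left W₁ W₂ hdisj hcomm hcyc,
      card_sup_of_isCyclic W₁ W₂ hdisj hcomm hcyc]
    push_cast
    ring
  have hprod : ∀ w : ↥(W₁ ⊔ W₂),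
      (-(if u * w⁻¹ ∈ W₂.subgroupOf (W₁ ⊔ W₂) then
          (Fintype.card (annih (W₂.subgroupOf (W₁ ⊔ W₂))) : ℂ) else 0)) *
        (-(if u * w⁻¹ ∈ W₁.subgroupOf (W₁ ⊔ W₂) then
          (Fintype.card (annih (W₁.subgroupOf (W₁ ⊔ W₂))) : ℂ) else 0)) =
      if w = u then (Nat.card ↥(W₁ ⊔ W₂) : ℂ) else 0 := by
    intro w
    by_cases hw : w = u
    · subst hw
      rw [mul_inv_cancel, if_pos (Subgroup.one_mem _), if_pos (Subgroup.one_mem _), if_pos rfl,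
        neg_mul_neg, hcard]
    · rw [if_neg hw]
      by_cases h2 : u * w⁻¹ ∈ W₂.subgroupOf (W₁ ⊔ W₂)
      · by_cases h1 : u * w⁻¹ ∈ W₁.subgroupOf (W₁ ⊔ W₂)
        · exfalso
          have h3 : ((u * w⁻¹ : ↥(W₁ ⊔ W₂)) : G) ∈ W₁ ⊓ W₂ :=
            ⟨Subgroup.mem_subgroupOf.mp h1, Subgroup.mem_subgroupOf.mp h2⟩
          rw [hdisj, Subgroup.mem_bot] at h3
          have h4 : u * w⁻¹ = 1 := Subtype.ext h3
          exact hw (mul_inv_eq_one.mp h4).symm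
        · rw [if_neg h1, neg_zero, mul_zero]
      · rw [if_neg h2, neg_zero, zero_mul]
  have hterm : ∀ (φ : annih (W₂.subgroupOf (W₁ ⊔ W₂))) (ψ : annih (W₁.subgroupOf (W₁ ⊔ W₂))),
      ((φ.1 u : ℂˣ) : ℂ) * ((ψ.1 u : ℂˣ) : ℂ) * Cfsg.classInner θ (alpha φ.1 ψ.1) =
        ∑ w : ↥(W₁ ⊔ W₂), (Nat.card ↥(W₁ ⊔ W₂) : ℂ)⁻¹ * θ w *
          (((φ.1 u : ℂˣ) : ℂ) * (1 - conj ((φ.1 w : ℂˣ) : ℂ))) *
          (((ψ.1 u : ℂˣ) : ℂ) * (1 - conj ((ψ.1 w : ℂˣ) : ℂ))) := by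
    intro φ ψ
    unfold Cfsg.classInner alpha
    rw [Finset.mul_sum, Finset.mul_sum]
    refine Finset.sum_congr rfl (fun w _ => ?_)
    simp only [map_sub, map_add, map_mul, map_one]
    ring
  simp_rw [hterm]
  have hswap : ∑ φ : annih (W₂.subgroupOf (W₁ ⊔ W₂)), ∑ ψ : annih (W₁.subgroupOf (W₁ ⊔ W₂)),
      ∑ w : ↥(W₁ ⊔ W₂), (Nat.card ↥(W₁ ⊔ W₂) : ℂ)⁻¹ * θ w *
          (((φ.1 u : ℂˣ) : ℂ) * (1 - conj ((φ.1 w : ℂˣ) : ℂ))) *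
          (((ψ.1 u : ℂˣ) : ℂ) * (1 - conj ((ψ.1 w : ℂˣ) : ℂ))) =
      ∑ w : ↥(W₁ ⊔ W₂), (Nat.card ↥(W₁ ⊔ W₂) : ℂ)⁻¹ * θ w *
        ((∑ φ : annih (W₂.subgroupOf (W₁ ⊔ W₂)),
            ((φ.1 u : ℂˣ) : ℂ) * (1 - conj ((φ.1 w : ℂˣ) : ℂ))) *
          (∑ ψ : annih (W₁.subgroupOf (W₁ ⊔ W₂)),
            ((ψ.1 u : ℂˣ) : ℂ) * (1 - conj ((ψ.1 w : ℂˣ) : ℂ)))) := by
    rw [Finset.sum_congr rfl (fun φ _ => Finset.sum_comm), Finset.sum_comm]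
    refine Finset.sum_congr rfl (fun w _ => ?_)
    rw [Finset.sum_mul_sum, Finset.mul_sum]
    refine Finset.sum_congr rfl (fun φ _ => ?_)
    rw [Finset.mul_sum]
    refine Finset.sum_congr rfl (fun ψ _ => ?_)
    ring
  rw [hswap]
  simp_rw [hS _ hu2', hS _ hu1', hprod]
  simp only [mul_ite, mul_zero, Finset.sum_ite_eq', Finset.mem_univ, if_true]
  have hne : (Nat.card ↥(W₁ ⊔ W₂) : ℂ) ≠ 0 := by
    exact_mod_cast (Nat.card_pos (α := ↥(W₁ ⊔ W₂))).ne'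
  field_simp

open Classical in
/-- A family satisfying the first, second, third and fifth clauses of `IsCyclicTIFamily`
satisfies the fourth. -/
theorem eq_on_of {G : Type*} [Group G] [Fintype G] (W₁ W₂ : Subgroup G)
    (hW : Cfsg.IsSelfNormalizingCyclic W₁ W₂)
    (χ : (↥(W₁ ⊔ W₂) →* ℂˣ) → (G → ℂ))
    (hcf : ∀ ω, Cfsg.IsClassFunction G (χ ω))
    (horth1 : ∀ ω, Cfsg.classInner (χ ω) (χ ω) = 1)
    (horth0 : ∀ ω ω', ω ≠ ω' → Cfsg.classInner (χ ω) (χ ω') = 0)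
    (hone : χ 1 = fun _ => 1)
    (hind : ∀ φ ψ : ↥(W₁ ⊔ W₂) →* ℂˣ, φ ≠ 1 → ψ ≠ 1 →
      (∀ w : ↥(W₁ ⊔ W₂), (w : G) ∈ W₂ → φ w = 1) →
      (∀ w : ↥(W₁ ⊔ W₂), (w : G) ∈ W₁ → ψ w = 1) →
      Cfsg.indFun (W₁ ⊔ W₂) (fun w => 1 - (φ w : ℂ) - (ψ w : ℂ) + (φ w : ℂ) * (ψ w : ℂ)) =
        fun g => 1 - χ φ g - χ ψ g + χ (φ * ψ) g) :
    ∀ ω, ∀ w : ↥(W₁ ⊔ W₂), (w : G) ∉ W₁ → (w : G) ∉ W₂ → χ ω w = (ω w : ℂ) := by
  intro ω u hu1 hu2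
  have horth : ∀ ω ω', Cfsg.classInner (χ ω) (χ ω') = if ω = ω' then 1 else 0 := by
    intro ω ω'
    split_ifs with h
    · rw [h]
      exact horth1 ω'
    · exact horth0 ω ω' h
  obtain ⟨_, _, hdisj, hcomm, hcyc, _⟩ := hW
  have : Fintype ↥(W₁ ⊔ W₂) := Fintype.ofFinite _
  have : Finite (↥(W₁ ⊔ W₂) →* ℂˣ) := finite_linChar _
  have : Fintype (annih (W₂.subgroupOf (W₁ ⊔ W₂))) := Fintype.ofFinite _
  have : Fintype (annih (W₁.subgroupOf (W₁ ⊔ W₂))) := Fintype.ofFinite _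
  have key : ∀ (φ : annih (W₂.subgroupOf (W₁ ⊔ W₂))) (ψ : annih (W₁.subgroupOf (W₁ ⊔ W₂))),
      Cfsg.classInner (fun w : ↥(W₁ ⊔ W₂) => χ ω w) (alpha φ.1 ψ.1) =
        Cfsg.classInner (fun w : ↥(W₁ ⊔ W₂) => ((ω w : ℂˣ) : ℂ)) (alpha φ.1 ψ.1) := by
    intro φ ψ
    by_cases hφ : φ.1 = 1
    · rw [hφ, alpha_one_left]
      simp [Cfsg.classInner]
    by_cases hψ : ψ.1 = 1
    · rw [hψ, alpha_one_right]
      simp [Cfsg.classInner]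
    have hφ2 : ∀ w : ↥(W₁ ⊔ W₂), (w : G) ∈ W₂ → φ.1 w = 1 := fun w hw =>
      (mem_annih _ _).mp φ.2 w (Subgroup.mem_subgroupOf.mpr hw)
    have hψ1 : ∀ w : ↥(W₁ ⊔ W₂), (w : G) ∈ W₁ → ψ.1 w = 1 := fun w hw =>
      (mem_annih _ _).mp ψ.2 w (Subgroup.mem_subgroupOf.mpr hw)
    -- left side via Frobenius reciprocity
    have hL : Cfsg.classInner (fun w : ↥(W₁ ⊔ W₂) => χ ω w) (alpha φ.1 ψ.1) =
        Cfsg.classInner (χ ω) (Cfsg.indFun (W₁ ⊔ W₂) (alpha φ.1 ψ.1)) := by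
      rw [← Cfsg.Agent.Lib.Helper26.classInner_conj_symm (Cfsg.indFun (W₁ ⊔ W₂) (alpha φ.1 ψ.1)) (χ ω),
        Cfsg.Agent.Lib.Helper75.frobenius_reciprocity (W₁ ⊔ W₂) (alpha φ.1 ψ.1) (hcf ω),
        Cfsg.Agent.Lib.Helper26.classInner_conj_symm]
    rw [hL]
    have hind' := hind φ.1 ψ.1 hφ hψ hφ2 hψ1
    have hα : alpha φ.1 ψ.1 = fun w : ↥(W₁ ⊔ W₂) =>
        1 - ((φ.1 w : ℂˣ) : ℂ) - ((ψ.1 w : ℂˣ) : ℂ) + ((φ.1 w : ℂˣ) : ℂ) * ((ψ.1 w : ℂˣ) : ℂ) := rfl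
    rw [hα, hind']
    have hfun : (fun g => 1 - χ φ.1 g - χ ψ.1 g + χ (φ.1 * ψ.1) g) =
        χ 1 - χ φ.1 - χ ψ.1 + χ (φ.1 * ψ.1) := by
      funext g
      rw [hone]
      rfl
    rw [hfun, Cfsg.Agent.Lib.Helper26.classInner_add_right,
      Cfsg.Agent.Lib.Helper26.classInner_sub_right, Cfsg.Agent.Lib.Helper26.classInner_sub_right]
    -- right side by orthogonality of linear characters
    have hR : Cfsg.classInner (fun w : ↥(W₁ ⊔ W₂) => ((ω w : ℂˣ) : ℂ))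
        (fun w : ↥(W₁ ⊔ W₂) => 1 - ((φ.1 w : ℂˣ) : ℂ) - ((ψ.1 w : ℂˣ) : ℂ) +
          ((φ.1 w : ℂˣ) : ℂ) * ((ψ.1 w : ℂˣ) : ℂ)) =
        Cfsg.classInner (χ ω) (χ 1) - Cfsg.classInner (χ ω) (χ φ.1) -
          Cfsg.classInner (χ ω) (χ ψ.1) + Cfsg.classInner (χ ω) (χ (φ.1 * ψ.1)) := by
      rw [horth, horth, horth, horth]
      unfold Cfsg.classInner
      have h1 : ∀ w : ↥(W₁ ⊔ W₂), ((ω w : ℂˣ) : ℂ) * conj (1 - ((φ.1 w : ℂˣ) : ℂ) -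
          ((ψ.1 w : ℂˣ) : ℂ) + ((φ.1 w : ℂˣ) : ℂ) * ((ψ.1 w : ℂˣ) : ℂ)) =
          ((ω w : ℂˣ) : ℂ) * conj ((((1 : ↥(W₁ ⊔ W₂) →* ℂˣ) w : ℂˣ)) : ℂ) -
          ((ω w : ℂˣ) : ℂ) * conj ((φ.1 w : ℂˣ) : ℂ) -
          ((ω w : ℂˣ) : ℂ) * conj ((ψ.1 w : ℂˣ) : ℂ) +
          ((ω w : ℂˣ) : ℂ) * conj ((((φ.1 * ψ.1) w : ℂˣ)) : ℂ) := by
        intro w
        simp only [map_sub, map_add, map_mul, map_one, MonoidHom.one_apply, Units.val_one,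
          MonoidHom.mul_apply, Units.val_mul]
        ring
      simp_rw [h1]
      rw [Finset.sum_add_distrib, Finset.sum_sub_distrib, Finset.sum_sub_distrib,
        sum_linChar_mul_conj, sum_linChar_mul_conj, sum_linChar_mul_conj, sum_linChar_mul_conj,
        Nat.card_eq_fintype_card]
      have hne : (Fintype.card ↥(W₁ ⊔ W₂) : ℂ) ≠ 0 := by
        exact_mod_cast (Fintype.card_pos (α := ↥(W₁ ⊔ W₂))).ne'
      split_ifs <;> first | (field_simp; ring) | field_simp | ring | simp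
    rw [hR]
  rw [kernel_identity W₁ W₂ hdisj hcomm hcyc u hu1 hu2 (fun w : ↥(W₁ ⊔ W₂) => χ ω w),
    kernel_identity W₁ W₂ hdisj hcomm hcyc u hu1 hu2 (fun w : ↥(W₁ ⊔ W₂) => ((ω w : ℂˣ) : ℂ))]
  simp_rw [key]

end Cfsg.Agent.Lib.Helper75.CycFam
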