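import Mathlib

/-!
# Integer vectors of norm three ("triads")

Elementary lemmas on functions `X → ℤ` with the standard inner product, used for the
combinatorial part of Peterfalvi (3.2) (the cyclic TI family).
-/

set_option autoImplicit false

namespace Cfsg.Agent.Lib.Helper75.Tri

variable {X : Type*} [Fintype X]

/-- The standard integer inner product. -/
def ip (u v : X → ℤ) : ℤ := ∑ x, u x * v x

theorem ip_comm (u v : X → ℤ) : ip u v = ip v u := by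
  unfold ip
  exact Finset.sum_congr rfl (fun x _ => mul_comm _ _)

theorem sq_le_ip (u : X → ℤ) (x : X) : u x * u x ≤ ip u u :=
  Finset.single_le_sum (f := fun x => u x * u x) (fun y _ => mul_self_nonneg (u y))
    (Finset.mem_univ x)

theorem val_cases {u : X → ℤ} (h : ip u u ≤ 3) (x : X) : u x = -1 ∨ u x = 0 ∨ u x = 1 := by
  have h2 : u x * u x ≤ 3 := le_trans (sq_le_ip u x) h
  have h3 : -1 ≤ u x := by nlinarith
  have h4 : u x ≤ 1 := by nlinarith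
  omega

theorem sq_ge (v : ℤ) : v ≤ v * v ∧ -v ≤ v * v := by
  constructor <;> nlinarith [sq_nonneg (v - 1), sq_nonneg (v + 1), sq_nonneg v]

open Classical in
/-- The support of an integer vector. -/
noncomputable def supp (u : X → ℤ) : Finset X := Finset.univ.filter (fun x => u x ≠ 0)

theorem mem_supp {u : X → ℤ} {x : X} : x ∈ supp u ↔ u x ≠ 0 := by
  simp [supp]

theorem card_supp {u : X → ℤ} (h : ip u u = 3) : (supp u).card = 3 := by
  classical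
  have h1 : ∀ x, u x * u x = if u x ≠ 0 then 1 else 0 := by
    intro x
    rcases val_cases h.le x with h | h | h <;> simp [h]
  have h2 : ip u u = ((supp u).card : ℤ) := by
    unfold ip supp
    simp_rw [h1]
    rw [Finset.sum_ite, Finset.sum_const_zero, add_zero, Finset.sum_const, nsmul_eq_mul, mul_one]
  rw [h] at h2
  exact_mod_cast h2.symm

theorem ip_eq_sum_supp (u v : X → ℤ) : ip u v = ∑ x ∈ supp u, u x * v x := by
  classical
  unfold ip
  symm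
  apply Finset.sum_subset (Finset.subset_univ _)
  intro x _ hx
  have : u x = 0 := by
    by_contra h
    exact hx (mem_supp.mpr h)
  rw [this, zero_mul]

/-- A vector of norm three with three known distinct support points. -/
theorem ip_three {u : X → ℤ} (h : ip u u = 3) {x y z : X} (hxy : x ≠ y) (hxz : x ≠ z)
    (hyz : y ≠ z) (hx : u x ≠ 0) (hy : u y ≠ 0) (hz : u z ≠ 0) :
    (∀ w, u w ≠ 0 → w = x ∨ w = y ∨ w = z) ∧
      ∀ v : X → ℤ, ip u v = u x * v x + u y * v y + u z * v z := by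
  classical
  have hsub : ({x, y, z} : Finset X) ⊆ supp u := by
    intro w hw
    simp only [Finset.mem_insert, Finset.mem_singleton] at hw
    rcases hw with rfl | rfl | rfl
    · exact mem_supp.mpr hx
    · exact mem_supp.mpr hy
    · exact mem_supp.mpr hz
  have hcard : ({x, y, z} : Finset X).card = 3 :=
    Finset.card_eq_three.mpr ⟨x, y, z, hxy, hxz, hyz, rfl⟩
  have heq : ({x, y, z} : Finset X) = supp u :=
    Finset.eq_of_subset_of_card_le hsub (by rw [card_supp h, hcard])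
  constructor
  · intro w hw
    have : w ∈ ({x, y, z} : Finset X) := by rw [heq]; exact mem_supp.mpr hw
    simpa using this
  · intro v
    rw [ip_eq_sum_supp, ← heq, Finset.sum_insert (by simp [hxy, hxz]), Finset.sum_pair hyz]
    ring

theorem exists_third {u : X → ℤ} (h : ip u u = 3) {x y : X} (hxy : x ≠ y) :
    ∃ z, z ≠ x ∧ z ≠ y ∧ u z ≠ 0 := by
  classical
  have hcard : ({x, y} : Finset X).card < (supp u).card := by
    rw [card_supp h, Finset.card_pair hxy]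
    norm_num
  obtain ⟨z, hz, hz'⟩ := Finset.exists_mem_notMem_of_card_lt_card hcard
  simp only [Finset.mem_insert, Finset.mem_singleton, not_or] at hz'
  exact ⟨z, hz'.1, hz'.2, mem_supp.mp hz⟩

theorem not_four {u : X → ℤ} (h : ip u u = 3) {a b c d : X} (hab : a ≠ b) (hac : a ≠ c)
    (had : a ≠ d) (hbc : b ≠ c) (hbd : b ≠ d) (hcd : c ≠ d) (ha : u a ≠ 0) (hb : u b ≠ 0)
    (hc : u c ≠ 0) (hd : u d ≠ 0) : False := by
  rcases (ip_three h hab hac hbc ha hb hc).1 d hd with h1 | h1 | h1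
  · exact had h1.symm
  · exact hbd h1.symm
  · exact hcd h1.symm

/-- Two sign-consistent vectors with inner product one have exactly one common support
point. -/
theorem exists_common {u v : X → ℤ} (hs : ∀ x, 0 ≤ u x * v x) (h : ip u v = 1) :
    ∃ x, u x ≠ 0 ∧ v x ≠ 0 ∧ ∀ y, u y ≠ 0 → v y ≠ 0 → y = x := by
  classical
  have hne : ∑ x, u x * v x ≠ 0 := by
    have : ∑ x, u x * v x = 1 := h
    rw [this]; exact one_ne_zero
  obtain ⟨x, _, hx⟩ := Finset.exists_ne_zero_of_sum_ne_zero hne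
  have hux : u x ≠ 0 := fun h0 => hx (by rw [h0, zero_mul])
  have hvx : v x ≠ 0 := fun h0 => hx (by rw [h0, mul_zero])
  refine ⟨x, hux, hvx, ?_⟩
  intro y huy hvy
  by_contra hyx
  have h1 : ∑ w ∈ ({x, y} : Finset X), u w * v w ≤ ∑ w, u w * v w :=
    Finset.sum_le_sum_of_subset_of_nonneg (Finset.subset_univ _) (fun w _ _ => hs w)
  rw [Finset.sum_pair (fun e => hyx e.symm)] at h1
  have h2 : u y * v y ≠ 0 := mul_ne_zero huy hvy
  have h3 := hs x
  have h4 := hs y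
  have h5 : ∑ w, u w * v w = 1 := h
  omega

theorem common_unique {u v : X → ℤ} (hs : ∀ x, 0 ≤ u x * v x) (h : ip u v = 1) {x y : X}
    (hx : u x ≠ 0) (hx' : v x ≠ 0) (hy : u y ≠ 0) (hy' : v y ≠ 0) : x = y := by
  obtain ⟨z, _, _, hz⟩ := exists_common hs h
  rw [hz x hx hx', hz y hy hy']

/-- If a sum vanishes and one term does not, another term does not. -/
theorem exists_other {f : X → ℤ} (h : ∑ x, f x = 0) {a : X} (ha : f a ≠ 0) :
    ∃ y, y ≠ a ∧ f y ≠ 0 := by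
  classical
  have h1 : f a + ∑ x ∈ Finset.univ.erase a, f x = 0 := by
    rw [Finset.add_sum_erase _ _ (Finset.mem_univ a)]; exact h
  have h2 : ∑ x ∈ Finset.univ.erase a, f x ≠ 0 := by omega
  obtain ⟨y, hy, hy'⟩ := Finset.exists_ne_zero_of_sum_ne_zero h2
  exact ⟨y, (Finset.mem_erase.mp hy).1, hy'⟩

theorem sum_sq_le (u : X → ℤ) (S : Finset X) : ∑ x ∈ S, u x * u x ≤ ip u u :=
  Finset.sum_le_sum_of_subset_of_nonneg (Finset.subset_univ _)
    (fun w _ _ => mul_self_nonneg (u w))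

theorem sum_mul_le {u v : X → ℤ} (hs : ∀ x, 0 ≤ u x * v x) (S : Finset X) :
    ∑ x ∈ S, u x * v x ≤ ip u v :=
  Finset.sum_le_sum_of_subset_of_nonneg (Finset.subset_univ _) (fun w _ _ => hs w)

theorem ip_of_full {u : X → ℤ} (S : Finset X) (h : ip u u ≤ ∑ x ∈ S, u x * u x)
    (v : X → ℤ) : ip u v = ∑ x ∈ S, u x * v x := by
  classical
  have h1 : ∑ x ∈ Sᶜ, u x * u x + ∑ x ∈ S, u x * u x = ip u u :=
    Finset.sum_compl_add_sum S (fun x => u x * u x)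
  have h2 : 0 ≤ ∑ x ∈ Sᶜ, u x * u x := Finset.sum_nonneg (fun x _ => mul_self_nonneg (u x))
  have h3 : ∑ x ∈ Sᶜ, u x * u x = 0 := by omega
  have h4 : ∀ x ∈ Sᶜ, u x = 0 := by
    intro x hx
    have := (Finset.sum_eq_zero_iff_of_nonneg (fun x _ => mul_self_nonneg (u x))).mp h3 x hx
    exact mul_self_eq_zero.mp this
  have h5 : ∑ x ∈ Sᶜ, u x * v x + ∑ x ∈ S, u x * v x = ip u v :=
    Finset.sum_compl_add_sum S (fun x => u x * v x)
  have h6 : ∑ x ∈ Sᶜ, u x * v x = 0 :=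
    Finset.sum_eq_zero (fun x hx => by rw [h4 x hx, zero_mul])
  omega

/-! ### Frames: seven distinct points -/

/-- Seven distinct points `c`, `p k`, `q k` (`k : Fin 3`). -/
structure Frame (c : X) (p q : Fin 3 → X) : Prop where
  hp : Function.Injective p
  hq : Function.Injective q
  hcp : ∀ k, p k ≠ c
  hcq : ∀ k, q k ≠ c
  hpq : ∀ k k', p k ≠ q k'

/-- The part of the inner product carried by a frame. -/
def fsum (c : X) (p q : Fin 3 → X) (u v : X → ℤ) : ℤ :=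
  u c * v c + ∑ k, u (p k) * v (p k) + ∑ k, u (q k) * v (q k)

open Classical in
theorem Frame.sum_eq {c : X} {p q : Fin 3 → X} (F : Frame c p q) (f : X → ℤ) :
    ∑ x ∈ insert c (Finset.image p Finset.univ ∪ Finset.image q Finset.univ), f x =
      f c + ∑ k, f (p k) + ∑ k, f (q k) := by
  have h1 : c ∉ Finset.image p Finset.univ ∪ Finset.image q Finset.univ := by
    simp only [Finset.mem_union, Finset.mem_image, Finset.mem_univ, true_and, not_or, not_exists]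
    exact ⟨fun k => F.hcp k, fun k => F.hcq k⟩
  have h2 : Disjoint (Finset.image p Finset.univ) (Finset.image q Finset.univ) := by
    rw [Finset.disjoint_left]
    intro x hx hx'
    simp only [Finset.mem_image, Finset.mem_univ, true_and] at hx hx'
    obtain ⟨k, rfl⟩ := hx
    obtain ⟨k', hk'⟩ := hx'
    exact F.hpq k k' hk'.symm
  rw [Finset.sum_insert h1, Finset.sum_union h2, Finset.sum_image (fun a _ b _ h => F.hp h),
    Finset.sum_image (fun a _ b _ h => F.hq h), add_assoc]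

theorem Frame.bessel {c : X} {p q : Fin 3 → X} (F : Frame c p q) (u : X → ℤ) :
    fsum c p q u u ≤ ip u u := by
  classical
  unfold fsum
  rw [← F.sum_eq (fun x => u x * u x)]
  exact sum_sq_le u _

theorem Frame.pair {c : X} {p q : Fin 3 → X} (F : Frame c p q) {u v : X → ℤ}
    (hs : ∀ x, 0 ≤ u x * v x) : fsum c p q u v ≤ ip u v := by
  classical
  unfold fsum
  rw [← F.sum_eq (fun x => u x * v x)]
  exact sum_mul_le hs _

theorem Frame.full {c : X} {p q : Fin 3 → X} (F : Frame c p q) {u : X → ℤ}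
    (h : ip u u ≤ fsum c p q u u) (v : X → ℤ) : ip u v = fsum c p q u v := by
  classical
  unfold fsum at h ⊢
  rw [← F.sum_eq (fun x => u x * u x)] at h
  rw [← F.sum_eq (fun x => u x * v x)]
  exact ip_of_full _ h v

theorem sum3 {m m' m'' : Fin 3} (h1 : m ≠ m') (h2 : m ≠ m'') (h3 : m' ≠ m'') (f : Fin 3 → ℤ) :
    ∑ k, f k = f m + f m' + f m'' := by
  have h : ∀ a b c : Fin 3, a ≠ b → a ≠ c → b ≠ c → (Finset.univ : Finset (Fin 3)) = {a, b, c} := by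
    decide
  rw [h m m' m'' h1 h2 h3, Finset.sum_insert (by simp [h1, h2]), Finset.sum_pair h3]
  ring

/-! ### The arithmetic of the three stages -/

theorem stage1 (c p1 p2 p3 q1 q2 q3 ac ap1 ap2 ap3 aq1 aq2 aq3 : ℤ)
    (hc : c ≤ ac ∧ -c ≤ ac) (hp1 : p1 ≤ ap1 ∧ -p1 ≤ ap1) (hp2 : p2 ≤ ap2 ∧ -p2 ≤ ap2)
    (hp3 : p3 ≤ ap3 ∧ -p3 ≤ ap3) (hq1 : q1 ≤ aq1 ∧ -q1 ≤ aq1) (hq2 : q2 ≤ aq2 ∧ -q2 ≤ aq2)
    (hq3 : q3 ≤ aq3 ∧ -q3 ≤ aq3)
    (hn : ac + ap1 + ap2 + ap3 + aq1 + aq2 + aq3 ≤ 3)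
    (e1 : c + p1 + q1 = 0) (e2 : c + p2 + q2 = 0) (e3 : c + p3 + q3 = 0) (e4 : p1 + p2 + p3 = 1)
    (s1 : 0 ≤ p1) (s2 : 0 ≤ p2) (s3 : 0 ≤ p3) :
    (c = 0 ∧ p1 = 1 ∧ q1 = -1 ∧ p2 = 0 ∧ p3 = 0 ∧ q2 = 0 ∧ q3 = 0) ∨
    (c = 0 ∧ p2 = 1 ∧ q2 = -1 ∧ p1 = 0 ∧ p3 = 0 ∧ q1 = 0 ∧ q3 = 0) ∨
    (c = 0 ∧ p3 = 1 ∧ q3 = -1 ∧ p1 = 0 ∧ p2 = 0 ∧ q1 = 0 ∧ q2 = 0) := by
  have h0 : c = 0 := by omega
  have h1 : p1 = 1 ∨ p2 = 1 ∨ p3 = 1 := by omega
  rcases h1 with h | h | h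
  · exact Or.inl ⟨h0, h, by omega, by omega, by omega, by omega, by omega⟩
  · exact Or.inr (Or.inl ⟨h0, h, by omega, by omega, by omega, by omega, by omega⟩)
  · exact Or.inr (Or.inr ⟨h0, h, by omega, by omega, by omega, by omega, by omega⟩)

theorem stage2 (c p1 p2 p3 q1 q2 q3 ac ap1 ap2 ap3 aq1 aq2 aq3 : ℤ)
    (hc : c ≤ ac ∧ -c ≤ ac) (hp1 : p1 ≤ ap1 ∧ -p1 ≤ ap1) (hp2 : p2 ≤ ap2 ∧ -p2 ≤ ap2)
    (hp3 : p3 ≤ ap3 ∧ -p3 ≤ ap3) (hq1 : q1 ≤ aq1 ∧ -q1 ≤ aq1) (hq2 : q2 ≤ aq2 ∧ -q2 ≤ aq2)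
    (hq3 : q3 ≤ aq3 ∧ -q3 ≤ aq3)
    (hn : ac + ap1 + ap2 + ap3 + aq1 + aq2 + aq3 ≤ 3)
    (e1 : c + p1 + q1 = 1) (e2 : c + p2 + q2 = 0) (e3 : c + p3 + q3 = 0) (e4 : p1 + p2 + p3 = 0)
    (s1 : 0 ≤ c) (s2 : 0 ≤ p1) (s3 : 0 ≤ q1)
    (t1 : q1 ≤ 0)
    (hfull : p1 - q1 = 1 ∨ ac + ap1 + ap2 + ap3 + aq1 + aq2 + aq3 ≤ 2) :
    (c = 0 ∧ p1 = 1 ∧ q1 = 0 ∧ p2 = -1 ∧ q2 = 1 ∧ p3 = 0 ∧ q3 = 0) ∨
    (c = 0 ∧ p1 = 1 ∧ q1 = 0 ∧ p3 = -1 ∧ q3 = 1 ∧ p2 = 0 ∧ q2 = 0) := by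
  have h0 : c = 0 := by omega
  have hq : q1 = 0 := by omega
  have hp : p1 = 1 := by omega
  have h1 : p2 = -1 ∨ p3 = -1 := by omega
  rcases h1 with h | h
  · exact Or.inl ⟨h0, hp, hq, h, by omega, by omega, by omega⟩
  · exact Or.inr ⟨h0, hp, hq, h, by omega, by omega, by omega⟩

theorem stage3 (c p1 p2 p3 q1 q2 q3 : ℤ)
    (e1 : c + p1 + q1 = 0) (e2 : c + p2 + q2 = 0) (e3 : c + p3 + q3 = 1) (e4 : p1 + p2 + p3 = 0)
    (s1 : 0 ≤ c) (s2 : 0 ≤ p3) (s3 : 0 ≤ q3)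
    (t1 : 0 ≤ p1) (t2 : p2 ≤ 0) (t3 : 0 ≤ q2)
    (hfull : p1 - p2 + q2 = 1) : False := by
  omega

end Cfsg.Agent.Lib.Helper75.Tri
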