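import Mathlib
import Cfsg.Agent.Lib.Helper75.TriBasic

/-!
# Row centres for a 2 × n array of triads (n ≥ 4)
-/

set_option autoImplicit false

namespace Cfsg.Agent.Lib.Helper75.Tri

variable {X : Type*} [Fintype X]

/-- There is no three-star with a transversal. -/
theorem star_contra {J : Type*} [DecidableEq J] (A B : J → X → ℤ)
    (hAA : ∀ j l, ip (A j) (A l) = if j = l then 3 else 1)
    (hBB : ∀ j l, ip (B j) (B l) = if j = l then 3 else 1)
    (hAB : ∀ j l, ip (A j) (B l) = if j = l then 1 else 0)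
    (sB : ∀ j l x, 0 ≤ B j x * B l x)
    (sAB : ∀ j x, 0 ≤ A j x * B j x)
    (hpos : ∀ j x, 0 ≤ A j x)
    (c : X) (col : Fin 3 → J) (hcol : Function.Injective col) (j4 : J) (hj4 : ∀ m, col m ≠ j4)
    (hc : ∀ m, A (col m) c ≠ 0) (hc4 : A j4 c = 0) : False := by
  classical
  have hA3 : ∀ j, ip (A j) (A j) = 3 := fun j => by rw [hAA, if_pos rfl]
  have hB3 : ∀ j, ip (B j) (B j) = 3 := fun j => by rw [hBB, if_pos rfl]
  have hA01 : ∀ j x, A j x = 0 ∨ A j x = 1 := by
    intro j x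
    have h1 := val_cases (hA3 j).le x
    have h2 := hpos j x
    omega
  have hA1 : ∀ j x, A j x ≠ 0 → A j x = 1 := by
    intro j x h
    rcases hA01 j x with h' | h'
    · exact absurd h' h
    · exact h'
  have hsA : ∀ j l x, 0 ≤ A j x * A l x := fun j l x => mul_nonneg (hpos j x) (hpos l x)
  have hex : ∀ m, ∃ pm qm, A (col m) pm ≠ 0 ∧ A j4 pm ≠ 0 ∧ pm ≠ c ∧ qm ≠ c ∧ qm ≠ pm ∧
      A (col m) qm ≠ 0 := by
    intro m
    obtain ⟨x, hx1, hx2, _⟩ := exists_common (hsA (col m) j4) (by rw [hAA, if_neg (hj4 m)])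
    have hxc : x ≠ c := by
      rintro rfl
      exact hx2 hc4
    obtain ⟨z, hz1, hz2, hz3⟩ := exists_third (hA3 (col m)) (Ne.symm hxc)
    exact ⟨x, z, hx1, hx2, hxc, hz1, hz2, hz3⟩
  choose p q hp1 hp4 hpc hqc hqp hq1 using hex
  have hstar : ∀ m m', m ≠ m' → ∀ x, A (col m) x ≠ 0 → A (col m') x ≠ 0 → x = c := by
    intro m m' hmm x hx hx'
    exact common_unique (hsA (col m) (col m')) (by rw [hAA, if_neg (fun h => hmm (hcol h))])
      hx hx' (hc m) (hc m')
  have hV1 : ∀ m m', m ≠ m' → A (col m') (p m) = 0 := by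
    intro m m' hmm
    by_contra h
    exact hpc m (hstar m m' hmm (p m) (hp1 m) h)
  have hV2 : ∀ m m', m ≠ m' → A (col m') (q m) = 0 := by
    intro m m' hmm
    by_contra h
    exact hqc m (hstar m m' hmm (q m) (hq1 m) h)
  have F : Frame c p q := by
    refine ⟨?_, ?_, hpc, hqc, ?_⟩
    · intro m m' h
      by_contra hmm
      have h0 := hV1 m m' hmm
      rw [h] at h0
      exact hp1 m' h0
    · intro m m' h
      by_contra hmm
      have h0 := hV2 m m' hmm
      rw [h] at h0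
      exact hq1 m' h0
    · intro m m' h
      by_cases hmm : m = m'
      · subst hmm
        exact hqp m h.symm
      · have h0 := hV1 m m' hmm
        rw [h] at h0
        exact hq1 m' h0
  have hE : ∀ m (v : X → ℤ), ip (A (col m)) v = v c + v (p m) + v (q m) := by
    intro m v
    rw [(ip_three (hA3 (col m)) (Ne.symm (hpc m)) (Ne.symm (hqc m)) (Ne.symm (hqp m)) (hc m)
      (hp1 m) (hq1 m)).2 v, hA1 _ _ (hc m), hA1 _ _ (hp1 m), hA1 _ _ (hq1 m)]
    ring
  have hE4 : ∀ (v : X → ℤ), ip (A j4) v = ∑ k, v (p k) := by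
    intro v
    have h01 : p 0 ≠ p 1 := fun h => absurd (F.hp h) (by decide)
    have h02 : p 0 ≠ p 2 := fun h => absurd (F.hp h) (by decide)
    have h12 : p 1 ≠ p 2 := fun h => absurd (F.hp h) (by decide)
    rw [(ip_three (hA3 j4) h01 h02 h12 (hp4 0) (hp4 1) (hp4 2)).2 v, hA1 _ _ (hp4 0),
      hA1 _ _ (hp4 1), hA1 _ _ (hp4 2), Fin.sum_univ_three]
    ring
  have hEq : ∀ l k, B l c + B l (p k) + B l (q k) = if col k = l then 1 else 0 := by
    intro l k
    rw [← hE k (B l), hAB]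
  have hEq4 : ∀ l, ∑ k, B l (p k) = if j4 = l then 1 else 0 := by
    intro l
    rw [← hE4 (B l), hAB]
  have hBes : ∀ l, fsum c p q (B l) (B l) ≤ 3 := fun l => by
    have h := F.bessel (B l)
    rw [hB3] at h
    exact h
  have hFull : ∀ l, 3 ≤ fsum c p q (B l) (B l) → ∀ v, ip (B l) v = fsum c p q (B l) v := by
    intro l h v
    exact F.full (by rw [hB3]; exact h) v
  have hsgn : ∀ l x, A l x ≠ 0 → 0 ≤ B l x := by
    intro l x h
    have h0 := sAB l x
    rw [hA1 l x h, one_mul] at h0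
    exact h0
  -- stage 3
  have key3 : ∀ m m' m'' : Fin 3, m ≠ m' → m ≠ m'' → m' ≠ m'' →
      B (col m) c = 0 → B (col m) (p m) = 1 → B (col m) (q m) = 0 → B (col m) (p m') = -1 →
      B (col m) (q m') = 1 → B (col m) (p m'') = 0 → B (col m) (q m'') = 0 → False := by
    intro m m' m'' h1 h2 h3 b1 b2 b3 b4 b5 b6 b7
    have hfull : ∀ v, ip (B (col m)) v = fsum c p q (B (col m)) v := by
      apply hFull
      simp only [fsum, sum3 h1 h2 h3, b1, b2, b3, b4, b5, b6, b7]
      norm_num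
    have hip : ip (B (col m)) (B (col m'')) = 1 := by
      rw [hBB, if_neg (fun h => h2 (hcol h))]
    rw [hfull] at hip
    simp only [fsum, sum3 h1 h2 h3, b1, b2, b3, b4, b5, b6, b7] at hip
    have e1 := hEq (col m'') m
    have e2 := hEq (col m'') m'
    have e3 := hEq (col m'') m''
    rw [if_neg (fun h => h2 (hcol h))] at e1
    rw [if_neg (fun h => h3 (hcol h))] at e2
    rw [if_pos rfl] at e3
    have e4 := hEq4 (col m'')
    rw [if_neg (fun h => hj4 m'' h.symm), sum3 h1 h2 h3] at e4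
    have s1 := hsgn (col m'') c (hc m'')
    have s2 := hsgn (col m'') (p m'') (hp1 m'')
    have s3 := hsgn (col m'') (q m'') (hq1 m'')
    have t1 := sB (col m) (col m'') (p m)
    have t2 := sB (col m) (col m'') (p m')
    have t3 := sB (col m) (col m'') (q m')
    rw [b2] at t1
    rw [b4] at t2
    rw [b5] at t3
    exact stage3 (B (col m'') c) (B (col m'') (p m)) (B (col m'') (p m')) (B (col m'') (p m''))
      (B (col m'') (q m)) (B (col m'') (q m')) (B (col m'') (q m'')) e1 e2 e3 e4 s1 s2 s3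
      (by omega) (by omega) (by omega) (by omega)
  -- stage 2
  have key2 : ∀ m m' m'' : Fin 3, m ≠ m' → m ≠ m'' → m' ≠ m'' →
      B j4 c = 0 → B j4 (p m) = 1 → B j4 (q m) = -1 → B j4 (p m') = 0 → B j4 (p m'') = 0 →
      B j4 (q m') = 0 → B j4 (q m'') = 0 → False := by
    intro m m' m'' h1 h2 h3 b1 b2 b3 b4 b5 b6 b7
    have e1 := hEq (col m) m
    have e2 := hEq (col m) m'
    have e3 := hEq (col m) m''
    rw [if_pos rfl] at e1
    rw [if_neg (fun h => h1 (hcol h).symm)] at e2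
    rw [if_neg (fun h => h2 (hcol h).symm)] at e3
    have e4 := hEq4 (col m)
    rw [if_neg (fun h => hj4 m h.symm), sum3 h1 h2 h3] at e4
    have s1 := hsgn (col m) c (hc m)
    have s2 := hsgn (col m) (p m) (hp1 m)
    have s3 := hsgn (col m) (q m) (hq1 m)
    have t1 := sB (col m) j4 (q m)
    rw [b3] at t1
    have hn := hBes (col m)
    have hfull : B (col m) (p m) - B (col m) (q m) = 1 ∨
        fsum c p q (B (col m)) (B (col m)) ≤ 2 := by
      by_cases hf : 3 ≤ fsum c p q (B (col m)) (B (col m))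
      · left
        have hip : ip (B (col m)) (B j4) = 1 := by rw [hBB, if_neg (hj4 m)]
        rw [hFull _ hf] at hip
        simp only [fsum, sum3 h1 h2 h3, b1, b2, b3, b4, b5, b6, b7] at hip
        omega
      · right
        omega
    simp only [fsum, sum3 h1 h2 h3] at hfull hn
    rcases stage2 (B (col m) c) (B (col m) (p m)) (B (col m) (p m')) (B (col m) (p m''))
      (B (col m) (q m)) (B (col m) (q m')) (B (col m) (q m'')) _ _ _ _ _ _ _
      (sq_ge _) (sq_ge _) (sq_ge _) (sq_ge _) (sq_ge _) (sq_ge _) (sq_ge _)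
      (by omega) e1 e2 e3 e4 s1 s2 s3 (by omega) (by omega) with h | h
    · obtain ⟨c1, c2, c3, c4, c5, c6, c7⟩ := h
      exact key3 m m' m'' h1 h2 h3 c1 c2 c3 c4 c5 c6 c7
    · obtain ⟨c1, c2, c3, c4, c5, c6, c7⟩ := h
      exact key3 m m'' m' h2 h1 (Ne.symm h3) c1 c2 c3 c4 c5 c6 c7
  -- stage 1
  have e1 := hEq j4 0
  have e2 := hEq j4 1
  have e3 := hEq j4 2
  rw [if_neg (hj4 0)] at e1
  rw [if_neg (hj4 1)] at e2
  rw [if_neg (hj4 2)] at e3
  have e4 := hEq4 j4
  rw [if_pos rfl, Fin.sum_univ_three] at e4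
  have s1 := hsgn j4 (p 0) (hp4 0)
  have s2 := hsgn j4 (p 1) (hp4 1)
  have s3 := hsgn j4 (p 2) (hp4 2)
  have hn := hBes j4
  simp only [fsum, Fin.sum_univ_three] at hn
  rcases stage1 (B j4 c) (B j4 (p 0)) (B j4 (p 1)) (B j4 (p 2)) (B j4 (q 0)) (B j4 (q 1))
    (B j4 (q 2)) _ _ _ _ _ _ _
    (sq_ge _) (sq_ge _) (sq_ge _) (sq_ge _) (sq_ge _) (sq_ge _) (sq_ge _)
    (by omega) e1 e2 e3 e4 s1 s2 s3 with h | h | h
  · obtain ⟨c1, c2, c3, c4, c5, c6, c7⟩ := h
    exact key2 0 1 2 (by decide) (by decide) (by decide) c1 c2 c3 c4 c5 c6 c7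
  · obtain ⟨c1, c2, c3, c4, c5, c6, c7⟩ := h
    exact key2 1 0 2 (by decide) (by decide) (by decide) c1 c2 c3 c4 c5 c6 c7
  · obtain ⟨c1, c2, c3, c4, c5, c6, c7⟩ := h
    exact key2 2 0 1 (by decide) (by decide) (by decide) c1 c2 c3 c4 c5 c6 c7

theorem K_aux (a b c d : X → ℤ) (ha : ∀ x, a x = 0 ∨ a x = 1)
    (haa : ip a a = 3) (hab : ip a b = 1) (hac : ip a c = 1) (had : ip a d = 1)
    (hno : ∀ x, a x = 1 → b x + c x + d x ≤ 1) : ∀ x, a x = 1 → b x + c x + d x = 1 := by
  have hsum : ∑ x, (a x * a x - a x * (b x + c x + d x)) = 0 := by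
    have h1 : ∑ x, (a x * a x - a x * (b x + c x + d x)) =
        ip a a - (ip a b + ip a c + ip a d) := by
      unfold ip
      rw [← Finset.sum_add_distrib, ← Finset.sum_add_distrib, ← Finset.sum_sub_distrib]
      exact Finset.sum_congr rfl (fun x _ => by ring)
    rw [h1, haa, hab, hac, had]
    norm_num
  have hnn : ∀ x ∈ Finset.univ, 0 ≤ a x * a x - a x * (b x + c x + d x) := by
    intro x _
    rcases ha x with h | h
    · rw [h]
      simp
    · have h0 := hno x h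
      rw [h]
      omega
  have h2 := (Finset.sum_eq_zero_iff_of_nonneg hnn).mp hsum
  intro x hx
  have h := h2 x (Finset.mem_univ x)
  rw [hx] at h
  have h0 := hno x hx
  omega

/-- Four triads no three of which share a point cannot be a row. -/
theorem K_contra {J : Type*} [DecidableEq J] (A B : J → X → ℤ)
    (hAA : ∀ j l, ip (A j) (A l) = if j = l then 3 else 1)
    (hAB : ∀ j l, ip (A j) (B l) = if j = l then 1 else 0)
    (hpos : ∀ j x, 0 ≤ A j x)
    (hno3 : ∀ x (j1 j2 j3 : J), j1 ≠ j2 → j1 ≠ j3 → j2 ≠ j3 → A j1 x ≠ 0 → A j2 x ≠ 0 →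
      A j3 x ≠ 0 → False)
    (j1 j2 j3 j4 : J) (d12 : j1 ≠ j2) (d13 : j1 ≠ j3) (d14 : j1 ≠ j4) (d23 : j2 ≠ j3)
    (d24 : j2 ≠ j4) (d34 : j3 ≠ j4) : False := by
  have hA3 : ∀ j, ip (A j) (A j) = 3 := fun j => by rw [hAA, if_pos rfl]
  have hA01 : ∀ j x, A j x = 0 ∨ A j x = 1 := by
    intro j x
    have h1 := val_cases (hA3 j).le x
    have h2 := hpos j x
    omega
  have pf : ∀ (ja jb jc : J), ja ≠ jb → ja ≠ jc → jb ≠ jc → ∀ x, A ja x = 1 →
      ¬ (A jb x = 1 ∧ A jc x = 1) := by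
    intro ja jb jc hab hac hbc x ha hbc'
    exact hno3 x ja jb jc hab hac hbc (by rw [ha]; norm_num) (by rw [hbc'.1]; norm_num)
      (by rw [hbc'.2]; norm_num)
  have key : ∀ (ja jb jc jd : J), ja ≠ jb → ja ≠ jc → ja ≠ jd → jb ≠ jc → jb ≠ jd → jc ≠ jd →
      ∀ x, A ja x = 1 → A jb x + A jc x + A jd x = 1 := by
    intro ja jb jc jd hab hac had hbc hbd hcd
    apply K_aux (A ja) (A jb) (A jc) (A jd) (hA01 ja) (hA3 ja)
      (by rw [hAA, if_neg hab]) (by rw [hAA, if_neg hac]) (by rw [hAA, if_neg had])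
    intro x hx
    have n1 := pf ja jb jc hab hac hbc x hx
    have n2 := pf ja jb jd hab had hbd x hx
    have n3 := pf ja jc jd hac had hcd x hx
    have h1 := hA01 jb x
    have h2 := hA01 jc x
    have h3 := hA01 jd x
    omega
  have hN : ∀ x, (2 : ℤ) ∣ A j1 x + A j2 x + A j3 x + A j4 x := by
    intro x
    have k1 := key j1 j2 j3 j4 d12 d13 d14 d23 d24 d34 x
    have k2 := key j2 j1 j3 j4 d12.symm d23 d24 d13 d14 d34 x
    have k3 := key j3 j1 j2 j4 d13.symm d23.symm d34 d12 d14 d24 x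
    have k4 := key j4 j1 j2 j3 d14.symm d24.symm d34.symm d12 d13 d23 x
    have h1 := hA01 j1 x
    have h2 := hA01 j2 x
    have h3 := hA01 j3 x
    have h4 := hA01 j4 x
    omega
  have hsum : ∑ x, (A j1 x + A j2 x + A j3 x + A j4 x) * B j1 x = 1 := by
    have h1 : ∑ x, (A j1 x + A j2 x + A j3 x + A j4 x) * B j1 x =
        ip (A j1) (B j1) + ip (A j2) (B j1) + ip (A j3) (B j1) + ip (A j4) (B j1) := by
      unfold ip
      rw [← Finset.sum_add_distrib, ← Finset.sum_add_distrib, ← Finset.sum_add_distrib]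
      exact Finset.sum_congr rfl (fun x _ => by ring)
    rw [h1, hAB, hAB, hAB, hAB, if_pos rfl, if_neg d12.symm, if_neg d13.symm, if_neg d14.symm]
    norm_num
  have hdvd : (2 : ℤ) ∣ ∑ x, (A j1 x + A j2 x + A j3 x + A j4 x) * B j1 x :=
    Finset.dvd_sum (fun x _ => Dvd.dvd.mul_right (hN x) _)
  rw [hsum] at hdvd
  omega

theorem row_center_pos {J : Type*} [Fintype J] [DecidableEq J] (A B : J → X → ℤ)
    (hAA : ∀ j l, ip (A j) (A l) = if j = l then 3 else 1)
    (hBB : ∀ j l, ip (B j) (B l) = if j = l then 3 else 1)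
    (hAB : ∀ j l, ip (A j) (B l) = if j = l then 1 else 0)
    (sB : ∀ j l x, 0 ≤ B j x * B l x)
    (sAB : ∀ j x, 0 ≤ A j x * B j x)
    (hpos : ∀ j x, 0 ≤ A j x)
    (hJ : 4 ≤ Fintype.card J) : ∃ x, ∀ j, A j x ≠ 0 := by
  classical
  by_cases h3 : ∃ x, ∃ j1 j2 j3 : J, j1 ≠ j2 ∧ j1 ≠ j3 ∧ j2 ≠ j3 ∧ A j1 x ≠ 0 ∧ A j2 x ≠ 0 ∧
      A j3 x ≠ 0
  · obtain ⟨x, j1, j2, j3, d12, d13, d23, a1, a2, a3⟩ := h3
    refine ⟨x, fun j => ?_⟩
    by_cases e1 : j = j1
    · rw [e1]; exact a1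
    by_cases e2 : j = j2
    · rw [e2]; exact a2
    by_cases e3 : j = j3
    · rw [e3]; exact a3
    intro h0
    have hinj : Function.Injective ![j1, j2, j3] := by
      intro a b h
      fin_cases a <;> fin_cases b <;> simp_all
    refine star_contra A B hAA hBB hAB sB sAB hpos x ![j1, j2, j3] hinj j ?_ ?_ h0
    · intro m
      fin_cases m
      · exact Ne.symm e1
      · exact Ne.symm e2
      · exact Ne.symm e3
    · intro m
      fin_cases m
      · exact a1
      · exact a2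
      · exact a3
  · exfalso
    obtain ⟨e⟩ := Function.Embedding.nonempty_of_card_le (α := Fin 4) (β := J) (by simpa using hJ)
    exact K_contra A B hAA hAB hpos
      (fun x j1 j2 j3 d12 d13 d23 a1 a2 a3 => h3 ⟨x, j1, j2, j3, d12, d13, d23, a1, a2, a3⟩)
      (e 0) (e 1) (e 2) (e 3) (e.injective.ne (by decide)) (e.injective.ne (by decide))
      (e.injective.ne (by decide)) (e.injective.ne (by decide)) (e.injective.ne (by decide))
      (e.injective.ne (by decide))

/-- Row centres: in a `2 × n` array of sign-consistent triads with `n ≥ 4`, the first row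
has a common support point. -/
theorem row_center {J : Type*} [Fintype J] [DecidableEq J] (A B : J → X → ℤ)
    (hAA : ∀ j l, ip (A j) (A l) = if j = l then 3 else 1)
    (hBB : ∀ j l, ip (B j) (B l) = if j = l then 3 else 1)
    (hAB : ∀ j l, ip (A j) (B l) = if j = l then 1 else 0)
    (sA : ∀ j l x, 0 ≤ A j x * A l x)
    (sB : ∀ j l x, 0 ≤ B j x * B l x)
    (sAB : ∀ j x, 0 ≤ A j x * B j x)
    (hJ : 4 ≤ Fintype.card J) : ∃ x, ∀ j, A j x ≠ 0 := by
  classical
  let τ : X → ℤ := fun x => if ∃ j, A j x < 0 then -1 else 1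
  have hτ : ∀ x, τ x * τ x = 1 := by
    intro x
    simp only [τ]
    split_ifs <;> norm_num
  have hprod : ∀ (u v : X → ℤ) x, (τ x * u x) * (τ x * v x) = u x * v x := by
    intro u v x
    calc τ x * u x * (τ x * v x) = (τ x * τ x) * (u x * v x) := by ring
      _ = u x * v x := by rw [hτ, one_mul]
  have hipτ : ∀ u v : X → ℤ, ip (fun x => τ x * u x) (fun x => τ x * v x) = ip u v := by
    intro u v
    unfold ip
    exact Finset.sum_congr rfl (fun x _ => hprod u v x)
  have hposτ : ∀ j x, 0 ≤ τ x * A j x := by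
    intro j x
    by_cases h : ∃ l, A l x < 0
    · have h1 : τ x = -1 := if_pos h
      obtain ⟨l, hl⟩ := h
      have h2 := sA j l x
      have hj : A j x ≤ 0 := by nlinarith
      rw [h1]
      linarith
    · have h1 : τ x = 1 := if_neg h
      rw [h1, one_mul]
      by_contra hneg
      exact h ⟨j, not_le.mp hneg⟩
  obtain ⟨x, hx⟩ := row_center_pos (fun j x => τ x * A j x) (fun j x => τ x * B j x)
    (fun j l => (hipτ (A j) (A l)).trans (hAA j l))
    (fun j l => (hipτ (B j) (B l)).trans (hBB j l))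
    (fun j l => (hipτ (A j) (B l)).trans (hAB j l))
    (fun j l x => (hprod (B j) (B l) x).symm ▸ sB j l x)
    (fun j x => (hprod (A j) (B j) x).symm ▸ sAB j x)
    hposτ hJ
  refine ⟨x, fun j h => hx j ?_⟩
  show τ x * A j x = 0
  rw [h, mul_zero]

end Cfsg.Agent.Lib.Helper75.Tri
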