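import Mathlib
import Cfsg.Agent.Lib.Helper75.TriRow

/-!
# The structure of an `I × J` array of triads with the Gram matrix of Peterfalvi (3.2)
-/

set_option autoImplicit false

namespace Cfsg.Agent.Lib.Helper75.Tri

variable {X : Type*} [Fintype X]

/-- The conclusion of the structure theorem: `g i j` is supported on the three distinct
points `px i`, `py j`, `pz i j`, and all these points are distinct. -/
structure IsTriStructure {I J : Type*} (g : I → J → X → ℤ) (px : I → X) (py : J → X)
    (pz : I → J → X) : Prop where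
  hx : ∀ i j, g i j (px i) ≠ 0
  hy : ∀ i j, g i j (py j) ≠ 0
  hz : ∀ i j, g i j (pz i j) ≠ 0
  supp : ∀ i j w, g i j w ≠ 0 → w = px i ∨ w = py j ∨ w = pz i j
  injx : Function.Injective px
  injy : Function.Injective py
  injz : ∀ i j k l, pz i j = pz k l → i = k ∧ j = l
  xy : ∀ i j, px i ≠ py j
  xz : ∀ i k l, px i ≠ pz k l
  yz : ∀ j k l, py j ≠ pz k l

theorem structure_aux {I J : Type*} [Fintype I] [Fintype J] [DecidableEq I] [DecidableEq J]
    (g : I → J → X → ℤ)
    (hG : ∀ i j k l, ip (g i j) (g k l) = (if i = k then 1 else 0) + (if j = l then 1 else 0) +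
      (if i = k then 1 else 0) * (if j = l then 1 else 0))
    (sR : ∀ i j l x, 0 ≤ g i j x * g i l x)
    (sC : ∀ i k j x, 0 ≤ g i j x * g k j x)
    (hJ : 4 ≤ Fintype.card J) (hI : Fintype.card I = 2 ∨ 4 ≤ Fintype.card I) :
    ∃ (px : I → X) (py : J → X) (pz : I → J → X), IsTriStructure g px py pz := by
  classical
  have h3 : ∀ i j, ip (g i j) (g i j) = 3 := by
    intro i j
    rw [hG]
    simp
  have hrow : ∀ i j l, j ≠ l → ip (g i j) (g i l) = 1 := by
    intro i j l h
    rw [hG]
    simp [h]
  have hcolm : ∀ i k j, i ≠ k → ip (g i j) (g k j) = 1 := by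
    intro i k j h
    rw [hG]
    simp [h]
  have hdiag : ∀ i k j l, i ≠ k → j ≠ l → ip (g i j) (g k l) = 0 := by
    intro i k j l h h'
    rw [hG]
    simp [h, h']
  have hI2 : 1 < Fintype.card I := by omega
  have hJ2 : 1 < Fintype.card J := by omega
  have hJne : Nonempty J := Fintype.card_pos_iff.mp (by omega)
  -- row centres
  have hcx : ∀ i, ∃ x, ∀ j, g i j x ≠ 0 := by
    intro i
    obtain ⟨k, hk⟩ := Fintype.exists_ne_of_one_lt_card hI2 i
    refine row_center (g i) (g k) ?_ ?_ ?_ (sR i) (sR k) (fun j x => sC i k j x) hJ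
    · intro j l
      rw [hG]
      by_cases h : j = l <;> simp [h]
    · intro j l
      rw [hG]
      by_cases h : j = l <;> simp [h]
    · intro j l
      rw [hG]
      by_cases h : j = l <;> simp [h, Ne.symm hk]
  choose cx hcx using hcx
  have hP1 : ∀ i j l, j ≠ l → ∀ x, x ≠ cx i → g i j x = 0 ∨ g i l x = 0 := by
    intro i j l hjl x hx
    by_contra h
    have h' := not_or.mp h
    exact hx (common_unique (sR i j l) (hrow i j l hjl) h'.1 h'.2 (hcx i j) (hcx i l))
  have hP2 : ∀ i k l, k ≠ i → g k l (cx i) = 0 := by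
    intro i k l hki
    by_contra hne
    have hcard : 2 < (Finset.univ.erase l).card := by
      rw [Finset.card_erase_of_mem (Finset.mem_univ l), Finset.card_univ]
      omega
    obtain ⟨j1, m1, j2, m2, j3, m3, d12, d13, d23⟩ := Finset.two_lt_card.mp hcard
    have n1 := (Finset.mem_erase.mp m1).1
    have n2 := (Finset.mem_erase.mp m2).1
    have n3 := (Finset.mem_erase.mp m3).1
    have hy : ∀ j, j ≠ l → ∃ y, y ≠ cx i ∧ g i j y ≠ 0 ∧ g k l y ≠ 0 := by
      intro j hjl
      have h0 : ∑ x, g i j x * g k l x = 0 := hdiag i k j l (Ne.symm hki) hjl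
      obtain ⟨y, hy, hy'⟩ := exists_other h0 (a := cx i) (mul_ne_zero (hcx i j) hne)
      exact ⟨y, hy, left_ne_zero_of_mul hy', right_ne_zero_of_mul hy'⟩
    obtain ⟨y1, a1, b1, c1⟩ := hy j1 n1
    obtain ⟨y2, a2, b2, c2⟩ := hy j2 n2
    obtain ⟨y3, a3, b3, c3⟩ := hy j3 n3
    have e12 : y1 ≠ y2 := by
      rintro rfl
      rcases hP1 i j1 j2 d12 y1 a1 with h | h
      · exact b1 h
      · exact b2 h
    have e13 : y1 ≠ y3 := by
      rintro rfl
      rcases hP1 i j1 j3 d13 y1 a1 with h | h
      · exact b1 h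
      · exact b3 h
    have e23 : y2 ≠ y3 := by
      rintro rfl
      rcases hP1 i j2 j3 d23 y2 a2 with h | h
      · exact b2 h
      · exact b3 h
    exact not_four (h3 k l) (Ne.symm a1) (Ne.symm a2) (Ne.symm a3) e12 e13 e23 hne c1 c2 c3
  have hinjx : Function.Injective cx := by
    intro i k h
    by_contra hik
    obtain ⟨l⟩ := hJne
    have h0 := hP2 i k l (Ne.symm hik)
    rw [h] at h0
    exact hcx k l h0
  -- column centres
  have hcy : ∀ j, ∃ y, ∀ i, g i j y ≠ 0 := by
    intro j
    rcases hI with h2 | h4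
    · obtain ⟨i, k, hik, huniv⟩ := Finset.card_eq_two.mp (Finset.card_univ.trans h2)
      obtain ⟨y, hy1, hy2, _⟩ := exists_common (sC i k j) (hcolm i k j hik)
      refine ⟨y, fun i' => ?_⟩
      have hmem : i' ∈ ({i, k} : Finset I) := by
        rw [← huniv]
        exact Finset.mem_univ i'
      simp only [Finset.mem_insert, Finset.mem_singleton] at hmem
      rcases hmem with rfl | rfl
      · exact hy1
      · exact hy2
    · obtain ⟨l, hl⟩ := Fintype.exists_ne_of_one_lt_card hJ2 j
      refine row_center (fun i => g i j) (fun i => g i l) ?_ ?_ ?_ (fun i k x => sC i k j x)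
        (fun i k x => sC i k l x) (fun i x => sR i j l x) h4
      · intro i k
        rw [hG]
        by_cases h : i = k <;> simp [h]
      · intro i k
        rw [hG]
        by_cases h : i = k <;> simp [h]
      · intro i k
        rw [hG]
        by_cases h : i = k <;> simp [h, Ne.symm hl]
  choose cy hcy using hcy
  have hxy : ∀ i j, cx i ≠ cy j := by
    intro i j h
    obtain ⟨k, hk⟩ := Fintype.exists_ne_of_one_lt_card hI2 i
    have h0 := hP2 i k j hk
    rw [h] at h0
    exact hcy j k h0
  have hP1' : ∀ i k j, i ≠ k → ∀ x, x ≠ cy j → g i j x = 0 ∨ g k j x = 0 := by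
    intro i k j hik x hx
    by_contra h
    have h' := not_or.mp h
    exact hx (common_unique (sC i k j) (hcolm i k j hik) h'.1 h'.2 (hcy j i) (hcy j k))
  have hP4 : ∀ i j l, l ≠ j → g i l (cy j) = 0 := by
    intro i j l hlj
    rcases hP1 i j l (Ne.symm hlj) (cy j) (Ne.symm (hxy i j)) with h | h
    · exact absurd h (hcy j i)
    · exact h
  have hinjy : Function.Injective cy := by
    intro j l h
    by_contra hjl
    obtain ⟨i⟩ : Nonempty I := Fintype.card_pos_iff.mp (by omega)
    have h0 := hP4 i j l (Ne.symm hjl)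
    rw [h] at h0
    exact hcy l i h0
  have hcz : ∀ i j, ∃ z, z ≠ cx i ∧ z ≠ cy j ∧ g i j z ≠ 0 := fun i j =>
    exists_third (h3 i j) (hxy i j)
  choose cz hzx hzy hcz using hcz
  have hthree := fun i j => ip_three (h3 i j) (hxy i j) (Ne.symm (hzx i j)) (Ne.symm (hzy i j))
    (hcx i j) (hcy j i) (hcz i j)
  have hxz : ∀ i k l, cx i ≠ cz k l := by
    intro i k l h
    by_cases hik : k = i
    · subst hik
      exact hzx k l h.symm
    · have h0 := hP2 i k l hik
      rw [h] at h0
      exact hcz k l h0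
  have hyz : ∀ j k l, cy j ≠ cz k l := by
    intro j k l h
    by_cases hjl : l = j
    · subst hjl
      exact hzy k l h.symm
    · have h0 := hP4 k j l hjl
      rw [h] at h0
      exact hcz k l h0
  refine ⟨cx, cy, cz, ⟨hcx, fun i j => hcy j i, hcz, fun i j => (hthree i j).1, hinjx, hinjy, ?_,
    hxy, hxz, hyz⟩⟩
  intro i j k l h
  by_cases hik : i = k
  · subst hik
    refine ⟨rfl, ?_⟩
    by_contra hjl
    rcases hP1 i j l hjl (cz i j) (hzx i j) with h0 | h0
    · exact hcz i j h0
    · rw [h] at h0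
      exact hcz i l h0
  · by_cases hjl : j = l
    · subst hjl
      exfalso
      rcases hP1' i k j hik (cz i j) (hzy i j) with h0 | h0
      · exact hcz i j h0
      · rw [h] at h0
        exact hcz k j h0
    · exfalso
      have h0 := hdiag i k j l hik hjl
      rw [(hthree i j).2 (g k l), hP2 i k l (Ne.symm hik), hP4 k j l (Ne.symm hjl), h] at h0
      have h1 : g i j (cz k l) * g k l (cz k l) ≠ 0 := by
        rw [← h]
        exact mul_ne_zero (hcz i j) (h ▸ hcz k l)
      omega

/-- The structure theorem, in the form symmetric in rows and columns. -/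
theorem structure_thm {I J : Type*} [Fintype I] [Fintype J] [DecidableEq I] [DecidableEq J]
    (g : I → J → X → ℤ)
    (hG : ∀ i j k l, ip (g i j) (g k l) = (if i = k then 1 else 0) + (if j = l then 1 else 0) +
      (if i = k then 1 else 0) * (if j = l then 1 else 0))
    (sR : ∀ i j l x, 0 ≤ g i j x * g i l x)
    (sC : ∀ i k j x, 0 ≤ g i j x * g k j x)
    (hIJ : (4 ≤ Fintype.card J ∧ (Fintype.card I = 2 ∨ 4 ≤ Fintype.card I)) ∨
      (4 ≤ Fintype.card I ∧ (Fintype.card J = 2 ∨ 4 ≤ Fintype.card J))) :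
    ∃ (px : I → X) (py : J → X) (pz : I → J → X), IsTriStructure g px py pz := by
  rcases hIJ with ⟨hJ, hI⟩ | ⟨hI, hJ⟩
  · exact structure_aux g hG sR sC hJ hI
  · obtain ⟨px, py, pz, h⟩ := structure_aux (fun j i => g i j)
      (fun j i l k => by rw [hG i j k l]; ring) (fun j i k x => sC i k j x)
      (fun j l i x => sR i j l x) hI hJ
    exact ⟨py, px, fun i j => pz j i, ⟨fun i j => h.hy j i, fun i j => h.hx j i,
      fun i j => h.hz j i, fun i j w hw => by
        rcases h.supp j i w hw with h1 | h1 | h1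
        · exact Or.inr (Or.inl h1)
        · exact Or.inl h1
        · exact Or.inr (Or.inr h1),
      h.injy, h.injx, fun i j k l e => (h.injz j i l k e).symm, fun i j => (h.xy j i).symm,
      fun i k l => h.yz i l k, fun j k l => h.xz j l k⟩⟩

end Cfsg.Agent.Lib.Helper75.Tri
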