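import Mathlib
import Cfsg.Prelude.Def_OddOrderChar
import Cfsg.Prelude.Def_OddOrderLocal
import Cfsg.Agent.Lib.Helper75.TriStruct
import Cfsg.Agent.Lib.Helper25.AnnihCard
import Cfsg.Agent.Lib.Helper25.CyclicDual

/-!
# Labels for the linear characters of `W₁ ⊔ W₂`, and two arithmetic lemmas
-/

set_option autoImplicit false

namespace Cfsg.Agent.Lib.Helper75.CycFam

open Cfsg.Agent.Lib.Helper25 Cfsg.Agent.Lib.Helper75.Tri

/-- Two triads of the same degree with inner product one are sign-consistent. -/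
theorem sign_consistent {X : Type*} [Fintype X] (d : X → ℤ) (hd : ∀ x, 0 < d x) {u v : X → ℤ}
    (hu : ip u u = 3) (hv : ip v v = 3) (huv : ip u v = 1)
    (hdeg : ∑ x, u x * d x = ∑ x, v x * d x) : ∀ z, 0 ≤ u z * v z := by
  classical
  intro z
  by_contra hneg
  have hz1 := val_cases hu.le z
  have hz2 := val_cases hv.le z
  have hcase : (u z = 1 ∧ v z = -1) ∨ (u z = -1 ∧ v z = 1) := by
    rcases hz1 with h | h | h <;> rcases hz2 with h' | h' | h'
    · exact absurd (by rw [h, h']; norm_num) hneg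
    · exact absurd (by rw [h, h']; norm_num) hneg
    · exact Or.inr ⟨h, h'⟩
    · exact absurd (by rw [h, h']; norm_num) hneg
    · exact absurd (by rw [h, h']; norm_num) hneg
    · exact absurd (by rw [h, h']; norm_num) hneg
    · exact Or.inl ⟨h, h'⟩
    · exact absurd (by rw [h, h']; norm_num) hneg
    · exact absurd (by rw [h, h']; norm_num) hneg
  have hw : (u z - v z) * (u z - v z) = 4 := by
    rcases hcase with ⟨h1, h2⟩ | ⟨h1, h2⟩ <;> rw [h1, h2] <;> norm_num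
  have hww : ∑ x, (u x - v x) * (u x - v x) = 4 := by
    have h1 : ∑ x, (u x - v x) * (u x - v x) = ip u u - 2 * ip u v + ip v v := by
      unfold ip
      rw [Finset.mul_sum, ← Finset.sum_sub_distrib, ← Finset.sum_add_distrib]
      exact Finset.sum_congr rfl (fun x _ => by ring)
    rw [h1, hu, hv, huv]
    norm_num
  have hrest : ∑ x ∈ Finset.univ.erase z, (u x - v x) * (u x - v x) = 0 := by
    have h1 : (u z - v z) * (u z - v z) +
        ∑ x ∈ Finset.univ.erase z, (u x - v x) * (u x - v x) =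
        ∑ x, (u x - v x) * (u x - v x) :=
      Finset.add_sum_erase Finset.univ (fun x => (u x - v x) * (u x - v x))
        (Finset.mem_univ z)
    omega
  have hzero : ∀ x, x ≠ z → u x = v x := by
    intro x hx
    have h1 := (Finset.sum_eq_zero_iff_of_nonneg
      (fun x _ => mul_self_nonneg (u x - v x))).mp hrest x
      (Finset.mem_erase.mpr ⟨hx, Finset.mem_univ x⟩)
    have h2 := mul_self_eq_zero.mp h1
    omega
  have hdeg' : ∑ x, (u x - v x) * d x = 0 := by
    rw [Finset.sum_congr rfl (fun x _ => sub_mul (u x) (v x) (d x)), Finset.sum_sub_distrib,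
      hdeg, sub_self]
  have hsingle : ∑ x, (u x - v x) * d x = (u z - v z) * d z := by
    apply Finset.sum_eq_single z
    · intro x _ hx
      rw [hzero x hx, sub_self, zero_mul]
    · intro h
      exact absurd (Finset.mem_univ z) h
  rw [hsingle] at hdeg'
  have hdz := hd z
  rcases hcase with ⟨h1, h2⟩ | ⟨h1, h2⟩ <;> rw [h1, h2] at hdeg' <;> omega

theorem eq_of_pm {a b : ℤ} (ha : a = 1 ∨ a = -1) (hb : b = 1 ∨ b = -1) (h : 0 ≤ a * b) :
    a = b := by
  rcases ha with rfl | rfl <;> rcases hb with rfl | rfl <;> first | rfl | (norm_num at h)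

/-- Labels: the trivial character, the nontrivial characters trivial on `W₂`, those trivial on
`W₁`, and the products. -/
inductive Lab (A B : Type*) where
  | triv : Lab A B
  | left (a : A) : Lab A B
  | right (b : B) : Lab A B
  | both (a : A) (b : B) : Lab A B

/-- The point attached to a label. -/
def Lab.pnt {A B X : Type*} (x₀ : X) (px : A → X) (py : B → X) (pz : A → B → X) : Lab A B → X
  | .triv => x₀
  | .left a => px a
  | .right b => py b
  | .both a b => pz a b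

/-- The sign attached to a label. -/
def Lab.sgn {A B : Type*} (sx : A → ℤ) (sy : B → ℤ) (sz : A → B → ℤ) : Lab A B → ℤ
  | .triv => 1
  | .left a => sx a
  | .right b => sy b
  | .both a b => sz a b

theorem Lab.pnt_injective {A B X : Type*} {x₀ : X} {px : A → X} {py : B → X} {pz : A → B → X}
    (hx : Function.Injective px) (hy : Function.Injective py)
    (hz : ∀ i j k l, pz i j = pz k l → i = k ∧ j = l)
    (hxy : ∀ i j, px i ≠ py j) (hxz : ∀ i k l, px i ≠ pz k l) (hyz : ∀ j k l, py j ≠ pz k l)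
    (h0x : ∀ i, px i ≠ x₀) (h0y : ∀ j, py j ≠ x₀) (h0z : ∀ i j, pz i j ≠ x₀) :
    Function.Injective (Lab.pnt x₀ px py pz) := by
  intro a b h
  match a, b, h with
  | .triv, .triv, _ => rfl
  | .triv, .left k, h => exact absurd h.symm (h0x k)
  | .triv, .right l, h => exact absurd h.symm (h0y l)
  | .triv, .both k l, h => exact absurd h.symm (h0z k l)
  | .left i, .triv, h => exact absurd h (h0x i)
  | .left i, .left k, h => exact congrArg Lab.left (hx h)
  | .left i, .right l, h => exact absurd h (hxy i l)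
  | .left i, .both k l, h => exact absurd h (hxz i k l)
  | .right j, .triv, h => exact absurd h (h0y j)
  | .right j, .left k, h => exact absurd h.symm (hxy k j)
  | .right j, .right l, h => exact congrArg Lab.right (hy h)
  | .right j, .both k l, h => exact absurd h (hyz j k l)
  | .both i j, .triv, h => exact absurd h (h0z i j)
  | .both i j, .left k, h => exact absurd h.symm (hxz k i j)
  | .both i j, .right l, h => exact absurd h.symm (hyz l i j)
  | .both i j, .both k l, h =>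
    obtain ⟨rfl, rfl⟩ := hz i j k l h
    rfl

variable {G : Type*} [Group G]

/-- The nontrivial linear characters of `W₁ ⊔ W₂` trivial on `W₂`. -/
abbrev IdxL (W₁ W₂ : Subgroup G) : Type _ :=
  {φ : ↥(W₁ ⊔ W₂) →* ℂˣ // φ ≠ 1 ∧ ∀ w : ↥(W₁ ⊔ W₂), (w : G) ∈ W₂ → φ w = 1}

/-- The nontrivial linear characters of `W₁ ⊔ W₂` trivial on `W₁`. -/
abbrev IdxR (W₁ W₂ : Subgroup G) : Type _ :=
  {ψ : ↥(W₁ ⊔ W₂) →* ℂˣ // ψ ≠ 1 ∧ ∀ w : ↥(W₁ ⊔ W₂), (w : G) ∈ W₁ → ψ w = 1}

/-- The first component of the character of a label. -/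
def Lab.c1 {W₁ W₂ : Subgroup G} : Lab (IdxL W₁ W₂) (IdxR W₁ W₂) → (↥(W₁ ⊔ W₂) →* ℂˣ)
  | .triv => 1
  | .left i => i.1
  | .right _ => 1
  | .both i _ => i.1

/-- The second component of the character of a label. -/
def Lab.c2 {W₁ W₂ : Subgroup G} : Lab (IdxL W₁ W₂) (IdxR W₁ W₂) → (↥(W₁ ⊔ W₂) →* ℂˣ)
  | .triv => 1
  | .left _ => 1
  | .right j => j.1
  | .both _ j => j.1

/-- The linear character of a label. -/
def Lab.toChar {W₁ W₂ : Subgroup G} (a : Lab (IdxL W₁ W₂) (IdxR W₁ W₂)) : ↥(W₁ ⊔ W₂) →* ℂˣ :=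
  Lab.c1 a * Lab.c2 a

theorem Lab.c1_triv {W₁ W₂ : Subgroup G} (a : Lab (IdxL W₁ W₂) (IdxR W₁ W₂)) :
    ∀ w : ↥(W₁ ⊔ W₂), (w : G) ∈ W₂ → Lab.c1 a w = 1 := by
  intro w hw
  match a with
  | .triv => rfl
  | .left i => exact i.2.2 w hw
  | .right _ => rfl
  | .both i _ => exact i.2.2 w hw

theorem Lab.c2_triv {W₁ W₂ : Subgroup G} (a : Lab (IdxL W₁ W₂) (IdxR W₁ W₂)) :
    ∀ w : ↥(W₁ ⊔ W₂), (w : G) ∈ W₁ → Lab.c2 a w = 1 := by
  intro w hw
  match a with
  | .triv => rfl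
  | .left _ => rfl
  | .right j => exact j.2.2 w hw
  | .both _ j => exact j.2.2 w hw

theorem Lab.toChar_injective {W₁ W₂ : Subgroup G} (hcomm : ∀ a ∈ W₁, ∀ b ∈ W₂, a * b = b * a) :
    Function.Injective (Lab.toChar (W₁ := W₁) (W₂ := W₂)) := by
  intro a b h
  obtain ⟨h1, h2⟩ := (linChar_mul_eq_mul_iff W₁ W₂ hcomm (Lab.c1 a) (Lab.c1 b) (Lab.c2 a)
    (Lab.c2 b) (Lab.c1_triv a) (Lab.c1_triv b) (Lab.c2_triv a) (Lab.c2_triv b)).mp h
  match a, b, h1, h2 with
  | .triv, .triv, _, _ => rfl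
  | .triv, .left k, h1, _ => exact absurd h1.symm k.2.1
  | .triv, .right l, _, h2 => exact absurd h2.symm l.2.1
  | .triv, .both k l, h1, _ => exact absurd h1.symm k.2.1
  | .left i, .triv, h1, _ => exact absurd h1 i.2.1
  | .left i, .left k, h1, _ => exact congrArg Lab.left (Subtype.ext h1)
  | .left i, .right l, h1, _ => exact absurd h1 i.2.1
  | .left i, .both k l, _, h2 => exact absurd h2.symm l.2.1
  | .right j, .triv, _, h2 => exact absurd h2 j.2.1
  | .right j, .left k, _, h2 => exact absurd h2 j.2.1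
  | .right j, .right l, _, h2 => exact congrArg Lab.right (Subtype.ext h2)
  | .right j, .both k l, h1, _ => exact absurd h1.symm k.2.1
  | .both i j, .triv, h1, _ => exact absurd h1 i.2.1
  | .both i j, .left k, _, h2 => exact absurd h2 j.2.1
  | .both i j, .right l, h1, _ => exact absurd h1 i.2.1
  | .both i j, .both k l, h1, h2 =>
    have e1 : i = k := Subtype.ext h1
    have e2 : j = l := Subtype.ext h2
    rw [e1, e2]

theorem Lab.toChar_surjective [Finite G] {W₁ W₂ : Subgroup G} (hdisj : W₁ ⊓ W₂ = ⊥)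
    (hcomm : ∀ a ∈ W₁, ∀ b ∈ W₂, a * b = b * a) (hcyc : IsCyclic ↥(W₁ ⊔ W₂)) :
    Function.Surjective (Lab.toChar (W₁ := W₁) (W₂ := W₂)) := by
  intro ω
  obtain ⟨φ, ψ, hφ, hψ, rfl⟩ := exists_linChar_decomp W₁ W₂ hdisj hcomm hcyc ω
  by_cases h1 : φ = 1
  · by_cases h2 : ψ = 1
    · refine ⟨.triv, ?_⟩
      rw [h1, h2]
      rfl
    · refine ⟨.right ⟨ψ, h2, hψ⟩, ?_⟩
      rw [h1]
      rfl
  · by_cases h2 : ψ = 1
    · refine ⟨.left ⟨φ, h1, hφ⟩, ?_⟩
      rw [h2]
      rfl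
    · exact ⟨.both ⟨φ, h1, hφ⟩ ⟨ψ, h2, hψ⟩, rfl⟩

/-- The number of nontrivial elements satisfying a predicate that holds at `1`. -/
theorem card_ne_one_add_one {Ω : Type*} [Finite Ω] [One Ω] (p : Ω → Prop) (h1 : p 1) :
    Nat.card {ω : Ω // ω ≠ 1 ∧ p ω} + 1 = Nat.card {ω : Ω // p ω} := by
  classical
  have : Fintype Ω := Fintype.ofFinite _
  rw [Nat.card_eq_fintype_card, Nat.card_eq_fintype_card, Fintype.card_subtype,
    Fintype.card_subtype]
  have h2 : Finset.univ.filter (fun ω : Ω => ω ≠ 1 ∧ p ω) =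
      (Finset.univ.filter (fun ω : Ω => p ω)).erase 1 := by
    ext ω
    simp [Finset.mem_erase]
  rw [h2, Finset.card_erase_of_mem (by simp [h1])]
  have h3 : 0 < (Finset.univ.filter (fun ω : Ω => p ω)).card :=
    Finset.card_pos.mpr ⟨1, by simp [h1]⟩
  omega

theorem card_idxL [Finite G] (W₁ W₂ : Subgroup G) (hdisj : W₁ ⊓ W₂ = ⊥)
    (hcomm : ∀ a ∈ W₁, ∀ b ∈ W₂, a * b = b * a) (hcyc : IsCyclic ↥(W₁ ⊔ W₂)) :
    Nat.card (IdxL W₁ W₂) + 1 = Nat.card W₁ := by
  have : Finite (↥(W₁ ⊔ W₂) →* ℂˣ) := finite_linChar _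
  have h1 := card_ne_one_add_one (Ω := ↥(W₁ ⊔ W₂) →* ℂˣ)
    (fun φ => ∀ w : ↥(W₁ ⊔ W₂), (w : G) ∈ W₂ → φ w = 1) (fun _ _ => rfl)
  rw [← card_annih_right W₁ W₂ hdisj hcomm hcyc]
  refine h1.trans (Nat.card_congr ?_)
  exact Equiv.subtypeEquivRight (fun φ => by
    rw [mem_annih]
    exact ⟨fun h w hw => h w (Subgroup.mem_subgroupOf.mp hw),
      fun h w hw => h w (Subgroup.mem_subgroupOf.mpr hw)⟩)

theorem card_idxR [Finite G] (W₁ W₂ : Subgroup G) (hdisj : W₁ ⊓ W₂ = ⊥)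
    (hcomm : ∀ a ∈ W₁, ∀ b ∈ W₂, a * b = b * a) (hcyc : IsCyclic ↥(W₁ ⊔ W₂)) :
    Nat.card (IdxR W₁ W₂) + 1 = Nat.card W₂ := by
  have : Finite (↥(W₁ ⊔ W₂) →* ℂˣ) := finite_linChar _
  have h1 := card_ne_one_add_one (Ω := ↥(W₁ ⊔ W₂) →* ℂˣ)
    (fun φ => ∀ w : ↥(W₁ ⊔ W₂), (w : G) ∈ W₁ → φ w = 1) (fun _ _ => rfl)
  rw [← card_annih_left W₁ W₂ hdisj hcomm hcyc]
  refine h1.trans (Nat.card_congr ?_)
  exact Equiv.subtypeEquivRight (fun φ => by
    rw [mem_annih]
    exact ⟨fun h w hw => h w (Subgroup.mem_subgroupOf.mp hw),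
      fun h w hw => h w (Subgroup.mem_subgroupOf.mpr hw)⟩)

end Cfsg.Agent.Lib.Helper75.CycFam
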