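import Mathlib
import Cfsg.Prelude.Def_OddOrderChar
import Cfsg.Prelude.Def_OddOrderLocal
import Cfsg.Agent.S1505
import Cfsg.Agent.Lib.Helper75.CycEq
import Cfsg.Agent.Lib.Helper75.CycLab
import Cfsg.Agent.Lib.Helper15.LinChar

/-!
# Peterfalvi (3.2): existence of the cyclic TI family
-/

set_option autoImplicit false

namespace Cfsg.Agent.Lib.Helper75.CycFam

open Cfsg.Agent.Lib.Helper25 Cfsg.Agent.Lib.Helper75.Tri
open scoped ComplexConjugate

theorem classInner_smul_irr {G : Type*} [Group G] [Fintype G] (s t : ℤ)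
    (x y : Cfsg.IrrCharacter G) [Decidable (x = y)] :
    Cfsg.classInner ((s : ℂ) • (x : G → ℂ)) ((t : ℂ) • (y : G → ℂ)) =
      if x = y then ((s * t : ℤ) : ℂ) else 0 := by
  rw [Cfsg.Agent.Lib.Helper26.classInner_smul_left, Cfsg.Agent.Lib.Helper26.classInner_smul_right]
  split_ifs with h
  · subst h
    rw [Cfsg.Agent.Lib.Helper26.classInner_irr_self x.2]
    simp
  · rw [Cfsg.Agent.Lib.Helper26.classInner_irr_ne x.2 y.2 (fun e => h (Subtype.ext e))]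
    simp

open Classical in
/-- Peterfalvi (3.2): a self-normalising cyclic subgroup `W₁ ⊔ W₂` of odd order carries a cyclic
TI family. -/
theorem exists_family {G : Type*} [Group G] [Fintype G] (W₁ W₂ : Subgroup G)
    (hW : Cfsg.IsSelfNormalizingCyclic W₁ W₂) (hodd : Odd (Nat.card ↥(W₁ ⊔ W₂))) :
    ∃ χ : (↥(W₁ ⊔ W₂) →* ℂˣ) → (G → ℂ), Cfsg.IsCyclicTIFamily W₁ W₂ χ := by
  obtain ⟨hne1, hne2, hdisj, hcomm, hcyc, _⟩ := id hW
  have : Fintype ↥(W₁ ⊔ W₂) := Fintype.ofFinite _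
  have : Finite (↥(W₁ ⊔ W₂) →* ℂˣ) := finite_linChar _
  have : Fintype (IdxL W₁ W₂) := Fintype.ofFinite _
  have : Fintype (IdxR W₁ W₂) := Fintype.ofFinite _
  have : Fintype (Cfsg.IrrCharacter G) := Fintype.ofFinite _
  -- cardinalities
  have hIJ : (4 ≤ Fintype.card (IdxR W₁ W₂) ∧
        (Fintype.card (IdxL W₁ W₂) = 2 ∨ 4 ≤ Fintype.card (IdxL W₁ W₂))) ∨
      (4 ≤ Fintype.card (IdxL W₁ W₂) ∧
        (Fintype.card (IdxR W₁ W₂) = 2 ∨ 4 ≤ Fintype.card (IdxR W₁ W₂))) := by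
    have hL := card_idxL W₁ W₂ hdisj hcomm hcyc
    have hR := card_idxR W₁ W₂ hdisj hcomm hcyc
    rw [Nat.card_eq_fintype_card (α := IdxL W₁ W₂)] at hL
    rw [Nat.card_eq_fintype_card (α := IdxR W₁ W₂)] at hR
    have hcard := card_sup_of_isCyclic W₁ W₂ hdisj hcomm hcyc
    have hco := coprime_card_of_isCyclic_sup W₁ W₂ hdisj hcyc
    have h1 : Nat.card W₁ ≠ 1 := fun h => hne1 (Subgroup.eq_bot_of_card_eq W₁ h)
    have h2 : Nat.card W₂ ≠ 1 := fun h => hne2 (Subgroup.eq_bot_of_card_eq W₂ h)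
    have hp1 : 0 < Nat.card W₁ := Nat.card_pos
    have hp2 : 0 < Nat.card W₂ := Nat.card_pos
    rw [hcard] at hodd
    have ho1 : Odd (Nat.card W₁) := (Nat.odd_mul.mp hodd).1
    have ho2 : Odd (Nat.card W₂) := (Nat.odd_mul.mp hodd).2
    have h33 : ¬ (Nat.card W₁ = 3 ∧ Nat.card W₂ = 3) := by
      rintro ⟨e1, e2⟩
      rw [e1, e2] at hco
      exact absurd hco (by decide)
    rw [Nat.odd_iff] at ho1 ho2
    omega
  -- the generalized characters and their coefficients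
  have hgen : ∀ (i : IdxL W₁ W₂) (j : IdxR W₁ W₂), Cfsg.IsGeneralizedCharacter G
      (Cfsg.indFun (W₁ ⊔ W₂) (alpha i.1 j.1) - fun _ => (1 : ℂ)) := by
    intro i j
    have h1 : alpha i.1 j.1 =
        (fun w : ↥(W₁ ⊔ W₂) => (((1 : ↥(W₁ ⊔ W₂) →* ℂˣ) w : ℂˣ) : ℂ)) -
          (fun w => ((i.1 w : ℂˣ) : ℂ)) - (fun w => ((j.1 w : ℂˣ) : ℂ)) +
          (fun w => (((i.1 * j.1) w : ℂˣ) : ℂ)) := by
      funext w
      simp [alpha]
    rw [h1, Cfsg.Agent.Lib.Helper3.indFun_add, Cfsg.Agent.Lib.Helper3.indFun_sub,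
      Cfsg.Agent.Lib.Helper3.indFun_sub]
    have hc : ∀ ω : ↥(W₁ ⊔ W₂) →* ℂˣ, Cfsg.IsGeneralizedCharacter G
        (Cfsg.indFun (W₁ ⊔ W₂) (fun w => ((ω w : ℂˣ) : ℂ))) := fun ω =>
      Cfsg.Agent.Lib.Helper26.isGen_of_isCharacter
        (Cfsg.Agent.Lib.Helper75.isCharacter_indFun _ (Cfsg.Agent.Lib.Helper15.isCharacter_of_hom ω))
    exact Cfsg.Agent.Lib.Helper26.isGen_sub
      (Cfsg.Agent.Lib.Helper26.isGen_add
        (Cfsg.Agent.Lib.Helper26.isGen_sub (Cfsg.Agent.Lib.Helper26.isGen_sub (hc 1) (hc i.1))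
          (hc j.1)) (hc (i.1 * j.1)))
      (Cfsg.Agent.Lib.Helper26.isGen_of_isCharacter
        (Cfsg.Agent.Lib.Helper26.isCharacter_of_irr Cfsg.Agent.Lib.Helper80.isIrrCharacter_one))
  choose g hg using fun i j => Cfsg.Agent.Lib.Helper26.gen_expansion (hgen i j)
  let x₀ : Cfsg.IrrCharacter G := ⟨fun _ => 1, Cfsg.Agent.Lib.Helper80.isIrrCharacter_one⟩
  have hS := fun (i k : IdxL W₁ W₂) (j l : IdxR W₁ W₂) =>
    Cfsg.Agent.S1505.result W₁ W₂ hW i.1 k.1 j.1 l.1 i.2.1 k.2.1 j.2.1 l.2.1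
      (fun w hw => ⟨i.2.2 w hw, k.2.2 w hw⟩) (fun w hw => ⟨j.2.2 w hw, l.2.2 w hw⟩)
  have hb1 : ∀ (i : IdxL W₁ W₂) (j : IdxR W₁ W₂),
      Cfsg.classInner (Cfsg.indFun (W₁ ⊔ W₂) (alpha i.1 j.1)) (fun _ => (1 : ℂ)) = 1 :=
    fun i j => (hS i i j j).1
  have h11 : Cfsg.classInner (fun _ : G => (1 : ℂ)) (fun _ => (1 : ℂ)) = 1 :=
    Cfsg.Agent.Lib.Helper26.classInner_irr_self Cfsg.Agent.Lib.Helper80.isIrrCharacter_one
  have h1b : ∀ (k : IdxL W₁ W₂) (l : IdxR W₁ W₂), Cfsg.classInner (fun _ : G => (1 : ℂ))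
      (Cfsg.indFun (W₁ ⊔ W₂) (alpha k.1 l.1)) = 1 := by
    intro k l
    rw [← Cfsg.Agent.Lib.Helper26.classInner_conj_symm, hb1]
    simp
  have hgram : ∀ (i : IdxL W₁ W₂) (j : IdxR W₁ W₂) (k : IdxL W₁ W₂) (l : IdxR W₁ W₂),
      ((ip (g i j) (g k l) : ℤ) : ℂ) =
        Cfsg.classInner (Cfsg.indFun (W₁ ⊔ W₂) (alpha i.1 j.1))
          (Cfsg.indFun (W₁ ⊔ W₂) (alpha k.1 l.1)) - 1 := by
    intro i j k l
    have h1 : Cfsg.classInner (Cfsg.indFun (W₁ ⊔ W₂) (alpha i.1 j.1) - fun _ => (1 : ℂ))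
        (Cfsg.indFun (W₁ ⊔ W₂) (alpha k.1 l.1) - fun _ => (1 : ℂ)) =
        ((ip (g i j) (g k l) : ℤ) : ℂ) := by
      rw [hg i j, hg k l, Cfsg.Agent.Lib.Helper26.classInner_expansion]
      unfold ip
      push_cast
      refine Finset.sum_congr rfl (fun x _ => ?_)
      simp
    rw [← h1, Cfsg.Agent.Lib.Helper26.classInner_sub_left,
      Cfsg.Agent.Lib.Helper26.classInner_sub_right, Cfsg.Agent.Lib.Helper26.classInner_sub_right,
      hb1, h1b, h11]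
    ring
  have hG : ∀ (i : IdxL W₁ W₂) (j : IdxR W₁ W₂) (k : IdxL W₁ W₂) (l : IdxR W₁ W₂),
      ip (g i j) (g k l) = (if i = k then 1 else 0) + (if j = l then 1 else 0) +
        (if i = k then 1 else 0) * (if j = l then 1 else 0) := by
    intro i j k l
    have h := hgram i j k l
    have h' : Cfsg.classInner (Cfsg.indFun (W₁ ⊔ W₂) (alpha i.1 j.1))
        (Cfsg.indFun (W₁ ⊔ W₂) (alpha k.1 l.1)) = _ := (hS i k j l).2
    rw [h'] at h
    by_cases hik : i = k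
    · have hik' : i.1 = k.1 := congrArg Subtype.val hik
      by_cases hjl : j = l
      · have hjl' : j.1 = l.1 := congrArg Subtype.val hjl
        simp only [if_pos hik', if_pos hjl'] at h
        rw [if_pos hik, if_pos hjl]
        have h2 : ((ip (g i j) (g k l) : ℤ) : ℂ) = ((3 : ℤ) : ℂ) := by rw [h]; norm_num
        have h3 : ip (g i j) (g k l) = 3 := by exact_mod_cast h2
        rw [h3]
        norm_num
      · have hjl' : j.1 ≠ l.1 := fun e => hjl (Subtype.ext e)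
        simp only [if_pos hik', if_neg hjl'] at h
        rw [if_pos hik, if_neg hjl]
        have h2 : ((ip (g i j) (g k l) : ℤ) : ℂ) = ((1 : ℤ) : ℂ) := by rw [h]; norm_num
        have h3 : ip (g i j) (g k l) = 1 := by exact_mod_cast h2
        rw [h3]
        norm_num
    · have hik' : i.1 ≠ k.1 := fun e => hik (Subtype.ext e)
      by_cases hjl : j = l
      · have hjl' : j.1 = l.1 := congrArg Subtype.val hjl
        simp only [if_neg hik', if_pos hjl'] at h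
        rw [if_neg hik, if_pos hjl]
        have h2 : ((ip (g i j) (g k l) : ℤ) : ℂ) = ((1 : ℤ) : ℂ) := by rw [h]; norm_num
        have h3 : ip (g i j) (g k l) = 1 := by exact_mod_cast h2
        rw [h3]
        norm_num
      · have hjl' : j.1 ≠ l.1 := fun e => hjl (Subtype.ext e)
        simp only [if_neg hik', if_neg hjl'] at h
        rw [if_neg hik, if_neg hjl]
        have h2 : ((ip (g i j) (g k l) : ℤ) : ℂ) = ((0 : ℤ) : ℂ) := by rw [h]; norm_num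
        have h3 : ip (g i j) (g k l) = 0 := by exact_mod_cast h2
        rw [h3]
        norm_num
  have h3 : ∀ i j, ip (g i j) (g i j) = 3 := by
    intro i j
    rw [hG]
    simp
  have hg0 : ∀ i j, g i j x₀ = 0 := by
    intro i j
    have h1 : Cfsg.classInner (Cfsg.indFun (W₁ ⊔ W₂) (alpha i.1 j.1) - fun _ => (1 : ℂ))
        (x₀ : G → ℂ) = ((g i j x₀ : ℤ) : ℂ) := by
      rw [hg i j, Cfsg.Agent.Lib.Helper26.classInner_expansion_irr]
    have h2 : Cfsg.classInner (Cfsg.indFun (W₁ ⊔ W₂) (alpha i.1 j.1) - fun _ => (1 : ℂ))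
        (x₀ : G → ℂ) = 0 := by
      rw [Cfsg.Agent.Lib.Helper26.classInner_sub_left]
      show Cfsg.classInner (Cfsg.indFun (W₁ ⊔ W₂) (alpha i.1 j.1)) (fun _ => (1 : ℂ)) -
        Cfsg.classInner (fun _ : G => (1 : ℂ)) (fun _ => (1 : ℂ)) = 0
      rw [hb1, h11, sub_self]
    rw [h1] at h2
    exact_mod_cast h2
  choose dn hdn0 hdn using fun x : Cfsg.IrrCharacter G => Cfsg.Agent.Lib.Helper26.irr_degree x.2
  have hdeg : ∀ i j, ∑ x, g i j x * (dn x : ℤ) = -1 := by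
    intro i j
    have h1 : ((Cfsg.indFun (W₁ ⊔ W₂) (alpha i.1 j.1) - fun _ => (1 : ℂ)) : G → ℂ) 1 = -1 := by
      rw [Pi.sub_apply, Cfsg.Agent.Lib.Helper75.indFun_one]
      simp [alpha]
    rw [hg i j, Finset.sum_apply] at h1
    have h2 : ∑ x, ((g i j x : ℂ) • (x : G → ℂ)) 1 = ((∑ x, g i j x * (dn x : ℤ) : ℤ) : ℂ) := by
      push_cast
      refine Finset.sum_congr rfl (fun x _ => ?_)
      rw [Pi.smul_apply, smul_eq_mul, hdn x]
    rw [h2] at h1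
    exact_mod_cast h1
  have hdpos : ∀ x, (0 : ℤ) < (dn x : ℤ) := fun x => by exact_mod_cast hdn0 x
  have sR : ∀ i j l x, 0 ≤ g i j x * g i l x := by
    intro i j l x
    by_cases hjl : j = l
    · subst hjl
      exact mul_self_nonneg _
    · exact sign_consistent (fun x => (dn x : ℤ)) hdpos (h3 i j) (h3 i l)
        (by rw [hG]; simp [hjl]) (by rw [hdeg, hdeg]) x
  have sC : ∀ i k j x, 0 ≤ g i j x * g k j x := by
    intro i k j x
    by_cases hik : i = k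
    · subst hik
      exact mul_self_nonneg _
    · exact sign_consistent (fun x => (dn x : ℤ)) hdpos (h3 i j) (h3 k j)
        (by rw [hG]; simp [hik]) (by rw [hdeg, hdeg]) x
  obtain ⟨px, py, pz, hT⟩ := structure_thm g hG sR sC hIJ
  have hpm : ∀ i j x, g i j x ≠ 0 → g i j x = 1 ∨ g i j x = -1 := by
    intro i j x h
    rcases val_cases (h3 i j).le x with h' | h' | h'
    · exact Or.inr h'
    · exact absurd h' h
    · exact Or.inl h'
  have hrowc : ∀ i j l, g i j (px i) = g i l (px i) := fun i j l =>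
    eq_of_pm (hpm _ _ _ (hT.hx i j)) (hpm _ _ _ (hT.hx i l)) (sR i j l (px i))
  have hcolc : ∀ i k j, g i j (py j) = g k j (py j) := fun i k j =>
    eq_of_pm (hpm _ _ _ (hT.hy i j)) (hpm _ _ _ (hT.hy k j)) (sC i k j (py j))
  obtain ⟨i₀⟩ : Nonempty (IdxL W₁ W₂) := Fintype.card_pos_iff.mp (by omega)
  obtain ⟨j₀⟩ : Nonempty (IdxR W₁ W₂) := Fintype.card_pos_iff.mp (by omega)
  have h0x : ∀ i, px i ≠ x₀ := fun i h => hT.hx i j₀ (by rw [h]; exact hg0 i j₀)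
  have h0y : ∀ j, py j ≠ x₀ := fun j h => hT.hy i₀ j (by rw [h]; exact hg0 i₀ j)
  have h0z : ∀ i j, pz i j ≠ x₀ := fun i j h => hT.hz i j (by rw [h]; exact hg0 i j)
  have hdec : ∀ i j, Cfsg.indFun (W₁ ⊔ W₂) (alpha i.1 j.1) - (fun _ => (1 : ℂ)) =
      (g i j (px i) : ℂ) • (px i : G → ℂ) + (g i j (py j) : ℂ) • (py j : G → ℂ) +
        (g i j (pz i j) : ℂ) • (pz i j : G → ℂ) := by
    intro i j
    rw [hg i j]
    have hsub : ∑ x ∈ ({px i, py j, pz i j} : Finset (Cfsg.IrrCharacter G)),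
        (g i j x : ℂ) • (x : G → ℂ) = ∑ x, (g i j x : ℂ) • (x : G → ℂ) := by
      apply Finset.sum_subset (Finset.subset_univ _)
      intro x _ hx
      have h0 : g i j x = 0 := by
        by_contra h
        apply hx
        rcases hT.supp i j x h with h | h | h <;> simp [h]
      rw [h0]
      simp
    rw [← hsub, Finset.sum_insert (by simp [hT.xy i j, hT.xz i i j]),
      Finset.sum_pair (hT.yz j i j)]
    exact (add_assoc _ _ _).symm
  -- labels and the family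
  let e : Lab (IdxL W₁ W₂) (IdxR W₁ W₂) ≃ (↥(W₁ ⊔ W₂) →* ℂˣ) :=
    Equiv.ofBijective Lab.toChar
      ⟨Lab.toChar_injective hcomm, Lab.toChar_surjective hdisj hcomm hcyc⟩
  let P : Lab (IdxL W₁ W₂) (IdxR W₁ W₂) → Cfsg.IrrCharacter G := Lab.pnt x₀ px py pz
  let S : Lab (IdxL W₁ W₂) (IdxR W₁ W₂) → ℤ :=
    Lab.sgn (fun i => -g i j₀ (px i)) (fun j => -g i₀ j (py j)) (fun i j => g i j (pz i j))
  have hPinj : Function.Injective P :=
    Lab.pnt_injective hT.injx hT.injy hT.injz hT.xy hT.xz hT.yz h0x h0y h0z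
  have hSpm : ∀ a, S a = 1 ∨ S a = -1 := by
    intro a
    match a with
    | .triv => exact Or.inl rfl
    | .left i =>
      rcases hpm _ _ _ (hT.hx i j₀) with h | h
      · right
        show -g i j₀ (px i) = -1
        rw [h]
      · left
        show -g i j₀ (px i) = 1
        rw [h]
        rfl
    | .right j =>
      rcases hpm _ _ _ (hT.hy i₀ j) with h | h
      · right
        show -g i₀ j (py j) = -1
        rw [h]
      · left
        show -g i₀ j (py j) = 1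
        rw [h]
        rfl
    | .both i j => exact hpm _ _ _ (hT.hz i j)
  let val : Lab (IdxL W₁ W₂) (IdxR W₁ W₂) → (G → ℂ) :=
    fun a => ((S a : ℤ) : ℂ) • ((P a : Cfsg.IrrCharacter G) : G → ℂ)
  have hV2 : ∀ a b, Cfsg.classInner (val a) (val b) = if a = b then 1 else 0 := by
    intro a b
    show Cfsg.classInner (((S a : ℤ) : ℂ) • ((P a : Cfsg.IrrCharacter G) : G → ℂ))
      (((S b : ℤ) : ℂ) • ((P b : Cfsg.IrrCharacter G) : G → ℂ)) = _
    rw [classInner_smul_irr]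
    by_cases hab : a = b
    · subst hab
      rw [if_pos rfl, if_pos rfl]
      rcases hSpm a with h | h <;> rw [h] <;> norm_num
    · rw [if_neg hab, if_neg (fun h => hab (hPinj h))]
  have hV1 : ∀ a, Cfsg.IsIrrCharacter G (val a) ∨ Cfsg.IsIrrCharacter G (-val a) := by
    intro a
    rcases hSpm a with h | h
    · left
      show Cfsg.IsIrrCharacter G (((S a : ℤ) : ℂ) • ((P a : Cfsg.IrrCharacter G) : G → ℂ))
      rw [h]
      simpa using (P a).2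
    · right
      show Cfsg.IsIrrCharacter G (-(((S a : ℤ) : ℂ) • ((P a : Cfsg.IrrCharacter G) : G → ℂ)))
      rw [h]
      simpa using (P a).2
  have hone : val (e.symm 1) = fun _ => 1 := by
    have h1 : e.symm 1 = Lab.triv := by
      rw [Equiv.symm_apply_eq]
      exact (one_mul (1 : ↥(W₁ ⊔ W₂) →* ℂˣ)).symm
    rw [h1]
    show ((1 : ℤ) : ℂ) • (fun _ : G => (1 : ℂ)) = fun _ => 1
    simp
  have hind : ∀ φ ψ : ↥(W₁ ⊔ W₂) →* ℂˣ, φ ≠ 1 → ψ ≠ 1 →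
      (∀ w : ↥(W₁ ⊔ W₂), (w : G) ∈ W₂ → φ w = 1) →
      (∀ w : ↥(W₁ ⊔ W₂), (w : G) ∈ W₁ → ψ w = 1) →
      Cfsg.indFun (W₁ ⊔ W₂) (fun w => 1 - (φ w : ℂ) - (ψ w : ℂ) + (φ w : ℂ) * (ψ w : ℂ)) =
        fun g' => 1 - val (e.symm φ) g' - val (e.symm ψ) g' + val (e.symm (φ * ψ)) g' := by
    intro φ ψ hφ hψ hφ2 hψ1
    have e1 : e.symm φ = Lab.left ⟨φ, hφ, hφ2⟩ := by
      rw [Equiv.symm_apply_eq]
      exact (mul_one φ).symm
    have e2 : e.symm ψ = Lab.right ⟨ψ, hψ, hψ1⟩ := by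
      rw [Equiv.symm_apply_eq]
      exact (one_mul ψ).symm
    have e3 : e.symm (φ * ψ) = Lab.both ⟨φ, hφ, hφ2⟩ ⟨ψ, hψ, hψ1⟩ := by
      rw [Equiv.symm_apply_eq]
      rfl
    rw [e1, e2, e3]
    have h := hdec ⟨φ, hφ, hφ2⟩ ⟨ψ, hψ, hψ1⟩
    funext g'
    have hg' := congrFun h g'
    simp only [Pi.sub_apply, Pi.add_apply, Pi.smul_apply, smul_eq_mul] at hg'
    have r1 := hrowc ⟨φ, hφ, hφ2⟩ j₀ ⟨ψ, hψ, hψ1⟩
    have r2 := hcolc i₀ ⟨φ, hφ, hφ2⟩ ⟨ψ, hψ, hψ1⟩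
    show Cfsg.indFun (W₁ ⊔ W₂) (alpha φ ψ) g' =
      1 - ((-g ⟨φ, hφ, hφ2⟩ j₀ (px ⟨φ, hφ, hφ2⟩) : ℤ) : ℂ) * (px ⟨φ, hφ, hφ2⟩ : G → ℂ) g' -
        ((-g i₀ ⟨ψ, hψ, hψ1⟩ (py ⟨ψ, hψ, hψ1⟩) : ℤ) : ℂ) * (py ⟨ψ, hψ, hψ1⟩ : G → ℂ) g' +
        ((g ⟨φ, hφ, hφ2⟩ ⟨ψ, hψ, hψ1⟩ (pz ⟨φ, hφ, hφ2⟩ ⟨ψ, hψ, hψ1⟩) : ℤ) : ℂ) *
          (pz ⟨φ, hφ, hφ2⟩ ⟨ψ, hψ, hψ1⟩ : G → ℂ) g'
    rw [r1, r2]
    push_cast
    linear_combination hg'
  have horth1 : ∀ ω : ↥(W₁ ⊔ W₂) →* ℂˣ,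
      Cfsg.classInner (val (e.symm ω)) (val (e.symm ω)) = 1 := by
    intro ω
    rw [hV2, if_pos rfl]
  have horth0 : ∀ ω ω' : ↥(W₁ ⊔ W₂) →* ℂˣ, ω ≠ ω' →
      Cfsg.classInner (val (e.symm ω)) (val (e.symm ω')) = 0 := by
    intro ω ω' h
    rw [hV2, if_neg (fun h' => h (e.symm.injective h'))]
  have hcf : ∀ ω : ↥(W₁ ⊔ W₂) →* ℂˣ, Cfsg.IsClassFunction G (val (e.symm ω)) := by
    intro ω
    rcases hV1 (e.symm ω) with h | h
    · exact Cfsg.Agent.Lib.Helper26.isClassFunction_of_isCharacter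
        (Cfsg.Agent.Lib.Helper26.isCharacter_of_irr h)
    · have h0 := Cfsg.Agent.Lib.Helper26.isClassFunction_of_isCharacter
        (Cfsg.Agent.Lib.Helper26.isCharacter_of_irr h)
      intro a b
      have h1 := h0 a b
      simp only [Pi.neg_apply, neg_inj] at h1
      exact h1
  refine ⟨fun ω => val (e.symm ω), ⟨fun ω => hV1 (e.symm ω), ?_, hone,
    eq_on_of W₁ W₂ hW _ hcf horth1 horth0 hone hind, hind⟩⟩
  intro ω ω'
  split_ifs with h
  · rw [h]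
    exact horth1 ω'
  · exact horth0 ω ω' h

end Cfsg.Agent.Lib.Helper75.CycFam
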