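import Mathlib

/-!
# Sums of roots of unity with values in `{0, 1, -1}`

If `f(j) = ∑ a_i ω_i^j` (`a_i ∈ ℕ`, `ω_i^n = 1`) takes values in `{0, ±1}` for `0 < j < n`, then
either `f` vanishes for `0 < j < n` and `n ∣ f(0)`, or `f(j) = ε ν^j` with `ε, ν = ±1` and
`f(0) ≡ ε (mod n)`.
-/

set_option autoImplicit false

namespace Cfsg.Agent.Lib.Helper75

open scoped ComplexConjugate

theorem sum_pow_root_unity {n : ℕ} {ξ : ℂ} (hξ : ξ ^ n = 1) (h1 : ξ ≠ 1) :
    ∑ j ∈ Finset.range n, ξ ^ j = 0 := by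
  rw [geom_sum_eq h1, hξ, sub_self, zero_div]

theorem sum_prim_root_orth {n : ℕ} {ζ : ℂ} (hζ : IsPrimitiveRoot ζ n) {k l : ℕ} (hk : k < n)
    (hl : l < n) :
    ∑ j ∈ Finset.range n, ζ ^ (k * j) * conj (ζ ^ (l * j)) = if k = l then (n : ℂ) else 0 := by
  have hn : n ≠ 0 := by omega
  have hnorm : ‖ζ‖ = 1 := Complex.norm_eq_one_of_pow_eq_one hζ.pow_eq_one hn
  have hc : ζ * conj ζ = 1 := by
    rw [Complex.mul_conj, Complex.normSq_eq_norm_sq, hnorm]
    simp
  have hterm : ∀ j, ζ ^ (k * j) * conj (ζ ^ (l * j)) = (ζ ^ k * conj ζ ^ l) ^ j := by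
    intro j
    rw [map_pow, pow_mul, pow_mul, mul_pow]
  simp_rw [hterm]
  split_ifs with h
  · subst h
    have h2 : ζ ^ k * conj ζ ^ k = 1 := by rw [← mul_pow, hc, one_pow]
    simp [h2]
  · apply sum_pow_root_unity
    · have h3 : (conj ζ) ^ n = 1 := by rw [← map_pow, hζ.pow_eq_one, map_one]
      rw [mul_pow, ← pow_mul, ← pow_mul, mul_comm k n, mul_comm l n, pow_mul, pow_mul,
        hζ.pow_eq_one, h3, one_pow, one_pow, one_mul]
    · intro h1
      apply h
      have h2 : ζ ^ k = ζ ^ l := by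
        have h3 : ζ ^ k * conj ζ ^ l * ζ ^ l = ζ ^ l := by rw [h1, one_mul]
        rw [mul_assoc, ← mul_pow, mul_comm (conj ζ) ζ, hc, one_pow, mul_one] at h3
        exact h3
      exact hζ.pow_inj hk hl h2

/-- integer part of the argument: Parseval forces the multiplicities to be constant or constant
off one index -/
theorem mult_structure (n : ℕ) (hn : 2 ≤ n) (B : ℕ → ℤ) (hB : ∀ l, 0 ≤ B l) (m M : ℤ)
    (hm : m = ∑ l ∈ Finset.range n, B l)
    (hQ : (n : ℤ) * ∑ l ∈ Finset.range n, B l * B l = m * m + M)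
    (hM1 : M ≤ (n : ℤ) - 1) :
    (M = 0 ∧ ∀ l, l < n → (n : ℤ) * B l = m) ∨
    (∃ ε : ℤ, (ε = 1 ∨ ε = -1) ∧ ∃ q : ℤ, 0 ≤ q ∧ ∃ l₁, l₁ < n ∧
      ∀ l, l < n → B l = q + if l = l₁ then ε else 0) := by
  have hnpos : (0 : ℤ) < n := by exact_mod_cast (by omega : 0 < n)
  have hm0 : 0 ≤ m := by
    rw [hm]
    exact Finset.sum_nonneg (fun l _ => hB l)
  -- sum of squares of deviations
  have hsq : ∑ l ∈ Finset.range n, ((n : ℤ) * B l - m) ^ 2 = n * M := by
    have h1 : ∀ l ∈ Finset.range n, ((n : ℤ) * B l - m) ^ 2 =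
        (n : ℤ) ^ 2 * (B l * B l) - 2 * n * m * B l + m ^ 2 := fun l _ => by ring
    rw [Finset.sum_congr rfl h1, Finset.sum_add_distrib, Finset.sum_sub_distrib,
      ← Finset.mul_sum, ← Finset.mul_sum, Finset.sum_const, Finset.card_range, ← hm]
    simp only [nsmul_eq_mul]
    linear_combination (n : ℤ) * hQ
  have hdev : ∀ l, l < n → ((n : ℤ) * B l - m) ^ 2 < (n : ℤ) ^ 2 := by
    intro l hl
    have h1 : ((n : ℤ) * B l - m) ^ 2 ≤ ∑ l ∈ Finset.range n, ((n : ℤ) * B l - m) ^ 2 :=
      Finset.single_le_sum (f := fun l => ((n : ℤ) * B l - m) ^ 2)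
        (fun l _ => sq_nonneg _) (Finset.mem_range.2 hl)
    rw [hsq] at h1
    nlinarith
  set q : ℤ := m / n with hq
  set r : ℤ := m % n with hr
  have hqr : m = n * q + r := by
    rw [hq, hr]
    exact (Int.mul_ediv_add_emod m n).symm
  have hr0 : 0 ≤ r := Int.emod_nonneg m hnpos.ne'
  have hrn : r < n := Int.emod_lt_of_pos m hnpos
  have hq0 : 0 ≤ q := Int.ediv_nonneg hm0 hnpos.le
  have he : ∀ l, l < n → B l - q = 0 ∨ B l - q = 1 := by
    intro l hl
    have h1 := hdev l hl
    have h2 := abs_lt_of_sq_lt_sq' h1 hnpos.le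
    have h3 : (n : ℤ) * B l - m = n * (B l - q) - r := by rw [hqr]; ring
    rw [h3] at h2
    obtain ⟨h4, h5⟩ := h2
    have h6 : 0 ≤ B l - q := by
      by_contra hcon
      have h7 : B l - q ≤ -1 := by omega
      have h8 : (n : ℤ) * (B l - q) ≤ n * (-1) := mul_le_mul_of_nonneg_left h7 hnpos.le
      linarith
    have h9 : B l - q ≤ 1 := by
      by_contra hcon
      have h7 : 2 ≤ B l - q := by omega
      have h8 : (n : ℤ) * 2 ≤ n * (B l - q) := mul_le_mul_of_nonneg_left h7 hnpos.le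
      linarith
    omega
  have hsum_e : ∑ l ∈ Finset.range n, (B l - q) = r := by
    rw [Finset.sum_sub_distrib, ← hm, Finset.sum_const, Finset.card_range, nsmul_eq_mul]
    linarith
  have hsum_e2 : ∑ l ∈ Finset.range n, (B l - q) * (B l - q) = r := by
    rw [← hsum_e]
    refine Finset.sum_congr rfl (fun l hl => ?_)
    rcases he l (Finset.mem_range.1 hl) with h | h <;> rw [h] <;> norm_num
  have hMr : M = n * r - r * r := by
    have h1 : ∑ l ∈ Finset.range n, B l * B l =
        n * (q * q) + 2 * q * r + r := by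
      have h2 : ∀ l ∈ Finset.range n, B l * B l =
          q * q + 2 * q * (B l - q) + (B l - q) * (B l - q) := fun l _ => by ring
      rw [Finset.sum_congr rfl h2, Finset.sum_add_distrib, Finset.sum_add_distrib,
        Finset.sum_const, Finset.card_range, nsmul_eq_mul, ← Finset.mul_sum, hsum_e, hsum_e2]
    rw [h1, hqr] at hQ
    linear_combination (-1 : ℤ) * hQ
  -- a 0/1 sequence of sum one
  have hone : ∀ e : ℕ → ℤ, (∀ l, l < n → e l = 0 ∨ e l = 1) → ∑ l ∈ Finset.range n, e l = 1 →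
      ∃ l₁, l₁ < n ∧ e l₁ = 1 ∧ ∀ l, l < n → l ≠ l₁ → e l = 0 := by
    intro e he1 hs
    have hex : ∃ l₁, l₁ < n ∧ e l₁ ≠ 0 := by
      by_contra hcon
      have h0 : ∀ l ∈ Finset.range n, e l = 0 := by
        intro l hl
        by_contra h
        exact hcon ⟨l, Finset.mem_range.1 hl, h⟩
      rw [Finset.sum_eq_zero h0] at hs
      exact absurd hs (by norm_num)
    obtain ⟨l₁, hl₁, hne⟩ := hex
    have h1 : e l₁ = 1 := by
      rcases he1 l₁ hl₁ with h | h
      · exact absurd h hne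
      · exact h
    refine ⟨l₁, hl₁, h1, ?_⟩
    have hsplit := Finset.add_sum_erase (Finset.range n) e (Finset.mem_range.2 hl₁)
    rw [hs, h1] at hsplit
    have hrest : ∑ l ∈ (Finset.range n).erase l₁, e l = 0 := by linarith
    intro l hl hne'
    have hnn : ∀ l ∈ (Finset.range n).erase l₁, 0 ≤ e l := by
      intro l hl
      rcases he1 l (Finset.mem_range.1 (Finset.mem_of_mem_erase hl)) with h | h <;> rw [h] <;>
        norm_num
    exact (Finset.sum_eq_zero_iff_of_nonneg hnn).1 hrest l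
      (Finset.mem_erase.2 ⟨hne', Finset.mem_range.2 hl⟩)
  by_cases hr00 : r = 0
  · left
    refine ⟨by rw [hMr, hr00]; ring, ?_⟩
    intro l hl
    have h1 : B l - q = 0 := by
      have hnn : ∀ l ∈ Finset.range n, 0 ≤ B l - q := by
        intro l hl
        rcases he l (Finset.mem_range.1 hl) with h | h <;> rw [h] <;> norm_num
      have h2 := hsum_e
      rw [hr00] at h2
      exact (Finset.sum_eq_zero_iff_of_nonneg hnn).1 h2 l (Finset.mem_range.2 hl)
    rw [hqr, hr00]
    have : B l = q := by linarith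
    rw [this]
    ring
  · right
    have hr1 : 1 ≤ r := by omega
    have hcases : r = 1 ∨ r = n - 1 := by
      by_contra hcon
      have h1 : 2 ≤ r := by omega
      have h2 : r ≤ (n : ℤ) - 2 := by omega
      nlinarith
    rcases hcases with h1 | h1
    · obtain ⟨l₁, hl₁, h2, h3⟩ := hone (fun l => B l - q) he (by rw [hsum_e, h1])
      refine ⟨1, Or.inl rfl, q, hq0, l₁, hl₁, ?_⟩
      intro l hl
      by_cases hll : l = l₁
      · rw [if_pos hll, hll]
        have : B l₁ - q = 1 := h2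
        linarith
      · rw [if_neg hll]
        have := h3 l hl hll
        have : B l - q = 0 := this
        linarith
    · obtain ⟨l₁, hl₁, h2, h3⟩ := hone (fun l => 1 - (B l - q))
        (fun l hl => by rcases he l hl with h | h <;> rw [h] <;> norm_num)
        (by
          rw [Finset.sum_sub_distrib, hsum_e, h1, Finset.sum_const, Finset.card_range,
            nsmul_eq_mul]
          ring)
      refine ⟨-1, Or.inr rfl, q + 1, by linarith, l₁, hl₁, ?_⟩
      intro l hl
      by_cases hll : l = l₁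
      · rw [if_pos hll, hll]
        have : 1 - (B l₁ - q) = 1 := h2
        linarith
      · rw [if_neg hll]
        have := h3 l hl hll
        have : 1 - (B l - q) = 0 := this
        linarith

/-- a sum of roots of unity with natural multiplicities whose values off `0` lie in `{0, ±1}` -/
theorem roots_unity_pm (n : ℕ) (hn : 2 ≤ n) {ι : Type*} [Fintype ι] (a : ι → ℕ) (ω : ι → ℂ)
    (hω : ∀ i, ω i ^ n = 1) (z : ℕ → ℤ)
    (hz : ∀ j, ∑ i, (a i : ℂ) * ω i ^ j = (z j : ℂ))
    (hz1 : ∀ j, 0 < j → j < n → z j = 0 ∨ z j = 1 ∨ z j = -1) :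
    ((∀ j, 0 < j → j < n → z j = 0) ∧ ∃ q : ℕ, z 0 = (n : ℤ) * q) ∨
    (∃ ε : ℤ, (ε = 1 ∨ ε = -1) ∧ ∃ ν : ℂ, (ν = 1 ∨ ν = -1) ∧ ν ^ n = 1 ∧
      (∀ j, 0 < j → j < n → (z j : ℂ) = (ε : ℂ) * ν ^ j) ∧
      ∃ q : ℕ, z 0 = (n : ℤ) * q + ε) := by
  classical
  have hn0 : n ≠ 0 := by omega
  have hnpos : (0 : ℤ) < n := by exact_mod_cast (by omega : 0 < n)
  have : NeZero n := ⟨hn0⟩
  obtain ⟨ζ, hζ⟩ : ∃ ζ : ℂ, IsPrimitiveRoot ζ n :=
    ⟨Complex.exp (2 * Real.pi * Complex.I / n), Complex.isPrimitiveRoot_exp n hn0⟩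
  have hκ : ∀ i, ∃ k, k < n ∧ ζ ^ k = ω i := fun i => hζ.eq_pow_of_pow_eq_one (hω i)
  choose κ hκlt hκeq using hκ
  -- multiplicities
  set b : ℕ → ℕ := fun l => ∑ i, if κ i = l then a i else 0 with hb
  have hE : ∀ j, ∑ l ∈ Finset.range n, (b l : ℂ) * ζ ^ (l * j) = (z j : ℂ) := by
    intro j
    rw [← hz j]
    have h1 : ∀ l ∈ Finset.range n, (b l : ℂ) * ζ ^ (l * j) =
        ∑ i, if κ i = l then (a i : ℂ) * ω i ^ j else 0 := by
      intro l _
      rw [hb]
      simp only
      rw [Nat.cast_sum, Finset.sum_mul]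
      refine Finset.sum_congr rfl (fun i _ => ?_)
      split_ifs with h
      · rw [← hκeq i, h, pow_mul]
      · simp
    rw [Finset.sum_congr rfl h1, Finset.sum_comm]
    refine Finset.sum_congr rfl (fun i _ => ?_)
    rw [Finset.sum_ite_eq, if_pos (Finset.mem_range.2 (hκlt i))]
  -- Parseval
  have hP : (∑ j ∈ Finset.range n, z j * z j : ℤ) =
      n * ∑ l ∈ Finset.range n, (b l : ℤ) * b l := by
    have h1 : ((∑ j ∈ Finset.range n, z j * z j : ℤ) : ℂ) =
        ((n * ∑ l ∈ Finset.range n, (b l : ℤ) * b l : ℤ) : ℂ) := by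
      push_cast
      have h2 : ∀ j ∈ Finset.range n, (z j : ℂ) * (z j : ℂ) =
          ∑ k ∈ Finset.range n, ∑ l ∈ Finset.range n,
            ((b k : ℂ) * (b l : ℂ)) * (ζ ^ (k * j) * conj (ζ ^ (l * j))) := by
        intro j _
        have h3 : (z j : ℂ) = conj (z j : ℂ) := by simp
        nth_rewrite 2 [h3]
        rw [← hE j, map_sum, Finset.sum_mul_sum]
        refine Finset.sum_congr rfl (fun k _ => Finset.sum_congr rfl (fun l _ => ?_))
        rw [map_mul, Complex.conj_natCast]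
        ring
      rw [Finset.sum_congr rfl h2, Finset.sum_comm, Finset.mul_sum]
      refine Finset.sum_congr rfl (fun k hk => ?_)
      rw [Finset.sum_comm]
      have h4 : ∀ l ∈ Finset.range n, ∑ j ∈ Finset.range n,
          ((b k : ℂ) * (b l : ℂ)) * (ζ ^ (k * j) * conj (ζ ^ (l * j))) =
          if k = l then (n : ℂ) * ((b k : ℂ) * (b k : ℂ)) else 0 := by
        intro l hl
        rw [← Finset.mul_sum, sum_prim_root_orth hζ (Finset.mem_range.1 hk)
          (Finset.mem_range.1 hl)]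
        split_ifs with h
        · rw [h]
          ring
        · rw [mul_zero]
      rw [Finset.sum_congr rfl h4, Finset.sum_ite_eq, if_pos hk]
    exact_mod_cast h1
  have hm : z 0 = ∑ l ∈ Finset.range n, (b l : ℤ) := by
    have h1 := hE 0
    simp only [mul_zero, pow_zero, mul_one] at h1
    exact_mod_cast h1.symm
  -- sum of powers of all roots
  have hS0 : ∀ j, 0 < j → j < n → ∑ l ∈ Finset.range n, ζ ^ (l * j) = 0 := by
    intro j hj0 hjn
    have h1 := sum_prim_root_orth hζ hjn (by omega : 0 < n)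
    rw [if_neg (by omega)] at h1
    rw [← h1]
    refine Finset.sum_congr rfl (fun l _ => ?_)
    rw [zero_mul, pow_zero, map_one, mul_one, mul_comm]
  have h0mem : 0 ∈ Finset.range n := Finset.mem_range.2 (by omega)
  have hsplit := Finset.add_sum_erase (Finset.range n) (fun j => z j * z j) h0mem
  have hM0 : 0 ≤ ∑ j ∈ (Finset.range n).erase 0, z j * z j :=
    Finset.sum_nonneg (fun j _ => mul_self_nonneg (z j))
  have hterm : ∀ j ∈ (Finset.range n).erase 0, z j * z j ≤ 1 := by
    intro j hj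
    have hj' := Finset.mem_erase.1 hj
    rcases hz1 j (Nat.pos_of_ne_zero hj'.1) (Finset.mem_range.1 hj'.2) with h | h | h <;>
      rw [h] <;> norm_num
  have hM1 : ∑ j ∈ (Finset.range n).erase 0, z j * z j ≤ (n : ℤ) - 1 := by
    have h1 := Finset.sum_le_card_nsmul _ _ 1 hterm
    rw [Finset.card_erase_of_mem h0mem, Finset.card_range] at h1
    have h2 : ((n - 1 : ℕ) : ℤ) = (n : ℤ) - 1 := by
      have : 1 ≤ n := by omega
      push_cast [this]
      ring
    rw [nsmul_eq_mul, mul_one, h2] at h1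
    exact h1
  have hQ : (n : ℤ) * ∑ l ∈ Finset.range n, (b l : ℤ) * b l =
      z 0 * z 0 + ∑ j ∈ (Finset.range n).erase 0, z j * z j := by
    rw [← hP, ← hsplit]
  rcases mult_structure n hn (fun l => (b l : ℤ)) (fun l => Int.natCast_nonneg _) (z 0) _ hm hQ
    hM1 with ⟨hMz, hall⟩ | ⟨ε, hε, q, hq0, l₁, hl₁, hall⟩
  · left
    refine ⟨?_, ⟨b 0, ?_⟩⟩
    · intro j hj0 hjn
      have h1 := (Finset.sum_eq_zero_iff_of_nonneg (fun j _ => mul_self_nonneg (z j))).1 hMz j
        (Finset.mem_erase.2 ⟨by omega, Finset.mem_range.2 hjn⟩)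
      exact mul_self_eq_zero.1 h1
    · exact (hall 0 (by omega)).symm
  · right
    have hval : ∀ j, 0 < j → j < n → (z j : ℂ) = (ε : ℂ) * (ζ ^ l₁) ^ j := by
      intro j hj0 hjn
      rw [← hE j]
      have h1 : ∀ l ∈ Finset.range n, (b l : ℂ) * ζ ^ (l * j) =
          (q : ℂ) * ζ ^ (l * j) + if l = l₁ then (ε : ℂ) * ζ ^ (l * j) else 0 := by
        intro l hl
        have h2 := hall l (Finset.mem_range.1 hl)
        have h3 : (b l : ℂ) = (q : ℂ) + if l = l₁ then (ε : ℂ) else 0 := by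
          have h4 : (((b l : ℕ) : ℤ) : ℂ) = ((q + if l = l₁ then ε else 0 : ℤ) : ℂ) := by
            rw [h2]
          rw [Int.cast_natCast] at h4
          rw [h4]
          split_ifs <;> simp
        rw [h3]
        split_ifs <;> ring
      rw [Finset.sum_congr rfl h1, Finset.sum_add_distrib, ← Finset.mul_sum, hS0 j hj0 hjn,
        mul_zero, zero_add, Finset.sum_ite_eq', if_pos (Finset.mem_range.2 hl₁), pow_mul]
    have hνn : (ζ ^ l₁) ^ n = 1 := by
      rw [← pow_mul, mul_comm, pow_mul, hζ.pow_eq_one, one_pow]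
    have hν0 : ζ ^ l₁ ≠ 0 := by
      intro h
      rw [h, zero_pow hn0] at hνn
      exact zero_ne_one hνn
    refine ⟨ε, hε, ζ ^ l₁, ?_, hνn, hval, ⟨q.toNat, ?_⟩⟩
    · have h1 := hval 1 (by omega) (by omega)
      rw [pow_one] at h1
      rcases hε with he | he <;> rcases hz1 1 (by omega) (by omega) with h | h | h <;>
        rw [he, h] at h1 <;> push_cast at h1
      · exact absurd h1.symm (by simpa using hν0)
      · left
        rw [one_mul] at h1
        exact h1.symm
      · right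
        rw [one_mul] at h1
        exact h1.symm
      · exact absurd h1.symm (by simpa using hν0)
      · right
        have : ζ ^ l₁ = -1 := by linear_combination h1
        exact this
      · left
        have : ζ ^ l₁ = 1 := by linear_combination h1
        exact this
    · rw [hm, Int.toNat_of_nonneg hq0]
      have h1 : ∀ l ∈ Finset.range n, (b l : ℤ) = q + if l = l₁ then ε else 0 :=
        fun l hl => hall l (Finset.mem_range.1 hl)
      rw [Finset.sum_congr rfl h1, Finset.sum_add_distrib, Finset.sum_const, Finset.card_range,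
        Finset.sum_ite_eq', if_pos (Finset.mem_range.2 hl₁), nsmul_eq_mul]

end Cfsg.Agent.Lib.Helper75
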