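import Mathlib
import Cfsg.Agent.Lib.Helper75.Glaub4
import Cfsg.Agent.Lib.Helper75.RootsPM

/-!
# Canonical extensions under a cyclic coprime action with constant centralizers

`G` normal in `Γ = G ⟨s⟩`, `|s|` prime to `|G|`, and every non-identity power of `s` has the same
centralizer `C` in `G`.  Then the canonical extension `χh` of an `s`-invariant `χ ∈ Irr(G)`
satisfies `χh (c s^j) = ε β(c) ν^j` for `0 < j < |s|` with `ε, ν = ±1`, and
`χ_C = |s| ϑ + ε β`.
-/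

set_option autoImplicit false
set_option linter.style.haveILetI false

namespace Cfsg.Agent.Lib.Helper75

open Representation Module
open Cfsg.Agent.Lib.Helper3
open scoped ComplexConjugate

universe u

section CycFrob

variable {Γ : Type u} [Group Γ] [Fintype Γ] (G : Subgroup Γ) [hG : G.Normal] (s : Γ)
  (hcop : (Nat.card G).Coprime (orderOf s)) (htop : G ⊔ Subgroup.zpowers s = ⊤)
  (C : Subgroup Γ) (hC : ∀ c : Γ, c ∈ C ↔ c ∈ G ∧ c * s = s * c) [Fintype G] [Fintype C]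

include hcop htop hC in
theorem cyc_frob {χh : Γ → ℂ} (h1 : Cfsg.IsIrrCharacter Γ χh)
    (hres : Cfsg.IsIrrCharacter G (fun g : G => χh g))
    (hd1 : (Cfsg.detOrder χh).Coprime (orderOf s)) (hn : 2 ≤ orderOf s)
    (hfpf : ∀ j : ℕ, s ^ j ≠ 1 → ∀ c : Γ, c ∈ G → c * s ^ j = s ^ j * c → c ∈ C)
    {β : C → ℂ} (hβ : Cfsg.IsIrrCharacter C β) {ε₀ : ℤ} (hε₀ : ε₀ = 1 ∨ ε₀ = -1)
    (hβ1 : ∀ c : C, χh ((c : Γ) * s) = (ε₀ : ℂ) * β c) :
    ∃ ε : ℤ, (ε = 1 ∨ ε = -1) ∧ ∃ ν : ℂ, (ν = 1 ∨ ν = -1) ∧ ν ^ orderOf s = 1 ∧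
      (∀ (c : C) (j : ℕ), 0 < j → j < orderOf s →
        χh ((c : Γ) * s ^ j) = (ε : ℂ) * β c * ν ^ j) ∧
      ∃ ϑ : C → ℂ, Cfsg.IsCharacter C ϑ ∧
        ∀ c : C, χh (c : Γ) = (orderOf s : ℂ) * ϑ c + (ε : ℂ) * β c := by
  classical
  haveI : Fintype (Cfsg.IrrCharacter C) := Fintype.ofFinite _
  have hcf := isClassFunction_of_isCharacter (isCharacter_of_irr h1)
  have hcomm : ∀ (h : C) (j : ℕ), (h : Γ) * s ^ j = s ^ j * h := by
    intro h j
    have h2 : Commute (h : Γ) s := ((hC h).1 h.2).2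
    exact h2.pow_right j
  have hfcf : ∀ j : ℕ, Cfsg.IsClassFunction C (fun c : C => χh ((c : Γ) * s ^ j)) := by
    intro j g h
    show χh (((h * g * h⁻¹ : C) : Γ) * s ^ j) = χh ((g : Γ) * s ^ j)
    have hhs := hcomm h j
    have h2 : ((h * g * h⁻¹ : C) : Γ) * s ^ j = (h : Γ) * ((g : Γ) * s ^ j) * (h : Γ)⁻¹ := by
      show (h : Γ) * g * (h : Γ)⁻¹ * s ^ j = (h : Γ) * ((g : Γ) * s ^ j) * (h : Γ)⁻¹
      have h3 : (h : Γ)⁻¹ * s ^ j = s ^ j * (h : Γ)⁻¹ := by
        rw [eq_mul_inv_iff_mul_eq, mul_assoc, ← hhs, ← mul_assoc, inv_mul_cancel, one_mul]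
      rw [mul_assoc ((h : Γ) * g), h3]
      group
    rw [h2]
    exact hcf _ _
  -- Galois invariance along the cosets
  have hgal : ∀ (c : C) (j k : ℕ), k.Coprime (orderOf s) →
      χh ((c : Γ) * s ^ (j * k)) = χh ((c : Γ) * s ^ j) := by
    intro c j k hk
    have hk1 : (Nat.chineseRemainder hcop 1 k : ℕ) ≡ 1 [MOD Nat.card G] :=
      (Nat.chineseRemainder hcop 1 k).2.1
    have hkj : (Nat.chineseRemainder hcop 1 k : ℕ) ≡ k [MOD orderOf s] :=
      (Nat.chineseRemainder hcop 1 k).2.2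
    have hkc : (Nat.chineseRemainder hcop 1 k : ℕ).Coprime (Nat.card Γ) := by
      rw [card_eq_mul_orderOf G s hcop htop]
      apply Nat.Coprime.mul_right
      · have := hk1.gcd_eq
        rw [Nat.Coprime, this]
        exact Nat.gcd_one_left _
      · have := hkj.gcd_eq
        rw [Nat.Coprime, this]
        exact hk
    have h4 := canonical_ext_pow G s hcop htop h1 hres hd1 _ hkc hk1 ((c : Γ) * s ^ j)
    have hcm : Commute (c : Γ) (s ^ j) := hcomm c j
    have h5 : orderOf (c : Γ) ∣ Nat.card G := by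
      have := orderOf_dvd_natCard (⟨c, ((hC c).1 c.2).1⟩ : G)
      rwa [← Subgroup.orderOf_coe] at this
    have h6 : (c : Γ) ^ (Nat.chineseRemainder hcop 1 k : ℕ) = (c : Γ) ^ 1 :=
      pow_eq_pow_iff_modEq.2 (hk1.of_dvd h5)
    have h7 : (s ^ j) ^ (Nat.chineseRemainder hcop 1 k : ℕ) = s ^ (j * k) := by
      rw [← pow_mul]
      exact pow_eq_pow_iff_modEq.2 (hkj.mul_left j)
    rw [hcm.mul_pow, h6, h7, pow_one] at h4
    exact h4
  -- integrality of all coefficients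
  have hint : ∀ (γ : Cfsg.IrrCharacter C) (j : ℕ), ∃ z : ℤ,
      Cfsg.classInner (fun c : C => χh ((c : Γ) * s ^ j)) (γ : C → ℂ) = (z : ℂ) := by
    intro γ j
    obtain ⟨ι, hι, a, ω, hω, hform⟩ := exists_decomp_centralizer G s C hC
      (isCharacter_of_irr h1) (isCharacter_of_irr γ.2)
    have hinv : ∀ k : ℕ, k.Coprime (orderOf s) →
        ∑ i, (((a i : ℕ) : ℤ) : ℂ) * (ω i ^ j) ^ k = ∑ i, (((a i : ℕ) : ℤ) : ℂ) * ω i ^ j := by
      intro k hk
      have h2 : (fun c : C => χh ((c : Γ) * s ^ (j * k))) =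
          (fun c : C => χh ((c : Γ) * s ^ j)) := by
        funext c
        exact hgal c j k hk
      have h3 := hform (j * k)
      rw [h2, hform j] at h3
      push_cast
      simp_rw [← pow_mul]
      exact h3.symm
    obtain ⟨z, hz⟩ := int_of_pow_invariant (orderOf s) (orderOf_pos s)
      (fun i => ((a i : ℕ) : ℤ)) (fun i => ω i ^ j)
      (fun i => by rw [← pow_mul, mul_comm, pow_mul, hω i, one_pow]) hinv
    refine ⟨z, ?_⟩
    rw [hform j, ← hz]
    push_cast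
    rfl
  choose z hz using hint
  have hexp : ∀ j : ℕ, (fun c : C => χh ((c : Γ) * s ^ j)) =
      ∑ γ : Cfsg.IrrCharacter C, (z γ j : ℂ) • (γ : C → ℂ) := by
    intro j
    conv_lhs => rw [classFunction_expansion' (hfcf j)]
    refine Finset.sum_congr rfl (fun γ _ => ?_)
    rw [hz γ j]
  -- norm one off the identity
  have hsq : ∀ j : ℕ, 0 < j → j < orderOf s → ∑ γ : Cfsg.IrrCharacter C, z γ j * z γ j = 1 := by
    intro j hj0 hjn
    have hne : s ^ j ≠ 1 := pow_ne_one_of_lt_orderOf hj0.ne' hjn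
    have hCj : ∀ c : Γ, c ∈ C ↔ c ∈ G ∧ c * s ^ j = s ^ j * c := by
      intro c
      constructor
      · intro hc
        exact ⟨((hC c).1 hc).1, hcomm ⟨c, hc⟩ j⟩
      · rintro ⟨hc1, hc2⟩
        exact hfpf j hne c hc1 hc2
    have hcopj : (Nat.card G).Coprime (orderOf (s ^ j)) :=
      Nat.Coprime.coprime_dvd_right (orderOf_pow_dvd j) hcop
    have hnorm1 : Cfsg.classInner (fun c : C => χh ((c : Γ) * s ^ j))
        (fun c : C => χh ((c : Γ) * s ^ j)) = 1 := by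
      have h2 := (sum_centralizer_coset G (s ^ j) hcopj C hCj h1 h1 hres).1 rfl
      unfold Cfsg.classInner
      rw [h2]
      have hC0 : (Nat.card C : ℂ) ≠ 0 := by
        exact_mod_cast (Nat.card_pos (α := C)).ne'
      exact inv_mul_cancel₀ hC0
    have hnorm2 : Cfsg.classInner (fun c : C => χh ((c : Γ) * s ^ j))
        (fun c : C => χh ((c : Γ) * s ^ j)) =
        ∑ γ : Cfsg.IrrCharacter C, (z γ j : ℂ) * (z γ j : ℂ) := by
      nth_rewrite 1 [hexp j]
      rw [classInner_sum_left]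
      refine Finset.sum_congr rfl (fun γ _ => ?_)
      rw [classInner_smul_left, classInner_conj_symm, hz γ j, map_intCast]
    have h3 : ((∑ γ : Cfsg.IrrCharacter C, z γ j * z γ j : ℤ) : ℂ) = ((1 : ℤ) : ℂ) := by
      push_cast
      rw [← hnorm2, hnorm1]
    exact_mod_cast h3
  have hz1 : ∀ (γ : Cfsg.IrrCharacter C) (j : ℕ), 0 < j → j < orderOf s →
      z γ j = 0 ∨ z γ j = 1 ∨ z γ j = -1 := by
    intro γ j hj0 hjn
    have h2 : z γ j * z γ j ≤ ∑ γ : Cfsg.IrrCharacter C, z γ j * z γ j :=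
      Finset.single_le_sum (f := fun γ : Cfsg.IrrCharacter C => z γ j * z γ j)
        (fun γ _ => mul_self_nonneg (z γ j)) (Finset.mem_univ γ)
    rw [hsq j hj0 hjn] at h2
    have h3 : -1 ≤ z γ j := by nlinarith
    have h4 : z γ j ≤ 1 := by nlinarith
    omega
  -- the coefficients at `j = 1`
  have hone : ∀ γ : Cfsg.IrrCharacter C,
      z γ 1 = if (γ : C → ℂ) = β then ε₀ else 0 := by
    intro γ
    have h2 : (fun c : C => χh ((c : Γ) * s ^ 1)) = (ε₀ : ℂ) • β := by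
      funext c
      rw [pow_one, hβ1 c]
      rfl
    have h3 := hz γ 1
    rw [h2, classInner_smul_left] at h3
    split_ifs with h
    · rw [← h, classInner_irr_self γ.2, mul_one] at h3
      exact_mod_cast h3.symm
    · rw [classInner_irr_ne hβ γ.2 (fun h' => h h'.symm), mul_zero] at h3
      exact_mod_cast h3.symm
  have hε₀0 : ε₀ ≠ 0 := by
    rcases hε₀ with h | h <;> rw [h] <;> norm_num
  -- the structure of every coefficient sequence
  have hRU : ∀ γ : Cfsg.IrrCharacter C,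
      ((∀ j, 0 < j → j < orderOf s → z γ j = 0) ∧ ∃ q : ℕ, z γ 0 = (orderOf s : ℤ) * q) ∨
      (∃ ε : ℤ, (ε = 1 ∨ ε = -1) ∧ ∃ ν : ℂ, (ν = 1 ∨ ν = -1) ∧ ν ^ orderOf s = 1 ∧
        (∀ j, 0 < j → j < orderOf s → (z γ j : ℂ) = (ε : ℂ) * ν ^ j) ∧
        ∃ q : ℕ, z γ 0 = (orderOf s : ℤ) * q + ε) := by
    intro γ
    obtain ⟨ι, hι, a, ω, hω, hform⟩ := exists_decomp_centralizer G s C hC
      (isCharacter_of_irr h1) (isCharacter_of_irr γ.2)
    exact roots_unity_pm (orderOf s) hn a ω hω (z γ)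
      (fun j => (hform j).symm.trans (hz γ j)) (hz1 γ)
  -- the distinguished character
  obtain ⟨ε, hε, ν, hν, hνn, hνval, qβ, hqβ⟩ : ∃ ε : ℤ, (ε = 1 ∨ ε = -1) ∧ ∃ ν : ℂ,
      (ν = 1 ∨ ν = -1) ∧ ν ^ orderOf s = 1 ∧
      (∀ j, 0 < j → j < orderOf s → (z ⟨β, hβ⟩ j : ℂ) = (ε : ℂ) * ν ^ j) ∧
      ∃ q : ℕ, z ⟨β, hβ⟩ 0 = (orderOf s : ℤ) * q + ε := by
    rcases hRU ⟨β, hβ⟩ with ⟨hA, -⟩ | hB
    · exfalso
      have h2 := hA 1 (by omega) (by omega)
      rw [hone ⟨β, hβ⟩, if_pos rfl] at h2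
      exact hε₀0 h2
    · exact hB
  have hother : ∀ γ : Cfsg.IrrCharacter C, (γ : C → ℂ) ≠ β →
      (∀ j, 0 < j → j < orderOf s → z γ j = 0) ∧ ∃ q : ℕ, z γ 0 = (orderOf s : ℤ) * q := by
    intro γ hγ
    rcases hRU γ with hA | ⟨ε', hε', ν', hν', -, hval', -⟩
    · exact hA
    · exfalso
      have h2 := hval' 1 (by omega) (by omega)
      rw [hone γ, if_neg hγ, pow_one] at h2
      have hε'0 : (ε' : ℂ) ≠ 0 := by
        rcases hε' with h | h <;> rw [h] <;> norm_num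
      have hν'0 : ν' ≠ 0 := by
        rcases hν' with h | h <;> rw [h] <;> norm_num
      have h3 : (ε' : ℂ) * ν' = 0 := by
        rw [← h2]
        simp
      exact mul_ne_zero hε'0 hν'0 h3
  have hqex : ∀ γ : Cfsg.IrrCharacter C, ∃ q : ℕ,
      z γ 0 = (orderOf s : ℤ) * q + if (γ : C → ℂ) = β then ε else 0 := by
    intro γ
    by_cases hγ : (γ : C → ℂ) = β
    · refine ⟨qβ, ?_⟩
      rw [if_pos hγ]
      have : γ = ⟨β, hβ⟩ := Subtype.ext hγ
      rw [this]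
      exact hqβ
    · obtain ⟨q, hq⟩ := (hother γ hγ).2
      exact ⟨q, by rw [if_neg hγ, add_zero]; exact hq⟩
  choose q hq using hqex
  refine ⟨ε, hε, ν, hν, hνn, ?_, ∑ γ : Cfsg.IrrCharacter C, q γ • (γ : C → ℂ), ?_, ?_⟩
  · intro c j hj0 hjn
    have h5 := congrFun (hexp j) c
    simp only [Finset.sum_apply, Pi.smul_apply, smul_eq_mul] at h5
    rw [h5, Finset.sum_eq_single (⟨β, hβ⟩ : Cfsg.IrrCharacter C)]
    · rw [hνval j hj0 hjn]
      ring
    · intro γ _ hγ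
      have hγ' : (γ : C → ℂ) ≠ β := fun h => hγ (Subtype.ext h)
      rw [(hother γ hγ').1 j hj0 hjn]
      simp
    · intro h
      exact absurd (Finset.mem_univ _) h
  · exact isCharacter_sum _ _ (fun γ _ => isCharacter_nsmul (q γ) (isCharacter_of_irr γ.2))
  · intro c
    have h5 := congrFun (hexp 0) c
    simp only [Finset.sum_apply, Pi.smul_apply, smul_eq_mul, pow_zero, mul_one] at h5
    rw [h5]
    have h6 : ∀ γ ∈ (Finset.univ : Finset (Cfsg.IrrCharacter C)),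
        (z γ 0 : ℂ) * (γ : C → ℂ) c = (orderOf s : ℂ) * ((q γ : ℂ) * (γ : C → ℂ) c) +
          if γ = ⟨β, hβ⟩ then (ε : ℂ) * (γ : C → ℂ) c else 0 := by
      intro γ _
      rw [hq γ]
      by_cases hγ : (γ : C → ℂ) = β
      · have hγ' : γ = ⟨β, hβ⟩ := Subtype.ext hγ
        rw [if_pos hγ, if_pos hγ']
        push_cast
        ring
      · have hγ' : γ ≠ ⟨β, hβ⟩ := fun h => hγ (congrArg Subtype.val h)
        rw [if_neg hγ, if_neg hγ']
        push_cast
        ring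
    rw [Finset.sum_congr rfl h6, Finset.sum_add_distrib, ← Finset.mul_sum,
      Finset.sum_ite_eq', if_pos (Finset.mem_univ _)]
    congr 1
    simp [Finset.sum_apply, nsmul_eq_mul]

end CycFrob

end Cfsg.Agent.Lib.Helper75
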