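import Mathlib
import Cfsg.Agent.Lib.Helper75.Glaub4
import Cfsg.Agent.Lib.Helper75.RootsPM
import Cfsg.Agent.Lib.Helper75.Gallagher
import Cfsg.Agent.Lib.Helper75.CentExt5
import Cfsg.Agent.S0886
import Cfsg.Agent.S0868

/-!
# Fully ramified characters under a cyclic Frobenius action

`N ≤ G` normal in `Γ`, `Γ/G` cyclic, no element outside `G` fixes a non-trivial coset of `N` in
`G`.  If an invariant `θ ∈ Irr(N)` is fully ramified in `G` (`χ_N = e θ`), then `|Γ : G|` divides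
`e - 1` or `e + 1`.
-/

set_option autoImplicit false
set_option linter.style.haveILetI false

namespace Cfsg.Agent.Lib.Helper75

open Representation Module
open Cfsg.Agent.Lib.Helper3
open scoped ComplexConjugate

universe u

section CosetSum

variable {Γ : Type u} [Group Γ] [Fintype Γ] (G N : Subgroup Γ) [hG : G.Normal] [hN : N.Normal]
  [Fintype G] [Fintype N]

omit [Fintype Γ] hN in
/-- under the Frobenius condition, every coset `g N y` (`g ∈ G`) of a coset `G y`, `y ∉ G`, is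
conjugate to `N y`: sums of a class function over `G y` and `N y` are proportional -/
theorem frob_coset_sum (hNG : N ≤ G)
    (hfrob : ∀ x : Γ, x ∉ G → ∀ g : Γ, g ∈ G → x * g * x⁻¹ * g⁻¹ ∈ N → g ∈ N)
    (F : Γ → ℂ) (hF : ∀ t g : Γ, F (g * t * g⁻¹) = F t) (y : Γ) (hy : y ∉ G) :
    (Fintype.card N : ℂ) * ∑ g : G, F ((g : Γ) * y) =
      (Fintype.card G : ℂ) * ∑ m : N, F ((m : Γ) * y) := by
  classical
  -- the conjugation map
  have hmem : ∀ (h : G) (m : N), (h : Γ) * m * y * (h : Γ)⁻¹ * y⁻¹ ∈ G := by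
    intro h m
    have h1 : y * (h : Γ)⁻¹ * y⁻¹ ∈ G := hG.conj_mem _ (G.inv_mem h.2) y
    have h2 : (h : Γ) * m * (y * (h : Γ)⁻¹ * y⁻¹) ∈ G :=
      G.mul_mem (G.mul_mem h.2 (hNG m.2)) h1
    have e : (h : Γ) * m * y * (h : Γ)⁻¹ * y⁻¹ = (h : Γ) * m * (y * (h : Γ)⁻¹ * y⁻¹) := by group
    rw [e]
    exact h2
  set Ψ : G × N → G := fun p => ⟨(p.1 : Γ) * p.2 * y * (p.1 : Γ)⁻¹ * y⁻¹, hmem p.1 p.2⟩ with hΨ
  have hΨy : ∀ p : G × N, ((Ψ p : G) : Γ) * y = (p.1 : Γ) * ((p.2 : Γ) * y) * (p.1 : Γ)⁻¹ := by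
    intro p
    show (p.1 : Γ) * p.2 * y * (p.1 : Γ)⁻¹ * y⁻¹ * y = _
    group
  -- the double sum, computed in two ways
  have hD1 : ∑ p : G × N, F (((Ψ p : G) : Γ) * y) =
      (Fintype.card G : ℂ) * ∑ m : N, F ((m : Γ) * y) := by
    rw [Fintype.sum_prod_type]
    have h1 : ∀ h : G, ∑ m : N, F (((Ψ (h, m) : G) : Γ) * y) = ∑ m : N, F ((m : Γ) * y) := by
      intro h
      refine Finset.sum_congr rfl (fun m _ => ?_)
      rw [hΨy (h, m)]
      exact hF _ _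
    rw [Finset.sum_congr rfl (fun h _ => h1 h), Finset.sum_const, Finset.card_univ,
      nsmul_eq_mul]
  -- fibres
  have hfib_le : ∀ g : G, (Finset.univ.filter (fun p : G × N => Ψ p = g)).card ≤
      Fintype.card N := by
    intro g
    by_cases hne : (Finset.univ.filter (fun p : G × N => Ψ p = g)).Nonempty
    · obtain ⟨p₀, hp₀⟩ := hne
      have hp₀' : Ψ p₀ = g := (Finset.mem_filter.1 hp₀).2
      have hcard : (Finset.univ.image (Subtype.val : N → Γ)).card = Fintype.card N := by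
        rw [Finset.card_image_of_injective _ Subtype.val_injective, Finset.card_univ]
      rw [← hcard]
      have hkey : ∀ p : G × N, Ψ p = g → (p₀.1 : Γ)⁻¹ * (p.1 : Γ) ∈ N := by
        intro p hp
        have h1 : ((Ψ p : G) : Γ) * y = ((Ψ p₀ : G) : Γ) * y := by rw [hp, hp₀']
        rw [hΨy p, hΨy p₀] at h1
        -- c (m y) c⁻¹ = m₀ y with c = h₀⁻¹ h
        have h2 : ((p₀.1 : Γ)⁻¹ * (p.1 : Γ)) * ((p.2 : Γ) * y) * ((p₀.1 : Γ)⁻¹ * (p.1 : Γ))⁻¹ =
            (p₀.2 : Γ) * y := by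
          have e : ((p₀.1 : Γ)⁻¹ * (p.1 : Γ)) * ((p.2 : Γ) * y) *
              ((p₀.1 : Γ)⁻¹ * (p.1 : Γ))⁻¹ =
              (p₀.1 : Γ)⁻¹ * ((p.1 : Γ) * ((p.2 : Γ) * y) * (p.1 : Γ)⁻¹) * (p₀.1 : Γ) := by group
          rw [e, h1]
          group
        have hxG : (p.2 : Γ) * y ∉ G := by
          intro h
          apply hy
          have h3 := G.mul_mem (G.inv_mem (hNG p.2.2)) h
          rwa [inv_mul_cancel_left] at h3
        apply hfrob ((p.2 : Γ) * y) hxG _ (G.mul_mem (G.inv_mem p₀.1.2) p.1.2)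
        -- x c x⁻¹ c⁻¹ = (c x c⁻¹ x⁻¹)⁻¹
        have h4 : ((p.2 : Γ) * y) * ((p₀.1 : Γ)⁻¹ * (p.1 : Γ)) * ((p.2 : Γ) * y)⁻¹ *
            ((p₀.1 : Γ)⁻¹ * (p.1 : Γ))⁻¹ =
            (((p₀.1 : Γ)⁻¹ * (p.1 : Γ)) * ((p.2 : Γ) * y) * ((p₀.1 : Γ)⁻¹ * (p.1 : Γ))⁻¹ *
              ((p.2 : Γ) * y)⁻¹)⁻¹ := by group
        rw [h4, h2]
        apply N.inv_mem
        have e : (p₀.2 : Γ) * y * ((p.2 : Γ) * y)⁻¹ = (p₀.2 : Γ) * (p.2 : Γ)⁻¹ := by group
        rw [e]
        exact N.mul_mem p₀.2.2 (N.inv_mem p.2.2)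
      apply Finset.card_le_card_of_injOn (fun p : G × N => (p₀.1 : Γ)⁻¹ * (p.1 : Γ))
      · intro p hp
        have hp' : Ψ p = g := (Finset.mem_filter.1 (Finset.mem_coe.1 hp)).2
        exact Finset.mem_image.2 ⟨⟨_, hkey p hp'⟩, Finset.mem_univ _, rfl⟩
      · intro p hp q hq hpq
        have hp' : Ψ p = g := (Finset.mem_filter.1 (Finset.mem_coe.1 hp)).2
        have hq' : Ψ q = g := (Finset.mem_filter.1 (Finset.mem_coe.1 hq)).2
        have h1 : (p.1 : Γ) = (q.1 : Γ) := mul_left_cancel hpq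
        have h2 : ((Ψ p : G) : Γ) * y = ((Ψ q : G) : Γ) * y := by rw [hp', hq']
        rw [hΨy p, hΨy q, h1] at h2
        have h3 : (p.2 : Γ) * y = (q.2 : Γ) * y := by
          have h4 : (q.1 : Γ)⁻¹ * ((q.1 : Γ) * ((p.2 : Γ) * y) * (q.1 : Γ)⁻¹) * (q.1 : Γ) =
              (q.1 : Γ)⁻¹ * ((q.1 : Γ) * ((q.2 : Γ) * y) * (q.1 : Γ)⁻¹) * (q.1 : Γ) := by
            rw [h2]
          have e1 : (q.1 : Γ)⁻¹ * ((q.1 : Γ) * ((p.2 : Γ) * y) * (q.1 : Γ)⁻¹) * (q.1 : Γ) =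
              (p.2 : Γ) * y := by group
          have e2 : (q.1 : Γ)⁻¹ * ((q.1 : Γ) * ((q.2 : Γ) * y) * (q.1 : Γ)⁻¹) * (q.1 : Γ) =
              (q.2 : Γ) * y := by group
          rw [e1, e2] at h4
          exact h4
        exact Prod.ext (Subtype.ext h1) (Subtype.ext (mul_right_cancel h3))
    · rw [Finset.not_nonempty_iff_eq_empty.1 hne, Finset.card_empty]
      exact Nat.zero_le _
  have hfib_sum : ∑ g : G, (Finset.univ.filter (fun p : G × N => Ψ p = g)).card =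
      Fintype.card G * Fintype.card N := by
    have h1 := Finset.card_eq_sum_card_fiberwise (s := (Finset.univ : Finset (G × N)))
      (t := (Finset.univ : Finset G)) (f := Ψ) (fun p _ => Finset.mem_univ _)
    rw [← h1, Finset.card_univ, Fintype.card_prod]
  have hfib : ∀ g : G, (Finset.univ.filter (fun p : G × N => Ψ p = g)).card =
      Fintype.card N := by
    by_contra hcon
    obtain ⟨g₁, hg₁⟩ := not_forall.1 hcon
    have hlt : (Finset.univ.filter (fun p : G × N => Ψ p = g₁)).card < Fintype.card N :=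
      lt_of_le_of_ne (hfib_le g₁) hg₁
    have h2 : ∑ g : G, (Finset.univ.filter (fun p : G × N => Ψ p = g)).card <
        ∑ _g : G, Fintype.card N :=
      Finset.sum_lt_sum (fun g _ => hfib_le g) ⟨g₁, Finset.mem_univ _, hlt⟩
    rw [hfib_sum, Finset.sum_const, Finset.card_univ, smul_eq_mul] at h2
    exact lt_irrefl _ h2
  have hD2 : ∑ p : G × N, F (((Ψ p : G) : Γ) * y) =
      (Fintype.card N : ℂ) * ∑ g : G, F ((g : Γ) * y) := by
    rw [← Finset.sum_fiberwise (Finset.univ : Finset (G × N)) Ψ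
      (fun p => F (((Ψ p : G) : Γ) * y)), Finset.mul_sum]
    refine Finset.sum_congr rfl (fun g _ => ?_)
    have h1 : ∀ p ∈ Finset.univ.filter (fun p : G × N => Ψ p = g),
        F (((Ψ p : G) : Γ) * y) = F ((g : Γ) * y) := by
      intro p hp
      rw [(Finset.mem_filter.1 hp).2]
    rw [Finset.sum_congr rfl h1, Finset.sum_const, hfib g, nsmul_eq_mul]
  rw [← hD2, hD1]

end CosetSum

section RootsAbs

/-- a sum of `n`-th roots of unity (natural multiplicities, total `e`) of absolute value `1` at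
every `0 < j < n` has `e ≡ ±1 (mod n)` -/
theorem roots_unity_abs_one (n : ℕ) (hn : 2 ≤ n) {ι : Type*} [Fintype ι] (a : ι → ℕ) (ω : ι → ℂ)
    (hω : ∀ i, ω i ^ n = 1)
    (habs : ∀ j, 0 < j → j < n →
      (∑ i, (a i : ℂ) * ω i ^ j) * conj (∑ i, (a i : ℂ) * ω i ^ j) = 1) :
    ((n : ℤ) ∣ (∑ i, (a i : ℤ)) - 1) ∨ ((n : ℤ) ∣ (∑ i, (a i : ℤ)) + 1) := by
  classical
  have hn0 : n ≠ 0 := by omega
  have : NeZero n := ⟨hn0⟩
  obtain ⟨ζ, hζ⟩ : ∃ ζ : ℂ, IsPrimitiveRoot ζ n :=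
    ⟨Complex.exp (2 * Real.pi * Complex.I / n), Complex.isPrimitiveRoot_exp n hn0⟩
  have hκ : ∀ i, ∃ k, k < n ∧ ζ ^ k = ω i := fun i => hζ.eq_pow_of_pow_eq_one (hω i)
  choose κ hκlt hκeq using hκ
  set b : ℕ → ℕ := fun l => ∑ i, if κ i = l then a i else 0 with hb
  set f : ℕ → ℂ := fun j => ∑ i, (a i : ℂ) * ω i ^ j with hf
  have hE : ∀ j, ∑ l ∈ Finset.range n, (b l : ℂ) * ζ ^ (l * j) = f j := by
    intro j
    have h1 : ∀ l ∈ Finset.range n, (b l : ℂ) * ζ ^ (l * j) =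
        ∑ i, if κ i = l then (a i : ℂ) * ω i ^ j else 0 := by
      intro l _
      rw [hb]
      simp only
      rw [Nat.cast_sum, Finset.sum_mul]
      refine Finset.sum_congr rfl (fun i _ => ?_)
      split_ifs with h
      · rw [← hκeq i, h, pow_mul]
      · simp
    rw [Finset.sum_congr rfl h1, Finset.sum_comm]
    refine Finset.sum_congr rfl (fun i _ => ?_)
    rw [Finset.sum_ite_eq, if_pos (Finset.mem_range.2 (hκlt i))]
  have hP : ∑ j ∈ Finset.range n, f j * conj (f j) =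
      (n : ℂ) * ∑ l ∈ Finset.range n, (b l : ℂ) * (b l : ℂ) := by
    have h2 : ∀ j ∈ Finset.range n, f j * conj (f j) =
        ∑ k ∈ Finset.range n, ∑ l ∈ Finset.range n,
          ((b k : ℂ) * (b l : ℂ)) * (ζ ^ (k * j) * conj (ζ ^ (l * j))) := by
      intro j _
      rw [← hE j, map_sum, Finset.sum_mul_sum]
      refine Finset.sum_congr rfl (fun k _ => Finset.sum_congr rfl (fun l _ => ?_))
      rw [map_mul, Complex.conj_natCast]
      ring
    rw [Finset.sum_congr rfl h2, Finset.sum_comm, Finset.mul_sum]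
    refine Finset.sum_congr rfl (fun k hk => ?_)
    rw [Finset.sum_comm]
    have h4 : ∀ l ∈ Finset.range n, ∑ j ∈ Finset.range n,
        ((b k : ℂ) * (b l : ℂ)) * (ζ ^ (k * j) * conj (ζ ^ (l * j))) =
        if k = l then (n : ℂ) * ((b k : ℂ) * (b k : ℂ)) else 0 := by
      intro l hl
      rw [← Finset.mul_sum, sum_prim_root_orth hζ (Finset.mem_range.1 hk)
        (Finset.mem_range.1 hl)]
      split_ifs with h
      · rw [h]
        ring
      · rw [mul_zero]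
    rw [Finset.sum_congr rfl h4, Finset.sum_ite_eq, if_pos hk]
  have hf0 : f 0 = ((∑ l ∈ Finset.range n, (b l : ℤ) : ℤ) : ℂ) := by
    have h1 := hE 0
    simp only [mul_zero, pow_zero, mul_one] at h1
    rw [← h1]
    push_cast
    rfl
  have hf0' : f 0 = ((∑ i, (a i : ℤ) : ℤ) : ℂ) := by
    rw [hf]
    simp only [pow_zero, mul_one]
    push_cast
    rfl
  have hsum_eq : (∑ i, (a i : ℤ)) = ∑ l ∈ Finset.range n, (b l : ℤ) := by
    have h1 : ((∑ i, (a i : ℤ) : ℤ) : ℂ) = ((∑ l ∈ Finset.range n, (b l : ℤ) : ℤ) : ℂ) := by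
      rw [← hf0, ← hf0']
    exact_mod_cast h1
  have h0mem : 0 ∈ Finset.range n := Finset.mem_range.2 (by omega)
  have hsplit := Finset.add_sum_erase (Finset.range n) (fun j => f j * conj (f j)) h0mem
  have hrest : ∑ j ∈ (Finset.range n).erase 0, f j * conj (f j) = ((n : ℂ) - 1) := by
    have h1 : ∀ j ∈ (Finset.range n).erase 0, f j * conj (f j) = 1 := by
      intro j hj
      have hj' := Finset.mem_erase.1 hj
      exact habs j (Nat.pos_of_ne_zero hj'.1) (Finset.mem_range.1 hj'.2)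
    rw [Finset.sum_congr rfl h1, Finset.sum_const, Finset.card_erase_of_mem h0mem,
      Finset.card_range, nsmul_eq_mul, mul_one]
    have : 1 ≤ n := by omega
    push_cast [this]
    ring
  have hQ : (n : ℤ) * ∑ l ∈ Finset.range n, (b l : ℤ) * (b l : ℤ) =
      (∑ i, (a i : ℤ)) * (∑ i, (a i : ℤ)) + ((n : ℤ) - 1) := by
    have h1 : (((n : ℤ) * ∑ l ∈ Finset.range n, (b l : ℤ) * (b l : ℤ) : ℤ) : ℂ) =
        (((∑ i, (a i : ℤ)) * (∑ i, (a i : ℤ)) + ((n : ℤ) - 1) : ℤ) : ℂ) := by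
      have h2 : f 0 * conj (f 0) =
          ((∑ i, (a i : ℤ) : ℤ) : ℂ) * ((∑ i, (a i : ℤ) : ℤ) : ℂ) := by
        rw [hf0']
        simp
      have h3 := hP
      rw [← hsplit, hrest, h2] at h3
      push_cast
      push_cast at h3
      rw [← h3]
    exact_mod_cast h1
  rcases mult_structure n hn (fun l => (b l : ℤ)) (fun l => Int.natCast_nonneg _)
    (∑ i, (a i : ℤ)) ((n : ℤ) - 1) hsum_eq hQ le_rfl with ⟨hMz, -⟩ | ⟨ε, hε, q, -, l₁, hl₁, hall⟩
  · exfalso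
    have : (2 : ℤ) ≤ n := by exact_mod_cast hn
    omega
  · have hsum : (∑ i, (a i : ℤ)) = (n : ℤ) * q + ε := by
      rw [hsum_eq]
      have h1 : ∀ l ∈ Finset.range n, (b l : ℤ) = q + if l = l₁ then ε else 0 :=
        fun l hl => hall l (Finset.mem_range.1 hl)
      rw [Finset.sum_congr rfl h1, Finset.sum_add_distrib, Finset.sum_const, Finset.card_range,
        Finset.sum_ite_eq', if_pos (Finset.mem_range.2 hl₁), nsmul_eq_mul]
    rcases hε with h | h
    · left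
      exact ⟨q, by rw [hsum, h]; ring⟩
    · right
      exact ⟨q, by rw [hsum, h]; ring⟩

end RootsAbs

section CyclicDecomp

variable {W : Type u} [Group W] [Fintype W] (M : Subgroup W) [hM : M.Normal] [Fintype M]

/-- a character `Ξ` of `W` with `Ξ_M = e τ_M`, where `τ ∈ Irr(W)` restricts irreducibly to `M`
and `W / M` is generated by the image of `x` with `x ^ n ∈ M`: on the cosets `M x^k`,
`Ξ = τ · f(k)` with `f(k)` a sum of `n`-th roots of unity -/
theorem cyclic_quotient_decomp (x : W) (n : ℕ) (hxn : x ^ n ∈ M)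
    (hgen : ∀ w : W, ∃ k : ℕ, ((w : W) : W ⧸ M) = ((x : W) : W ⧸ M) ^ k)
    {τ : W → ℂ} (hτ : Cfsg.IsIrrCharacter W τ) (hτM : Cfsg.IsIrrCharacter M (fun m : M => τ m))
    {Ξ : W → ℂ} (hΞ : Cfsg.IsCharacter W Ξ) (e : ℂ) (hΞM : ∀ m : M, Ξ m = e * τ m) :
    ∃ (ι : Type u) (_ : Fintype ι) (a : ι → ℕ) (ω : ι → ℂ), (∀ i, ω i ^ n = 1) ∧
      ∀ (k : ℕ) (m : M), Ξ ((m : W) * x ^ k) =
        τ ((m : W) * x ^ k) * ∑ i, (a i : ℂ) * ω i ^ k := by
  classical
  haveI : Fintype (Cfsg.IrrCharacter W) := Fintype.ofFinite _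
  obtain ⟨nψ, -, hsum⟩ := char_eq_sum_irr hΞ
  -- each constituent lies over `τ_M`
  have hover : ∀ ψ : Cfsg.IrrCharacter W, nψ ψ ≠ 0 →
      Cfsg.classInner (fun m : M => (ψ : W → ℂ) m) (fun m : M => τ m) ≠ 0 := by
    intro ψ hψ hzero
    have hresM : (fun m : M => Ξ m) = ∑ ψ' : Cfsg.IrrCharacter W,
        (nψ ψ' : ℂ) • (fun m : M => (ψ' : W → ℂ) m) := by
      funext m
      have h0 := congrFun hsum (m : W)
      simp only [Finset.sum_apply, Pi.smul_apply, smul_eq_mul] at h0 ⊢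
      exact h0
    have h1 : Cfsg.classInner (fun m : M => Ξ m) (fun m : M => (ψ : W → ℂ) m) =
        e * Cfsg.classInner (fun m : M => τ m) (fun m : M => (ψ : W → ℂ) m) := by
      have h0 : (fun m : M => Ξ m) = e • (fun m : M => τ m) := funext (fun m => hΞM m)
      rw [h0, classInner_smul_left]
    have h2 : Cfsg.classInner (fun m : M => τ m) (fun m : M => (ψ : W → ℂ) m) = 0 := by
      rw [classInner_conj_symm, hzero, map_zero]
    rw [h2, mul_zero, hresM, classInner_sum_left] at h1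
    have hnat : ∀ ψ' : Cfsg.IrrCharacter W, ∃ c : ℕ,
        Cfsg.classInner (fun m : M => (ψ' : W → ℂ) m) (fun m : M => (ψ : W → ℂ) m) = c :=
      fun ψ' => classInner_char_nat (isCharacter_res M (isCharacter_of_irr ψ'.2))
        (isCharacter_res M (isCharacter_of_irr ψ.2))
    choose c hc using hnat
    have h3 : ∑ ψ' : Cfsg.IrrCharacter W, nψ ψ' * c ψ' = 0 := by
      have h0 : ((∑ ψ' : Cfsg.IrrCharacter W, nψ ψ' * c ψ' : ℕ) : ℂ) = 0 := by
        rw [← h1]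
        push_cast
        refine Finset.sum_congr rfl (fun ψ' _ => ?_)
        rw [classInner_smul_left, hc ψ']
      exact_mod_cast h0
    have h4 := (Finset.sum_eq_zero_iff.1 h3) ψ (Finset.mem_univ ψ)
    have h5 : c ψ = 0 := by
      rcases Nat.mul_eq_zero.1 h4 with h | h
      · exact absurd h hψ
      · exact h
    have h6 : Cfsg.classInner (fun m : M => (ψ : W → ℂ) m) (fun m : M => (ψ : W → ℂ) m) = 0 := by
      rw [hc ψ, h5]
      simp
    have h7 := eq_zero_of_classInner_self h6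
    have h8 : (ψ : W → ℂ) ((1 : M) : W) = 0 := congrFun h7 1
    exact Cfsg.Agent.Lib.Helper80.char_one_ne_zero ψ.2 h8
  have hgal : ∀ ψ : Cfsg.IrrCharacter W, ∃ (d : ℕ) (ω : ℂ), ω ^ n = 1 ∧
      (nψ ψ ≠ 0 → ∀ (k : ℕ) (m : M), (ψ : W → ℂ) ((m : W) * x ^ k) =
        τ ((m : W) * x ^ k) * ((d : ℂ) * ω ^ k)) := by
    intro ψ
    by_cases hψ : nψ ψ = 0
    · exact ⟨0, 1, one_pow n, fun h => absurd hψ h⟩
    · obtain ⟨β, hβ, hβM, hψβ⟩ := gallagher_exists M hτ hτM ψ.2 (hover ψ hψ)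
      obtain ⟨β', hβ', hβ'val⟩ := Cfsg.Agent.Lib.Helper80.exists_isIrrCharacter_deflate M hβ
        (fun m hm => hβM ⟨m, hm⟩)
      have hcen : ((x : W) : W ⧸ M) ∈ Subgroup.center (W ⧸ M) := by
        rw [Subgroup.mem_center_iff]
        intro g
        obtain ⟨w, rfl⟩ := QuotientGroup.mk_surjective g
        obtain ⟨k, hk⟩ := hgen w
        rw [hk]
        exact pow_mul_comm' _ _
      obtain ⟨ω, hω1, hω2⟩ := central_scalar hβ' ((x : W) : W ⧸ M) hcen
      have hωn : ω ^ n = 1 := by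
        have h1 : orderOf ((x : W) : W ⧸ M) ∣ n := by
          apply orderOf_dvd_of_pow_eq_one
          rw [← QuotientGroup.mk_pow]
          exact (QuotientGroup.eq_one_iff _).2 hxn
        obtain ⟨t, ht⟩ := h1
        rw [ht, pow_mul, hω1, one_pow]
      refine ⟨Cfsg.charDegree β, ω, hωn, fun _ k m => ?_⟩
      have h1 : (ψ : W → ℂ) ((m : W) * x ^ k) = β ((m : W) * x ^ k) * τ ((m : W) * x ^ k) := by
        rw [hψβ]
        rfl
      have h2 : β ((m : W) * x ^ k) = ω ^ k * (Cfsg.charDegree β : ℂ) := by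
        rw [← hβ'val, QuotientGroup.mk_mul, QuotientGroup.mk_pow]
        have h3 : ((m : W) : W ⧸ M) = 1 := (QuotientGroup.eq_one_iff _).2 m.2
        rw [h3, hω2 1 k, ← QuotientGroup.mk_one, hβ'val,
          Cfsg.Agent.Lib.Helper80.char_one_eq_charDegree (isCharacter_of_irr hβ)]
      rw [h1, h2]
      ring
  choose d ω hω hval using hgal
  refine ⟨Cfsg.IrrCharacter W, inferInstance, fun ψ => nψ ψ * d ψ, ω, hω, fun k m => ?_⟩
  have h1 := congrFun hsum ((m : W) * x ^ k)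
  simp only [Finset.sum_apply, Pi.smul_apply, smul_eq_mul] at h1
  rw [h1, Finset.mul_sum]
  refine Finset.sum_congr rfl (fun ψ _ => ?_)
  by_cases hψ : nψ ψ = 0
  · simp [hψ]
  · rw [hval ψ hψ k m]
    push_cast
    ring

end CyclicDecomp

section FrobRamMain

variable {Γ : Type u} [Group Γ] [Fintype Γ] (G N : Subgroup Γ) [hG : G.Normal] [hN : N.Normal]
  [Fintype G] [Fintype N]

/-- **fully ramified sections under a cyclic Frobenius action** -/
theorem fully_ramified_frobenius (hNG : N ≤ G) (hGlt : G ≠ ⊤) (hcyc : IsCyclic (Γ ⧸ G))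
    (hfrob : ∀ x : Γ, x ∉ G → ∀ g : Γ, g ∈ G → x * g * x⁻¹ * g⁻¹ ∈ N → g ∈ N)
    {θ : N → ℂ} (hθ : Cfsg.IsIrrCharacter N θ)
    (hinv : ∀ (x : Γ) (m : N), θ ⟨x * m * x⁻¹, hN.conj_mem m m.2 x⟩ = θ m)
    {χ : G → ℂ} (hχ : Cfsg.IsIrrCharacter G χ)
    (hχinv : ∀ (x : Γ) (g : G), χ ⟨x * g * x⁻¹, hG.conj_mem g g.2 x⟩ = χ g)
    (e : ℕ) (hres : ∀ m : N, χ ⟨m, hNG m.2⟩ = (e : ℂ) * θ m) :
    (G.index : ℤ) ∣ (e : ℤ) - 1 ∨ (G.index : ℤ) ∣ (e : ℤ) + 1 := by
  classical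
  -- a generator of `Γ / G`
  obtain ⟨g₀, hg₀⟩ := hcyc.exists_generator
  obtain ⟨x, rfl⟩ := QuotientGroup.mk_surjective g₀
  have hord : orderOf ((x : Γ) : Γ ⧸ G) = G.index := by
    rw [orderOf_eq_card_of_forall_mem_zpowers hg₀, Subgroup.index_eq_card]
  have hn2 : 2 ≤ G.index := by
    have h0 : G.index ≠ 0 := Subgroup.index_ne_zero_of_finite
    have h1 : G.index ≠ 1 := fun h => hGlt (Subgroup.index_eq_one.1 h)
    omega
  have hxpow : ∀ k : ℕ, x ^ k ∈ G ↔ G.index ∣ k := by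
    intro k
    rw [← QuotientGroup.eq_one_iff, QuotientGroup.mk_pow, ← hord]
    exact orderOf_dvd_iff_pow_eq_one.symm
  have hxk : ∀ k, 0 < k → k < G.index → x ^ k ∉ G := by
    intro k h0 h1 h
    have := Nat.le_of_dvd h0 ((hxpow k).1 h)
    omega
  have hxG : x ∉ G := by
    have := hxk 1 (by omega) (by omega)
    rwa [pow_one] at this
  have hxN : x ^ G.index ∈ N := by
    apply hfrob x hxG (x ^ G.index) ((hxpow G.index).2 dvd_rfl)
    have e1 : x * x ^ G.index * x⁻¹ * (x ^ G.index)⁻¹ = 1 := by group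
    rw [e1]
    exact N.one_mem
  -- the extension of `χ` to `Γ`
  obtain ⟨χh, h1, hχhG⟩ := Cfsg.Agent.S0886.result G hcyc χ hχ hχinv
  have hχhres : Cfsg.IsIrrCharacter G (fun g : G => χh g) := by
    have : (fun g : G => χh g) = χ := funext hχhG
    rw [this]
    exact hχ
  -- coset sums of `|χh|²` over `N x^k`
  have hI3 : ∀ k, 0 < k → k < G.index →
      ∑ m : N, χh ((m : Γ) * x ^ k) * conj (χh ((m : Γ) * x ^ k)) = (Fintype.card N : ℂ) := by
    intro k hk0 hkn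
    have hcf := isClassFunction_of_isCharacter (isCharacter_of_irr h1)
    have hF : ∀ t g : Γ, χh (g * t * g⁻¹) * conj (χh (g * t * g⁻¹)) = χh t * conj (χh t) := by
      intro t g
      rw [hcf t g]
    have h2 := frob_coset_sum G N hNG hfrob (fun t => χh t * conj (χh t)) hF (x ^ k)
      (hxk k hk0 hkn)
    have h3 := (Cfsg.Agent.S0868.result G χh h1 hχhres χh h1 _ rfl).2.2 rfl
    have h4 := congrFun h3 (x ^ k)
    have hG0 : (Nat.card G : ℂ) ≠ 0 := by
      exact_mod_cast (Nat.card_pos (α := G)).ne'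
    have h5 : ∑ g : G, χh ((g : Γ) * x ^ k) * conj (χh ((g : Γ) * x ^ k)) = (Nat.card G : ℂ) := by
      have h6 : (Nat.card G : ℂ) * ((Nat.card G : ℂ)⁻¹ *
          ∑ g : G, χh ((g : Γ) * x ^ k) * conj (χh ((g : Γ) * x ^ k))) = (Nat.card G : ℂ) * 1 := by
        rw [h4]
      rw [← mul_assoc, mul_inv_cancel₀ hG0, one_mul, mul_one] at h6
      exact h6
    beta_reduce at h2
    rw [h5, Nat.card_eq_fintype_card] at h2
    have hG0' : (Fintype.card G : ℂ) ≠ 0 := by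
      rw [← Nat.card_eq_fintype_card]
      exact hG0
    have h7 : (Fintype.card G : ℂ) * ∑ m : N, χh ((m : Γ) * x ^ k) * conj (χh ((m : Γ) * x ^ k)) =
        (Fintype.card G : ℂ) * (Fintype.card N : ℂ) := by
      rw [← h2]
      ring
    exact mul_left_cancel₀ hG0' h7
  -- the subgroup `U = N ⟨x⟩`
  set U : Subgroup Γ := N ⊔ Subgroup.zpowers x with hU
  have hNU : N ≤ U := le_sup_left
  have hxU : x ∈ U := (le_sup_right : Subgroup.zpowers x ≤ U) (Subgroup.mem_zpowers x)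
  haveI : Fintype U := Fintype.ofFinite _
  haveI : Fintype (N.subgroupOf U) := Fintype.ofFinite _
  have hgenU : ∀ w : U, ∃ k : ℕ, ((w : U) : U ⧸ N.subgroupOf U) =
      (((⟨x, hxU⟩ : U) : U) : U ⧸ N.subgroupOf U) ^ k := by
    intro w
    obtain ⟨m₀, hm₀, z, hz, hw⟩ := Subgroup.mem_sup_of_normal_left.1 w.2
    obtain ⟨k, hk⟩ := (Submonoid.mem_powers_iff _ _).1 (mem_powers_iff_mem_zpowers.2 hz)
    refine ⟨k, ?_⟩
    rw [← QuotientGroup.mk_pow]
    apply QuotientGroup.eq.2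
    rw [Subgroup.mem_subgroupOf]
    have e1 : ((w⁻¹ * (⟨x, hxU⟩ : U) ^ k : U) : Γ) = (x ^ k)⁻¹ * m₀⁻¹ * x ^ k := by
      show (w : Γ)⁻¹ * x ^ k = _
      rw [← hw, ← hk]
      group
    rw [e1]
    exact hN.conj_mem' _ (N.inv_mem hm₀) _
  have hcycU : IsCyclic (U ⧸ N.subgroupOf U) := by
    refine ⟨⟨(((⟨x, hxU⟩ : U) : U) : U ⧸ N.subgroupOf U), fun g => ?_⟩⟩
    obtain ⟨w, rfl⟩ := QuotientGroup.mk_surjective g
    obtain ⟨k, hk⟩ := hgenU w
    refine ⟨(k : ℤ), ?_⟩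
    show (((⟨x, hxU⟩ : U) : U) : U ⧸ N.subgroupOf U) ^ (k : ℤ) = _
    rw [zpow_natCast, hk]
  -- `θ` on `N.subgroupOf U` and its extension to `U`
  have hθU : Cfsg.IsIrrCharacter (N.subgroupOf U)
      (fun m : N.subgroupOf U => θ ⟨((m : U) : Γ), m.2⟩) :=
    Cfsg.Agent.Lib.Helper80.isIrrCharacter_comp_mulEquiv (Subgroup.subgroupOfEquivOfLe hNU) hθ
  have hinvU : ∀ (u : U) (m : N.subgroupOf U),
      (fun m : N.subgroupOf U => θ ⟨((m : U) : Γ), m.2⟩)
        ⟨u * m * u⁻¹, (inferInstance : (N.subgroupOf U).Normal).conj_mem m m.2 u⟩ =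
      (fun m : N.subgroupOf U => θ ⟨((m : U) : Γ), m.2⟩) m := by
    intro u m
    exact hinv (u : Γ) ⟨((m : U) : Γ), m.2⟩
  obtain ⟨θh, hθh, hθhM⟩ := Cfsg.Agent.S0886.result (N.subgroupOf U) hcycU _ hθU hinvU
  have hθhres : Cfsg.IsIrrCharacter (N.subgroupOf U) (fun m : N.subgroupOf U => θh m) := by
    have : (fun m : N.subgroupOf U => θh m) =
        (fun m : N.subgroupOf U => θ ⟨((m : U) : Γ), m.2⟩) := funext hθhM
    rw [this]
    exact hθU
  -- decomposition of `χh` along the cosets `N x^k`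
  have hΞ : Cfsg.IsCharacter U (fun u : U => χh u) := isCharacter_res U (isCharacter_of_irr h1)
  have hΞM : ∀ m : N.subgroupOf U, (fun u : U => χh u) (m : U) = (e : ℂ) * θh (m : U) := by
    intro m
    show χh ((m : U) : Γ) = (e : ℂ) * θh (m : U)
    rw [hθhM m]
    have h2 := hχhG ⟨((m : U) : Γ), hNG m.2⟩
    have h3 := hres ⟨((m : U) : Γ), m.2⟩
    rw [← h3]
    exact h2
  have hxnU : (⟨x, hxU⟩ : U) ^ G.index ∈ N.subgroupOf U := by
    rw [Subgroup.mem_subgroupOf]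
    exact hxN
  obtain ⟨ι, hι, a, ω, hω, hform⟩ := cyclic_quotient_decomp (N.subgroupOf U) (⟨x, hxU⟩ : U)
    G.index hxnU hgenU hθh hθhres hΞ (e : ℂ) hΞM
  -- coset orthogonality for `θh`
  have hI5 : ∀ k : ℕ, ∑ m : N.subgroupOf U, θh ((m : U) * (⟨x, hxU⟩ : U) ^ k) *
      conj (θh ((m : U) * (⟨x, hxU⟩ : U) ^ k)) = (Nat.card (N.subgroupOf U) : ℂ) := by
    intro k
    have h3 := (Cfsg.Agent.S0868.result (N.subgroupOf U) θh hθh hθhres θh hθh _ rfl).2.2 rfl
    have h4 := congrFun h3 ((⟨x, hxU⟩ : U) ^ k)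
    have hM0 : (Nat.card (N.subgroupOf U) : ℂ) ≠ 0 := by
      exact_mod_cast (Nat.card_pos (α := N.subgroupOf U)).ne'
    have h6 : (Nat.card (N.subgroupOf U) : ℂ) * ((Nat.card (N.subgroupOf U) : ℂ)⁻¹ *
        ∑ m : N.subgroupOf U, θh ((m : U) * (⟨x, hxU⟩ : U) ^ k) *
          conj (θh ((m : U) * (⟨x, hxU⟩ : U) ^ k))) = (Nat.card (N.subgroupOf U) : ℂ) * 1 := by
      rw [h4]
    rw [← mul_assoc, mul_inv_cancel₀ hM0, one_mul, mul_one] at h6
    exact h6
  have hcardM : Nat.card (N.subgroupOf U) = Fintype.card N := by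
    rw [← Nat.card_eq_fintype_card]
    exact Nat.card_congr (Subgroup.subgroupOfEquivOfLe hNU).toEquiv
  have hN0 : (Fintype.card N : ℂ) ≠ 0 := by
    exact_mod_cast Fintype.card_ne_zero
  -- absolute value one off `G`
  have habs : ∀ j, 0 < j → j < G.index →
      (∑ i, (a i : ℂ) * ω i ^ j) * conj (∑ i, (a i : ℂ) * ω i ^ j) = 1 := by
    intro k hk0 hkn
    have h2 := hI3 k hk0 hkn
    have h3 : ∑ m : N, χh ((m : Γ) * x ^ k) * conj (χh ((m : Γ) * x ^ k)) =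
        ∑ m : N.subgroupOf U, χh (((m : U) : Γ) * x ^ k) * conj (χh (((m : U) : Γ) * x ^ k)) :=
      (Fintype.sum_equiv (Subgroup.subgroupOfEquivOfLe hNU).toEquiv _ _ (fun m => rfl)).symm
    rw [h3] at h2
    have h4 : ∀ m : N.subgroupOf U, χh (((m : U) : Γ) * x ^ k) * conj (χh (((m : U) : Γ) * x ^ k)) =
        (θh ((m : U) * (⟨x, hxU⟩ : U) ^ k) * conj (θh ((m : U) * (⟨x, hxU⟩ : U) ^ k))) *
          ((∑ i, (a i : ℂ) * ω i ^ k) * conj (∑ i, (a i : ℂ) * ω i ^ k)) := by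
      intro m
      have h5 := hform k m
      have h6 : χh (((m : U) : Γ) * x ^ k) =
          θh ((m : U) * (⟨x, hxU⟩ : U) ^ k) * ∑ i, (a i : ℂ) * ω i ^ k := h5
      rw [h6, map_mul]
      ring
    rw [Finset.sum_congr rfl (fun m _ => h4 m), ← Finset.sum_mul, hI5 k, hcardM] at h2
    have h7 : (Fintype.card N : ℂ) * ((∑ i, (a i : ℂ) * ω i ^ k) *
        conj (∑ i, (a i : ℂ) * ω i ^ k)) = (Fintype.card N : ℂ) * 1 := by
      rw [h2, mul_one]
    exact mul_left_cancel₀ hN0 h7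
  -- the total multiplicity is `e`
  have hsum : (∑ i, (a i : ℤ)) = (e : ℤ) := by
    have h2 := hform 0 1
    have h3 : χh ((((1 : N.subgroupOf U) : U) * (⟨x, hxU⟩ : U) ^ 0 : U) : Γ) = χh 1 := by
      congr 1
      simp
    have h4 : θh (((1 : N.subgroupOf U) : U) * (⟨x, hxU⟩ : U) ^ 0) = θ 1 := by
      have h5 := hθhM 1
      have h6 : ((1 : N.subgroupOf U) : U) * (⟨x, hxU⟩ : U) ^ 0 = ((1 : N.subgroupOf U) : U) := by
        simp
      rw [h6, h5]
      rfl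
    have h5 : χh 1 = (e : ℂ) * θ 1 := by
      have h6 := hχhG 1
      have h7 := hres 1
      rw [← h7]
      exact h6
    have h8 : χh ((((1 : N.subgroupOf U) : U) * (⟨x, hxU⟩ : U) ^ 0 : U) : Γ) =
        θh (((1 : N.subgroupOf U) : U) * (⟨x, hxU⟩ : U) ^ 0) * ∑ i, (a i : ℂ) * ω i ^ 0 := h2
    rw [h3, h4, h5] at h8
    have hθ1 : θ 1 ≠ 0 := Cfsg.Agent.Lib.Helper80.char_one_ne_zero hθ
    have h9 : (e : ℂ) = ∑ i, (a i : ℂ) := by
      have h10 : θ 1 * (e : ℂ) = θ 1 * ∑ i, (a i : ℂ) := by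
        rw [mul_comm, h8]
        simp
      exact mul_left_cancel₀ hθ1 h10
    have h11 : ((∑ i, (a i : ℤ) : ℤ) : ℂ) = ((e : ℤ) : ℂ) := by
      push_cast
      exact h9.symm
    exact_mod_cast h11
  have hfinal := roots_unity_abs_one G.index hn2 a ω hω habs
  rw [hsum] at hfinal
  exact hfinal

end FrobRamMain

end Cfsg.Agent.Lib.Helper75
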