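import Mathlib
import Cfsg.Agent.Lib.Helper75.FrobRam

/-!
# Fully ramified characters under a cyclic Frobenius action: induced form

The hypothesis `θ^G = e χ` is converted to `χ_N = e θ` and the invariance of `χ`.
-/

set_option autoImplicit false
set_option linter.style.haveILetI false

namespace Cfsg.Agent.Lib.Helper75

open Representation Module
open Cfsg.Agent.Lib.Helper3
open scoped ComplexConjugate

universe u

section FrobRamInd

variable {Γ : Type u} [Group Γ] [Fintype Γ] (G N : Subgroup Γ) [hG : G.Normal] [hN : N.Normal]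
  [Fintype G] [Fintype N]

/-- **fully ramified sections under a cyclic Frobenius action**, induced form -/
theorem fully_ramified_frobenius_ind (hNG : N ≤ G) (hGlt : G ≠ ⊤) (hcyc : IsCyclic (Γ ⧸ G))
    (hfrob : ∀ x : Γ, x ∉ G → ∀ g : Γ, g ∈ G → x * g * x⁻¹ * g⁻¹ ∈ N → g ∈ N)
    {θ : N → ℂ} (hθ : Cfsg.IsIrrCharacter N θ)
    (hinv : ∀ (x : Γ) (m : N), θ ⟨x * m * x⁻¹, hN.conj_mem m m.2 x⟩ = θ m)
    {χ : G → ℂ} (hχ : Cfsg.IsIrrCharacter G χ)
    (e : ℕ)
    (hram : Cfsg.indFun (N.subgroupOf G) (fun n : N.subgroupOf G => θ ⟨(n : G), n.2⟩) =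
      fun g => (e : ℂ) * χ g) :
    (G.index : ℤ) ∣ (e : ℤ) - 1 ∨ (G.index : ℤ) ∣ (e : ℤ) + 1 := by
  classical
  set M : Subgroup G := N.subgroupOf G with hM
  set θ' : M → ℂ := fun n => θ ⟨(n : G), n.2⟩ with hθ'
  have hθ'irr : Cfsg.IsIrrCharacter M θ' :=
    Cfsg.Agent.Lib.Helper80.isIrrCharacter_comp_mulEquiv (Subgroup.subgroupOfEquivOfLe hNG) hθ
  have hχcf := isClassFunction_of_isCharacter (isCharacter_of_irr hχ)
  -- the extension by zero is invariant under conjugation by `Γ`
  have hext : ∀ (y : Γ) (t : G),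
      Cfsg.extendByZero M θ' (MulAut.conjNormal y t) = Cfsg.extendByZero M θ' t := by
    intro y t
    by_cases ht : t ∈ M
    · have ht' : MulAut.conjNormal y t ∈ M := by
        show ((MulAut.conjNormal y t : G) : Γ) ∈ N
        rw [MulAut.conjNormal_apply]
        exact hN.conj_mem t ht y
      rw [extendByZero_mem M θ' ht, extendByZero_mem M θ' ht']
      have h1 := hinv y ⟨(t : Γ), ht⟩
      refine Eq.trans ?_ h1
      show θ _ = θ _
      congr 1
    · have ht' : MulAut.conjNormal y t ∉ M := by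
        intro h
        apply ht
        have h1 : ((MulAut.conjNormal y t : G) : Γ) ∈ N := h
        rw [MulAut.conjNormal_apply] at h1
        have h2 := hN.conj_mem _ h1 y⁻¹
        show (t : Γ) ∈ N
        have h3 : y⁻¹ * (y * (t : Γ) * y⁻¹) * y⁻¹⁻¹ = (t : Γ) := by group
        rw [h3] at h2
        exact h2
      rw [extendByZero_not_mem M θ' ht, extendByZero_not_mem M θ' ht']
  have hM0 : (Nat.card M : ℂ) ≠ 0 := by
    exact_mod_cast (Nat.card_pos (α := M)).ne'
  -- `e ≠ 0`
  have he0 : (e : ℂ) ≠ 0 := by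
    intro h0
    have h1 := congrFun hram 1
    rw [indFun_one, h0, zero_mul] at h1
    have h2 : θ' 1 ≠ 0 := Cfsg.Agent.Lib.Helper80.char_one_ne_zero hθ'irr
    have h3 : (M.index : ℂ) ≠ 0 := by
      exact_mod_cast M.index_ne_zero_of_finite
    exact (mul_ne_zero h3 h2) h1
  -- `χ` is invariant under `Γ`
  have hχinv : ∀ (x : Γ) (g : G), χ ⟨x * g * x⁻¹, hG.conj_mem g g.2 x⟩ = χ g := by
    intro y g
    have h1 := congrFun hram (MulAut.conjNormal y g)
    have h2 := congrFun hram g
    have h3 : Cfsg.indFun M θ' (MulAut.conjNormal y g) = Cfsg.indFun M θ' g := by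
      unfold Cfsg.indFun
      congr 1
      rw [← Equiv.sum_comp (MulAut.conjNormal y : G ≃* G).toEquiv]
      refine Finset.sum_congr rfl (fun x _ => ?_)
      rw [← hext y (x⁻¹ * g * x)]
      congr 1
      simp
    rw [h3, h2] at h1
    have h4 : χ (MulAut.conjNormal y g) = χ g := (mul_left_cancel₀ he0 h1).symm
    rw [← h4]
    congr 1
  -- the induced character on `M`
  have hind : ∀ m : M, (e : ℂ) * χ m = (Nat.card M : ℂ)⁻¹ * (Fintype.card G : ℂ) * θ' m := by
    intro m
    have h1 := congrFun hram (m : G)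
    rw [← h1]
    unfold Cfsg.indFun
    have h2 : ∀ x : G, Cfsg.extendByZero M θ' (x⁻¹ * (m : G) * x) = θ' m := by
      intro x
      have h3 := hext ((x⁻¹ : G) : Γ) (m : G)
      have h4 : MulAut.conjNormal ((x⁻¹ : G) : Γ) (m : G) = x⁻¹ * (m : G) * x := by
        apply Subtype.ext
        rw [MulAut.conjNormal_apply]
        simp
      rw [h4] at h3
      rw [h3, extendByZero_mem M θ' m.2]
    rw [Finset.sum_congr rfl (fun x _ => h2 x)]
    rw [Finset.sum_const, Finset.card_univ, nsmul_eq_mul]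
    ring
  set c : ℂ := (Nat.card M : ℂ)⁻¹ * (Fintype.card G : ℂ) / (e : ℂ) with hc
  have hcconj : conj c = c := by
    rw [hc]
    simp
  have hχM : (fun m : M => χ m) = c • θ' := by
    funext m
    have h1 := hind m
    simp only [Pi.smul_apply, smul_eq_mul]
    rw [hc]
    field_simp
    field_simp at h1
    rw [← h1]
    ring
  -- Frobenius reciprocity
  have hfr := frobenius_reciprocity M θ' hχcf
  rw [hram] at hfr
  have h5 : (fun g : G => (e : ℂ) * χ g) = (e : ℂ) • χ := rfl
  rw [h5, classInner_smul_left, classInner_irr_self hχ, mul_one, hχM, classInner_conj_symm,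
    classInner_smul_left, classInner_irr_self hθ'irr, mul_one, hcconj] at hfr
  -- `χ_N = e θ`
  have hres : ∀ m : N, χ ⟨m, hNG m.2⟩ = (e : ℂ) * θ m := by
    intro m
    have h1 := congrFun hχM ⟨⟨(m : Γ), hNG m.2⟩, m.2⟩
    simp only [Pi.smul_apply, smul_eq_mul] at h1
    rw [← hfr] at h1
    exact h1
  exact fully_ramified_frobenius G N hNG hGlt hcyc hfrob hθ hinv hχ hχinv e hres

end FrobRamInd

end Cfsg.Agent.Lib.Helper75
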