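import Mathlib
import Cfsg.Prelude.Def_Characters
import Cfsg.Prelude.Def_Blocks
import Cfsg.Prelude.Def_CharExt
import Cfsg.Agent.Lib.Helper1.SZInternal
import Cfsg.Agent.Lib.Helper3.CharValues
import Cfsg.Agent.Lib.Helper80.CharKer
import Cfsg.Agent.Lib.Helper75.Glaub7
import Cfsg.Agent.Lib.Helper75.Glaub8
import Cfsg.Agent.Lib.Helper75.CoprimeDeg

/-!
# Characters of degree prime to `|H|` in `G = K ⋊ H` and in `N_G(H)`
-/

set_option autoImplicit false
set_option linter.style.haveILetI false

namespace Cfsg.Agent.Lib.Helper75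

open Representation Module
open Cfsg.Agent.Lib.Helper3
open scoped ComplexConjugate
open scoped Pointwise

universe u v

/-- isomorphic groups have the same number of irreducible characters -/
theorem card_irr_congr {A : Type u} {B : Type v} [Group A] [Group B] (e : A ≃* B) :
    Nat.card (Cfsg.IrrCharacter A) = Nat.card (Cfsg.IrrCharacter B) := by
  apply Nat.card_congr
  exact
    { toFun := fun θ => ⟨fun b => (θ : A → ℂ) (e.symm b),
        Cfsg.Agent.Lib.Helper80.isIrrCharacter_comp_mulEquiv e.symm θ.2⟩
      invFun := fun θ => ⟨fun a => (θ : B → ℂ) (e a),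
        Cfsg.Agent.Lib.Helper80.isIrrCharacter_comp_mulEquiv e θ.2⟩
      left_inv := fun θ => Subtype.ext (funext fun a => by simp)
      right_inv := fun θ => Subtype.ext (funext fun b => by simp) }

section NormHall

variable {G : Type u} [Group G] (K H : Subgroup G) [hK : K.Normal]

include hK in
/-- for a class function on the normal subgroup `K`, invariance under `H` is invariance under
`G = K H` -/
theorem inv_of_sup_eq_top (hKH : K ⊔ H = ⊤) {θ : K → ℂ} (hcf : Cfsg.IsClassFunction K θ)
    (hH : InvS K H θ) : ∀ (g : G) (k : K), θ (MulAut.conjNormal g k) = θ k := by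
  have hKn : ∀ x : G, x ∈ Subgroup.normalizer (K : Set G) := by
    intro x
    rw [Subgroup.normalizer_eq_top]
    trivial
  have h1 : K ≤ stabSub K θ := by
    intro x hx
    refine ⟨hKn x, ?_⟩
    intro g g' hg'
    have e : g' = (⟨x, hx⟩ : K) * g * (⟨x, hx⟩ : K)⁻¹ := Subtype.ext hg'
    rw [e]
    exact hcf g ⟨x, hx⟩
  have h2 : H ≤ stabSub K θ := fun x hx => ⟨hKn x, hH x hx⟩
  have h3 : (⊤ : Subgroup G) ≤ stabSub K θ := by
    rw [← hKH]
    exact sup_le h1 h2
  intro g k
  exact (h3 (Subgroup.mem_top g)).2 k _ (MulAut.conjNormal_apply g k)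

include hK in
/-- elements of `K` normalising the complement `H` centralise it -/
theorem comm_of_mem_normalizer (hcop : (Nat.card K).Coprime (Nat.card H)) {k h : G} (hk : k ∈ K)
    (hkN : k ∈ Subgroup.normalizer (H : Set G)) (hh : h ∈ H) : h * k = k * h := by
  have h1 : k * h * k⁻¹ * h⁻¹ ∈ H :=
    H.mul_mem ((Subgroup.mem_normalizer_iff.1 hkN h).1 hh) (H.inv_mem hh)
  have h2 : k * h * k⁻¹ * h⁻¹ ∈ K := by
    have e : k * h * k⁻¹ * h⁻¹ = k * (h * k⁻¹ * h⁻¹) := by group
    rw [e]
    exact K.mul_mem hk (hK.conj_mem _ (K.inv_mem hk) h)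
  have h3 := Cfsg.Agent.Lib.Helper1.eq_one_of_mem_of_coprime hcop h2 h1
  have h4 : k * h = h * k := by
    have e : k * h = (k * h * k⁻¹ * h⁻¹) * (h * k) := by group
    rw [e, h3, one_mul]
  exact h4.symm

end NormHall

section NormHallMain

variable {G : Type u} [Group G] [Finite G] (K H : Subgroup G) [hK : K.Normal]

omit [Finite G] hK in
theorem centralizer_le_normalizer' : Subgroup.centralizer (H : Set G) ≤
    Subgroup.normalizer (H : Set G) := by
  intro c hc
  rw [Subgroup.mem_centralizer_iff] at hc
  rw [Subgroup.mem_normalizer_iff]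
  intro h
  constructor
  · intro hh
    have e : c * h * c⁻¹ = h := by rw [← hc h hh, mul_inv_cancel_right]
    rw [e]
    exact hh
  · intro hy
    have h1 := hc _ hy
    have e : c * h * c⁻¹ = h := by
      have h2 : c * h * c⁻¹ * c = c * (c * h * c⁻¹) := h1
      have h3 : c * h = c * (c * h * c⁻¹) := by
        rw [← h2]
        group
      exact (mul_left_cancel h3).symm
    rw [← e]
    exact hy

/-- **characters of degree prime to `|H|` in `G = K ⋊ H` and in `N_G(H)`** are equinumerous
(`H` solvable, `(|K|, |H|) = 1`) -/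
theorem card_irr_coprime_degree_normalizer (hKH : K ⊔ H = ⊤)
    (hcop : (Nat.card K).Coprime (Nat.card H)) (hsolv : Group.IsSolvable H) :
    Nat.card {χ : Cfsg.IrrCharacter G // (Cfsg.charDegree (χ : G → ℂ)).Coprime (Nat.card H)} =
      Nat.card {η : Cfsg.IrrCharacter (Subgroup.normalizer (H : Set G)) //
        (Cfsg.charDegree (η : Subgroup.normalizer (H : Set G) → ℂ)).Coprime (Nat.card H)} := by
  classical
  have hHN : H ≤ Subgroup.normalizer (H : Set G) := Subgroup.le_normalizer
  have hL := card_irr_coprime_degree K H hKH hcop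
  have hnorm : ∀ s ∈ H, ∀ g ∈ K, s * g * s⁻¹ ∈ K := fun s _ g hg => hK.conj_mem g hg s
  have hY : Nat.card {θ : Cfsg.IrrCharacter K //
      ∀ (g : G) (k : K), (θ : K → ℂ) (MulAut.conjNormal g k) = (θ : K → ℂ) k} =
      Nat.card (Cfsg.IrrCharacter (K ⊓ Subgroup.centralizer (H : Set G) : Subgroup G)) := by
    rw [← card_inv_irr_eq_solvable K H hnorm hcop hsolv]
    apply Nat.card_congr
    apply Equiv.subtypeEquivRight
    intro θ
    constructor
    · intro h s hs g g' hg'
      have e : g' = MulAut.conjNormal s g :=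
        Subtype.ext (hg'.trans (MulAut.conjNormal_apply s g).symm)
      rw [e]
      exact h s g
    · intro h
      exact inv_of_sup_eq_top K H hKH (isClassFunction_of_isCharacter (isCharacter_of_irr θ.2)) h
  have hKH' : K.subgroupOf (Subgroup.normalizer (H : Set G)) ⊔
      H.subgroupOf (Subgroup.normalizer (H : Set G)) = ⊤ := by
    rw [eq_top_iff]
    intro n _
    have hg : (n : G) ∈ K ⊔ H := hKH ▸ Subgroup.mem_top _
    have hg2 : (n : G) ∈ ((K : Set G) * (H : Set G)) := by
      rw [← Subgroup.normal_mul]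
      exact hg
    obtain ⟨k, hk, h, hh, hkh⟩ := Set.mem_mul.1 hg2
    have hkN : k ∈ Subgroup.normalizer (H : Set G) := by
      have e : k = (n : G) * h⁻¹ := by
        rw [← hkh]
        group
      rw [e]
      exact Subgroup.mul_mem _ n.2 (Subgroup.inv_mem _ (hHN hh))
    have e : n = (⟨k, hkN⟩ : Subgroup.normalizer (H : Set G)) * ⟨h, hHN hh⟩ :=
      Subtype.ext hkh.symm
    rw [e]
    exact Subgroup.mul_mem_sup (Subgroup.mem_subgroupOf.2 hk) (Subgroup.mem_subgroupOf.2 hh)
  have hcardH : Nat.card (H.subgroupOf (Subgroup.normalizer (H : Set G))) = Nat.card H :=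
    Nat.card_congr (Subgroup.subgroupOfEquivOfLe hHN).toEquiv
  have hmemC : ∀ x : K.subgroupOf (Subgroup.normalizer (H : Set G)),
      ((x : Subgroup.normalizer (H : Set G)) : G) ∈ K ⊓ Subgroup.centralizer (H : Set G) := by
    intro x
    rw [Subgroup.mem_inf, Subgroup.mem_centralizer_iff]
    exact ⟨Subgroup.mem_subgroupOf.1 x.2, fun h hh =>
      comm_of_mem_normalizer K H hcop (Subgroup.mem_subgroupOf.1 x.2) x.1.2 hh⟩
  let e : K.subgroupOf (Subgroup.normalizer (H : Set G)) ≃*
      (K ⊓ Subgroup.centralizer (H : Set G) : Subgroup G) :=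
    { toFun := fun x => ⟨((x : Subgroup.normalizer (H : Set G)) : G), hmemC x⟩
      invFun := fun c => ⟨⟨(c : G), centralizer_le_normalizer' H (Subgroup.mem_inf.1 c.2).2⟩,
        Subgroup.mem_subgroupOf.2 (Subgroup.mem_inf.1 c.2).1⟩
      left_inv := fun x => Subtype.ext (Subtype.ext rfl)
      right_inv := fun c => Subtype.ext rfl
      map_mul' := fun x y => Subtype.ext rfl }
  have hcop' : (Nat.card (K.subgroupOf (Subgroup.normalizer (H : Set G)))).Coprime
      (Nat.card (H.subgroupOf (Subgroup.normalizer (H : Set G)))) := by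
    rw [hcardH, Nat.card_congr e.toEquiv]
    exact Nat.Coprime.coprime_dvd_left (Subgroup.card_dvd_of_le inf_le_left) hcop
  have hR := card_irr_coprime_degree (K.subgroupOf (Subgroup.normalizer (H : Set G)))
    (H.subgroupOf (Subgroup.normalizer (H : Set G))) hKH' hcop'
  rw [hcardH] at hR
  have hcent : K.subgroupOf (Subgroup.normalizer (H : Set G)) ≤
      Subgroup.centralizer ((H.subgroupOf (Subgroup.normalizer (H : Set G)) :
        Subgroup (Subgroup.normalizer (H : Set G))) : Set (Subgroup.normalizer (H : Set G))) := by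
    intro x hx
    rw [Subgroup.mem_centralizer_iff]
    intro h hh
    exact Subtype.ext (comm_of_mem_normalizer K H hcop (Subgroup.mem_subgroupOf.1 hx) x.2
      (Subgroup.mem_subgroupOf.1 hh))
  have hY' : Nat.card {θ : Cfsg.IrrCharacter (K.subgroupOf (Subgroup.normalizer (H : Set G))) //
      ∀ (g : Subgroup.normalizer (H : Set G)) (k : K.subgroupOf (Subgroup.normalizer (H : Set G))),
        (θ : K.subgroupOf (Subgroup.normalizer (H : Set G)) → ℂ) (MulAut.conjNormal g k) =
          (θ : K.subgroupOf (Subgroup.normalizer (H : Set G)) → ℂ) k} =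
      Nat.card (Cfsg.IrrCharacter (K ⊓ Subgroup.centralizer (H : Set G) : Subgroup G)) := by
    rw [← card_irr_congr e]
    apply Nat.card_congr
    apply Equiv.subtypeUnivEquiv
    intro θ
    exact inv_of_sup_eq_top _ _ hKH' (isClassFunction_of_isCharacter (isCharacter_of_irr θ.2))
      (invS_of_le_centralizer hcent _)
  have hHom : Nat.card (H.subgroupOf (Subgroup.normalizer (H : Set G)) →* ℂˣ) =
      Nat.card (H →* ℂˣ) := by
    apply Nat.card_congr
    exact
      { toFun := fun φ => φ.comp (Subgroup.subgroupOfEquivOfLe hHN).symm.toMonoidHom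
        invFun := fun ψ => ψ.comp (Subgroup.subgroupOfEquivOfLe hHN).toMonoidHom
        left_inv := fun φ => by
          ext x
          simp
        right_inv := fun ψ => by
          ext x
          simp }
  rw [hL, hY, hR, hY', hHom]

end NormHallMain

end Cfsg.Agent.Lib.Helper75
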