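import Mathlib

/-!
# Minimal supplements and torsion parts of central subgroups

* `exists_supplement_primes`: a normal subgroup `G` of a finite group has a supplement `S`
  all of whose prime divisors divide `|Γ : G|` (a minimal supplement).
* `torsionSub Z hZ s`: the elements of a central subgroup `Z` of `s`-power order.
-/

set_option autoImplicit false
set_option linter.unusedSectionVars false
set_option linter.style.haveILetI false

namespace Cfsg.Agent.Lib.Helper75

universe u

/-- a minimal supplement of a normal subgroup involves only the primes of the index -/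
theorem exists_supplement_primes {Γ : Type u} [Group Γ] [Finite Γ] (G : Subgroup Γ) [G.Normal] :
    ∃ S : Subgroup Γ, G ⊔ S = ⊤ ∧ ∀ p : ℕ, p.Prime → p ∣ Nat.card S → p ∣ G.index := by
  classical
  obtain ⟨S, hS, hmin⟩ := WellFounded.has_min (wellFounded_lt (α := Subgroup Γ))
    {K | G ⊔ K = ⊤} ⟨⊤, sup_top_eq G⟩
  have hS' : G ⊔ S = ⊤ := hS
  refine ⟨S, hS', fun p hp hpS => ?_⟩
  by_contra hpG
  haveI : Fact p.Prime := ⟨hp⟩
  set D : Subgroup S := G.subgroupOf S with hD
  have hDidx : D.index = G.index := by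
    show G.relIndex S = G.index
    rw [← Subgroup.relIndex_sup_left, hS', Subgroup.relIndex_top_right]
  have hpD : p ∣ Nat.card D := by
    have h1 : Nat.card D * D.index = Nat.card S := Subgroup.card_mul_index D
    rw [← h1, hDidx] at hpS
    exact (hp.dvd_mul.1 hpS).resolve_right hpG
  obtain ⟨P⟩ : Nonempty (Sylow p D) := Sylow.nonempty
  have hPne : (P : Subgroup D) ≠ ⊥ := P.ne_bot_of_dvd_card hpD
  set Q : Subgroup S := (P : Subgroup D).map D.subtype with hQ
  have hQne : Q ≠ ⊥ := by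
    intro h
    rw [hQ, Subgroup.map_eq_bot_iff_of_injective _ D.subtype_injective] at h
    exact hPne h
  have hQG : Q.map S.subtype ≤ G := by
    have h1 : Q ≤ D := Subgroup.map_subtype_le _
    have h2 : Q.map S.subtype ≤ D.map S.subtype := Subgroup.map_mono h1
    rw [hD, Subgroup.subgroupOf_map_subtype] at h2
    exact h2.trans inf_le_left
  have hfrat : Subgroup.normalizer (Q : Set S) ⊔ D = ⊤ := Sylow.normalizer_sup_eq_top P
  have htop : (⊤ : Subgroup S).map S.subtype = S := by
    rw [← MonoidHom.range_eq_map, Subgroup.range_subtype]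
  have key : ∀ K' : Subgroup S, K' ≠ ⊤ → G ⊔ K'.map S.subtype = ⊤ → False := by
    intro K' hK' hsup
    apply hmin (K'.map S.subtype) hsup
    refine lt_of_le_of_ne (Subgroup.map_subtype_le _) (fun h => hK' ?_)
    apply Subgroup.map_injective S.subtype_injective
    rw [htop, h]
  by_cases hM : Subgroup.normalizer (Q : Set S) = ⊤
  · haveI hQn : Q.Normal := Subgroup.normalizer_eq_top_iff.1 hM
    have hQidx : ¬ p ∣ Q.index := by
      rw [hQ, Subgroup.index_map_subtype, hDidx]
      intro h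
      rcases hp.dvd_mul.1 h with h1 | h1
      · exact P.not_dvd_index h1
      · exact hpG h1
    obtain ⟨n, hn⟩ := (IsPGroup.iff_card.1 P.isPGroup')
    have hQcard : Nat.card Q = p ^ n := by
      rw [← hn, hQ]
      exact Nat.card_congr (Subgroup.equivMapOfInjective _ _ D.subtype_injective).toEquiv.symm
    have hcop : (Nat.card Q).Coprime Q.index := by
      rw [hQcard]
      exact Nat.Coprime.pow_left n ((Nat.Prime.coprime_iff_not_dvd hp).2 hQidx)
    obtain ⟨K', hK'⟩ := Subgroup.exists_right_complement'_of_coprime hcop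
    apply key K'
    · intro h
      rw [h] at hK'
      exact hQne (Subgroup.isComplement'_top_right.1 hK')
    · have h1 : Q ⊔ K' = ⊤ := hK'.sup_eq_top
      have h2 : Q.map S.subtype ⊔ K'.map S.subtype = S := by
        rw [← Subgroup.map_sup, h1, htop]
      apply top_le_iff.1
      rw [← hS']
      refine sup_le le_sup_left ?_
      refine le_of_eq_of_le h2.symm ?_
      exact sup_le (hQG.trans le_sup_left) le_sup_right
  · apply key _ hM
    have h2 : (Subgroup.normalizer (Q : Set S)).map S.subtype ⊔ D.map S.subtype = S := by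
      rw [← Subgroup.map_sup, hfrat, htop]
    have h3 : D.map S.subtype ≤ G := by
      rw [hD, Subgroup.subgroupOf_map_subtype]
      exact inf_le_left
    apply top_le_iff.1
    rw [← hS']
    refine sup_le le_sup_left ?_
    refine le_of_eq_of_le h2.symm ?_
    exact sup_le le_sup_right (h3.trans le_sup_left)

/-- an element of order prime to `n` whose `n`-th power lies in `K` lies in `K` -/
theorem mem_of_pow_mem_of_coprime {Γ : Type*} [Group Γ] (K : Subgroup Γ) (s : Γ) (m n : ℕ)
    (h1 : s ^ m = 1) (h2 : s ^ n ∈ K) (hcop : m.Coprime n) : s ∈ K := by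
  have h4 := Nat.gcd_eq_gcd_ab m n
  rw [hcop.gcd_eq_one] at h4
  have h5 : s ^ (1 : ℤ) = s ^ ((m : ℤ) * Nat.gcdA m n + (n : ℤ) * Nat.gcdB m n) := by
    rw [← h4]
    simp
  rw [zpow_one, zpow_add, zpow_mul, zpow_mul, zpow_natCast, zpow_natCast, h1, one_zpow,
    one_mul] at h5
  rw [h5]
  exact zpow_mem h2 _

/-- the elements of `s`-power order in a central subgroup -/
def torsionSub {Γ : Type*} [Group Γ] (Z : Subgroup Γ) (hZ : Z ≤ Subgroup.center Γ) (s : ℕ) :
    Subgroup Γ where
  carrier := {z | z ∈ Z ∧ ∃ j : ℕ, z ^ (s ^ j) = 1}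
  mul_mem' := by
    rintro a b ⟨ha, i, hi⟩ ⟨hb, j, hj⟩
    refine ⟨mul_mem ha hb, i + j, ?_⟩
    have hc : Commute a b := Subgroup.mem_center_iff.1 (hZ hb) a
    rw [hc.mul_pow, pow_add, pow_mul, hi, one_pow, mul_comm (s ^ i), pow_mul, hj, one_pow,
      one_mul]
  one_mem' := ⟨one_mem _, 0, one_pow _⟩
  inv_mem' := by
    rintro a ⟨ha, i, hi⟩
    exact ⟨inv_mem ha, i, by rw [inv_pow, hi, inv_one]⟩

theorem mem_torsionSub {Γ : Type*} [Group Γ] (Z : Subgroup Γ) (hZ : Z ≤ Subgroup.center Γ)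
    (s : ℕ) (z : Γ) : z ∈ torsionSub Z hZ s ↔ z ∈ Z ∧ ∃ j : ℕ, z ^ (s ^ j) = 1 := Iff.rfl

theorem torsionSub_le {Γ : Type*} [Group Γ] (Z : Subgroup Γ) (hZ : Z ≤ Subgroup.center Γ)
    (s : ℕ) : torsionSub Z hZ s ≤ Z := fun _ h => h.1

instance torsionSub_normal {Γ : Type*} [Group Γ] (Z : Subgroup Γ) (hZ : Z ≤ Subgroup.center Γ)
    (s : ℕ) : (torsionSub Z hZ s).Normal := by
  constructor
  intro n hn g
  have h1 : g * n * g⁻¹ = n := by
    rw [Subgroup.mem_center_iff.1 (hZ hn.1) g, mul_inv_cancel_right]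
  rw [h1]
  exact hn

/-- the primes dividing the order of the torsion part divide `s` -/
theorem prime_dvd_of_dvd_card_torsionSub {Γ : Type*} [Group Γ] [Finite Γ] (Z : Subgroup Γ)
    (hZ : Z ≤ Subgroup.center Γ) (s : ℕ) (q : ℕ) (hq : q.Prime)
    (hdvd : q ∣ Nat.card (torsionSub Z hZ s)) : q ∣ s := by
  haveI : Fact q.Prime := ⟨hq⟩
  obtain ⟨z, hz⟩ := exists_prime_orderOf_dvd_card' q hdvd
  obtain ⟨j, hj⟩ := z.2.2
  have h1 : orderOf (z : Γ) ∣ s ^ j := orderOf_dvd_of_pow_eq_one hj
  rw [Subgroup.orderOf_coe, hz] at h1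
  exact hq.dvd_of_dvd_pow h1

/-- the index of the torsion part in `Z` is prime to `s` -/
theorem coprime_relIndex_torsionSub {Γ : Type*} [Group Γ] [Finite Γ] (Z : Subgroup Γ)
    (hZ : Z ≤ Subgroup.center Γ) (s : ℕ) : s.Coprime ((torsionSub Z hZ s).relIndex Z) := by
  apply Nat.coprime_of_dvd
  intro p hp hps hpr
  haveI : Fact p.Prime := ⟨hp⟩
  set T : Subgroup Z := (torsionSub Z hZ s).subgroupOf Z with hT
  haveI hTn : T.Normal := by
    constructor
    intro n hn g
    have h1 : g * n * g⁻¹ = n := by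
      apply Subtype.ext
      show (g : Γ) * n * (g : Γ)⁻¹ = n
      rw [Subgroup.mem_center_iff.1 (hZ n.2) g, mul_inv_cancel_right]
    rw [h1]
    exact hn
  have hcard : p ∣ Nat.card (Z ⧸ T) := by
    rw [← Subgroup.index_eq_card]
    exact hpr
  obtain ⟨y, hy⟩ := exists_prime_orderOf_dvd_card' p hcard
  obtain ⟨z, rfl⟩ := QuotientGroup.mk_surjective y
  have h1 : ((z ^ p : Z) : Z ⧸ T) = 1 := by
    rw [QuotientGroup.mk_pow, ← hy, pow_orderOf_eq_one]
  rw [QuotientGroup.eq_one_iff] at h1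
  obtain ⟨j, hj⟩ := (show ((z ^ p : Z) : Γ) ∈ torsionSub Z hZ s from h1).2
  have h2 : z ∈ T := by
    show (z : Γ) ∈ torsionSub Z hZ s
    refine ⟨z.2, j + 1, ?_⟩
    obtain ⟨t, ht⟩ := hps
    have h3 : s ^ (j + 1) = p * s ^ j * t := by
      have h5 : s ^ j * (p * t) = p * s ^ j * t := by ring
      rw [pow_succ, ← h5, ← ht]
    rw [h3, pow_mul, pow_mul]
    rw [Subgroup.coe_pow] at hj
    rw [hj, one_pow]
  have h4 : ((z : Z) : Z ⧸ T) = 1 := (QuotientGroup.eq_one_iff z).2 h2
  rw [h4, orderOf_one] at hy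
  exact hp.one_lt.ne hy

end Cfsg.Agent.Lib.Helper75
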