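import Mathlib
import Cfsg.Prelude.Def_Characters
import Cfsg.Agent.Lib.Helper75.Supp
import Cfsg.Agent.Lib.Helper75.Gallagher2
import Cfsg.Agent.Lib.Helper75.CentExt7
import Cfsg.Agent.Lib.Helper15.LinIrr
import Cfsg.Agent.Lib.Helper81.GlaubAbove

/-!
# Invariant characters over a central subgroup (Isaacs 13.31, central case)

`Z ≤ G` with `Z` central in `Γ`, `G ⊴ Γ`, `(|Γ:G|, |G:Z|) = 1` and `Γ/G` solvable: every
linear character of `Z` lies under a `Γ`-invariant irreducible character of `G`.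
-/

set_option autoImplicit false
set_option linter.unusedSectionVars false
set_option linter.style.haveILetI false
set_option maxHeartbeats 1000000

namespace Cfsg.Agent.Lib.Helper75

open scoped ComplexConjugate

universe u

theorem inv_constituent_central {Γ : Type u} [Group Γ] [Fintype Γ] (G Z : Subgroup Γ)
    [hG : G.Normal] [Fintype G]
    (hZG : Z ≤ G) (hZc : Z ≤ Subgroup.center Γ) (hcop : (G.index).Coprime (Z.relIndex G))
    (hsolv : Group.IsSolvable (Γ ⧸ G)) (lam : Z →* ℂˣ) :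
    ∃ β : G → ℂ, Cfsg.IsIrrCharacter G β ∧
      (∀ z : Z, β ⟨z, hZG z.2⟩ = β 1 * ((lam z : ℂˣ) : ℂ)) ∧
      ∀ (x : Γ) (g : G), β ⟨x * g * x⁻¹, hG.conj_mem g g.2 x⟩ = β g := by
  classical
  -- (1) a supplement of `G` involving only primes of `|Γ : G|`
  obtain ⟨S, hS, hSp⟩ := exists_supplement_primes G
  set s := Nat.card S with hs
  have hs1 : s.Coprime (Z.relIndex G) := by
    apply Nat.coprime_of_dvd
    intro p hp h1 h2
    have h3 := hSp p hp h1
    have h4 := Nat.dvd_gcd h3 h2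
    rw [hcop.gcd_eq_one] at h4
    exact hp.one_lt.ne' (Nat.dvd_one.1 h4)
  -- (2) the torsion part of `Z`
  set T := torsionSub Z hZc s with hT
  have hTZ : T ≤ Z := torsionSub_le Z hZc s
  have hTG : T ≤ G := hTZ.trans hZG
  have hs2 : s.Coprime (T.relIndex G) := by
    rw [← Subgroup.relIndex_mul_relIndex T Z G hTZ hZG]
    exact Nat.Coprime.mul_right (coprime_relIndex_torsionSub Z hZc s) hs1
  have hTcard : (Nat.card T).Coprime (T.relIndex G) := by
    apply Nat.coprime_of_dvd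
    intro q hq h1 h2
    have h3 := prime_dvd_of_dvd_card_torsionSub Z hZc s q hq h1
    have h4 := Nat.dvd_gcd h3 h2
    rw [hs2.gcd_eq_one] at h4
    exact hq.one_lt.ne' (Nat.dvd_one.1 h4)
  -- (3) `S ∩ G ≤ Z`
  haveI hZGn : (Z.subgroupOf G).Normal := by
    constructor
    intro n hn g
    have h1 : g * n * g⁻¹ = n := by
      apply Subtype.ext
      show (g : Γ) * n * (g : Γ)⁻¹ = n
      have hc := Subgroup.mem_center_iff.1 (hZc (show (n : Γ) ∈ Z from hn)) (g : Γ)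
      rw [hc, mul_inv_cancel_right]
    rw [h1]
    exact hn
  have hSG : ∀ x ∈ S, x ∈ G → x ∈ Z := by
    intro x hxS hxG
    apply mem_of_pow_mem_of_coprime Z x s (Z.relIndex G) _ _ hs1
    · have h1 : (⟨x, hxS⟩ : S) ^ Nat.card S = 1 := pow_card_eq_one'
      have h2 : ((⟨x, hxS⟩ : S) : Γ) ^ Nat.card S = 1 := by
        rw [← Subgroup.coe_pow, h1]
        rfl
      exact h2
    · have h1 : (⟨x, hxG⟩ : G) ^ (Z.subgroupOf G).index ∈ Z.subgroupOf G :=
        Subgroup.pow_index_mem _ _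
      exact h1
  -- (4) `S` is solvable
  have hSsolv : Group.IsSolvable S := by
    let ψ : S →* Γ ⧸ G := (QuotientGroup.mk' G).comp S.subtype
    have hker : ∀ a b : ψ.ker, a * b = b * a := by
      intro a b
      have ha : ((a : S) : Γ) ∈ G := by
        have h1 := a.2
        rw [MonoidHom.mem_ker] at h1
        exact (QuotientGroup.eq_one_iff _).1 h1
      have haZ := hSG _ (a : S).2 ha
      apply Subtype.ext
      apply Subtype.ext
      show ((a : S) : Γ) * ((b : S) : Γ) = ((b : S) : Γ) * ((a : S) : Γ)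
      exact (Subgroup.mem_center_iff.1 (hZc haZ) _).symm
    haveI : Group.IsSolvable ψ.ker := Group.isSolvable_of_comm hker
    haveI := hsolv
    exact Group.isSolvable_of_ker_le_range ψ.ker.subtype ψ (by rw [Subgroup.range_subtype])
  -- (5) the linear character `μ` of `G` extending `lam` on `T`
  set TG : Subgroup G := T.subgroupOf G with hTGdef
  haveI hTGn : TG.Normal := by
    constructor
    intro n hn g
    have h1 : g * n * g⁻¹ = n := by
      apply Subtype.ext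
      show (g : Γ) * n * (g : Γ)⁻¹ = n
      have hc := Subgroup.mem_center_iff.1 (hZc (hTZ (show (n : Γ) ∈ T from hn))) (g : Γ)
      rw [hc, mul_inv_cancel_right]
    rw [h1]
    exact hn
  let ιT : TG →* Z :=
    { toFun := fun x => ⟨((x : G) : Γ), hTZ x.2⟩
      map_one' := rfl
      map_mul' := fun _ _ => rfl }
  let lamT : TG →* ℂˣ := lam.comp ιT
  have hlamT_inv : ∀ (g : G) (n : TG), lamT (MulAut.conjNormal g n) = lamT n := by
    intro g n
    have h1 : MulAut.conjNormal g n = n := by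
      apply Subtype.ext
      apply Subtype.ext
      show (g : Γ) * ((n : G) : Γ) * (g : Γ)⁻¹ = ((n : G) : Γ)
      have hc := Subgroup.mem_center_iff.1 (hZc (hTZ (show ((n : G) : Γ) ∈ T from n.2))) (g : Γ)
      rw [hc, mul_inv_cancel_right]
    rw [h1]
  set e := Nat.card T with he
  have hlamT_e : ∀ n : TG, lamT n ^ e = 1 := by
    intro n
    rw [← map_pow]
    have h0 : n ^ e = 1 := by
      apply Subtype.ext
      apply Subtype.ext
      have h1 : (⟨((n : G) : Γ), n.2⟩ : T) ^ Nat.card T = 1 := pow_card_eq_one'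
      have h2 : ((⟨((n : G) : Γ), n.2⟩ : T) : Γ) ^ Nat.card T = 1 := by
        rw [← Subgroup.coe_pow, h1]
        rfl
      show (((n ^ e : TG) : G) : Γ) = 1
      rw [Subgroup.coe_pow, Subgroup.coe_pow]
      exact h2
    rw [h0, map_one]
  have hcopμ : Nat.Coprime TG.index e := hTcard.symm
  obtain ⟨μ, hμT, hμe⟩ := exists_lin_extension_of_coprime TG lamT hlamT_inv e hlamT_e hcopμ
  have hμinv : ∀ (x : Γ) (g : G), μ ⟨x * g * x⁻¹, hG.conj_mem g g.2 x⟩ = μ g := by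
    intro x g
    let μx : G →* ℂˣ := μ.comp (MulAut.conjNormal x : MulAut G).toMonoidHom
    have hν : ∀ n : TG, (μx * μ⁻¹) n = 1 := by
      intro n
      show μ (MulAut.conjNormal x (n : G)) * (μ n)⁻¹ = 1
      have h1 : MulAut.conjNormal x (n : G) = n := by
        apply Subtype.ext
        show x * ((n : G) : Γ) * x⁻¹ = _
        have hc := Subgroup.mem_center_iff.1 (hZc (hTZ (show ((n : G) : Γ) ∈ T from n.2))) x
        rw [hc, mul_inv_cancel_right]
      rw [h1, mul_inv_cancel]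
    have h1 := hom_pow_index_eq_one TG (μx * μ⁻¹) hν g
    have h2 : (μx * μ⁻¹) g ^ e = 1 := by
      show (μ (MulAut.conjNormal x g) * (μ g)⁻¹) ^ e = 1
      rw [mul_pow, inv_pow, hμe, hμe, inv_one, mul_one]
    have h3 : (μx * μ⁻¹) g ^ (Nat.gcd TG.index e) = 1 := pow_gcd_eq_one.2 ⟨h1, h2⟩
    rw [hcopμ.gcd_eq_one, pow_one] at h3
    have h4 : μ (MulAut.conjNormal x g) * (μ g)⁻¹ = 1 := h3
    exact mul_inv_eq_one.1 h4
  -- (6) the twisted character and the quotient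
  let ιZ : Z →* G := Subgroup.inclusion hZG
  let lam2 : Z →* ℂˣ := lam * (μ.comp ιZ)⁻¹
  have hlam2T : ∀ z : Z, (z : Γ) ∈ T → lam2 z = 1 := by
    intro z hz
    show lam z * (μ (ιZ z))⁻¹ = 1
    have h1 := hμT ⟨ιZ z, hz⟩
    have h2 : lamT ⟨ιZ z, hz⟩ = lam z := rfl
    have h3 : μ (ιZ z) = lam z := by rw [← h2, ← h1]
    rw [h3, mul_inv_cancel]
  let q : Γ →* Γ ⧸ T := QuotientGroup.mk' T
  have hq : Function.Surjective q := QuotientGroup.mk'_surjective T
  let Gb : Subgroup (Γ ⧸ T) := G.map q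
  let Zb : Subgroup (Γ ⧸ T) := Z.map q
  let φ : Γ →* MulAut (Γ ⧸ T) := (MulAut.conj).comp q
  let A : Subgroup (MulAut (Γ ⧸ T)) := S.map φ
  haveI : Fintype (Γ ⧸ T) := Fintype.ofFinite _
  haveI : Fintype Gb := Fintype.ofFinite _
  haveI : Fintype Zb := Fintype.ofFinite _
  have hZbGb : Zb ≤ Gb := Subgroup.map_mono hZG
  have hZbc : ∀ y ∈ Zb, ∀ w : Γ ⧸ T, w * y = y * w := by
    rintro _ ⟨z, hz, rfl⟩ w
    obtain ⟨w', rfl⟩ := hq w
    rw [← map_mul, ← map_mul, Subgroup.mem_center_iff.1 (hZc hz) w']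
  have hnorm : Gb ≤ Subgroup.normalizer (Zb : Set (Γ ⧸ T)) := by
    intro g _
    rw [Subgroup.mem_normalizer_iff]
    intro y
    constructor
    · intro hy
      rw [hZbc y hy g, mul_inv_cancel_right]
      exact hy
    · intro hy
      have h1 := hZbc _ hy g⁻¹
      have h3 : g⁻¹ * (g * y * g⁻¹) = y * g⁻¹ := by group
      rw [h3] at h1
      have h2 : y = g * y * g⁻¹ := mul_right_cancel h1
      rw [h2]
      exact hy
  have hGbn : ∀ w : Γ ⧸ T, ∀ g ∈ Gb, w * g * w⁻¹ ∈ Gb := by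
    intro w g hg
    obtain ⟨w', rfl⟩ := hq w
    obtain ⟨g', hg', rfl⟩ := hg
    exact ⟨w' * g' * w'⁻¹, hG.conj_mem g' hg' w', by simp⟩
  have hAG : ∀ a ∈ A, ∀ g ∈ Gb, a g ∈ Gb := by
    rintro _ ⟨x, hx, rfl⟩ g hg
    exact hGbn (q x) g hg
  have hAN : ∀ a ∈ A, ∀ n ∈ Zb, a n ∈ Zb := by
    rintro _ ⟨x, hx, rfl⟩ n hn
    have h1 : φ x n = n := by
      show q x * n * (q x)⁻¹ = n
      rw [hZbc n hn (q x), mul_inv_cancel_right]
    rw [h1]
    exact hn
  have hcardGb : Nat.card Gb = T.relIndex G := by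
    have h1 : (q.comp G.subtype).range = Gb := by
      rw [← MonoidHom.map_range, Subgroup.range_subtype]
    have h2 : (q.comp G.subtype).ker = T.subgroupOf G := by
      rw [← MonoidHom.comap_ker, QuotientGroup.ker_mk']
      rfl
    have h3 := Subgroup.index_ker (q.comp G.subtype)
    rw [h1, h2] at h3
    exact h3.symm
  have hAcard : Nat.card A ∣ s :=
    Subgroup.card_dvd_of_surjective (φ.subgroupMap S) (φ.subgroupMap_surjective S)
  have hcopA : (Nat.card A).Coprime (Nat.card Gb) := by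
    rw [hcardGb]
    exact Nat.Coprime.coprime_dvd_left hAcard hs2
  have hAsolv : Group.IsSolvable A := by
    haveI := hSsolv
    exact Group.isSolvable_of_surjective (φ.subgroupMap_surjective S)
  let qZ : Z →* Zb := q.subgroupMap Z
  have hqZ : Function.Surjective qZ := q.subgroupMap_surjective Z
  have hlam2irr : Cfsg.IsIrrCharacter Z (fun z => ((lam2 z : ℂˣ) : ℂ)) :=
    Helper80.isIrrCharacter_of_hom lam2
  obtain ⟨θb, hθb, hθbeq⟩ := exists_irr_descend qZ hqZ hlam2irr (by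
    intro z hz
    rw [MonoidHom.mem_ker] at hz
    have h1 : q (z : Γ) = 1 := congrArg Subtype.val hz
    have h2 : (z : Γ) ∈ T := (QuotientGroup.eq_one_iff _).1 h1
    show ((lam2 z : ℂˣ) : ℂ) = ((lam2 1 : ℂˣ) : ℂ)
    rw [hlam2T z h2, map_one])
  have hθbinv : Helper81.InvR A Zb θb := by
    rintro _ ⟨x, hx, rfl⟩ n h
    congr 1
    apply Subtype.ext
    show q x * (n : Γ ⧸ T) * (q x)⁻¹ = n
    rw [hZbc n n.2 (q x), mul_inv_cancel_right]
  obtain ⟨βb, hβb, hβbne, hβbinv⟩ := Helper81.inv_constituent_above_solv A hAsolv Gb Zb hZbGb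
    hnorm hAG hAN hcopA hθb hθbinv
  have hβbZ := res_central_eq Gb Zb hZbGb (fun z hz g _ => (hZbc z hz g).symm) hβb hθb hβbne
  -- (7) the character `β`
  let qG : G →* Gb := q.subgroupMap G
  have hqG : Function.Surjective qG := q.subgroupMap_surjective G
  have hβ1 : Cfsg.IsIrrCharacter G (fun g => βb (qG g)) :=
    Helper80.isIrrCharacter_comp qG hqG hβb
  have hμc : Cfsg.IsCharacter G (fun g => ((μ g : ℂˣ) : ℂ)) := Helper15.isCharacter_of_hom μ
  have hβirr := Helper15.isIrrCharacter_lin_mul hμc (by simp) hβ1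
  have hβbcf := Helper80.isClassFunction_of_isCharacter (Helper80.isCharacter_of_isIrrCharacter hβb)
  refine ⟨(fun g => ((μ g : ℂˣ) : ℂ)) * (fun g => βb (qG g)), hβirr, ?_, ?_⟩
  · intro z
    show ((μ ⟨z, hZG z.2⟩ : ℂˣ) : ℂ) * βb (qG ⟨z, hZG z.2⟩) =
      ((μ 1 : ℂˣ) : ℂ) * βb (qG 1) * ((lam z : ℂˣ) : ℂ)
    have h1 : qG ⟨z, hZG z.2⟩ = ⟨(qZ z : Γ ⧸ T), hZbGb (qZ z).2⟩ := rfl
    rw [h1, hβbZ (qZ z), hθbeq z, map_one, map_one, Units.val_one, one_mul]
    have h2 : ((lam2 z : ℂˣ) : ℂ) = ((lam z : ℂˣ) : ℂ) * ((μ ⟨z, hZG z.2⟩ : ℂˣ) : ℂ)⁻¹ := by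
      show (((lam z * (μ (ιZ z))⁻¹ : ℂˣ)) : ℂ) = _
      rw [Units.val_mul, Units.val_inv_eq_inv_val]
      rfl
    rw [h2]
    have h3 : ((μ ⟨z, hZG z.2⟩ : ℂˣ) : ℂ) ≠ 0 := Units.ne_zero _
    field_simp
  · intro x g
    show ((μ ⟨x * g * x⁻¹, hG.conj_mem g g.2 x⟩ : ℂˣ) : ℂ) *
        βb (qG ⟨x * g * x⁻¹, hG.conj_mem g g.2 x⟩) = ((μ g : ℂˣ) : ℂ) * βb (qG g)
    rw [hμinv x g]
    congr 1
    have hx : x ∈ G ⊔ S := by rw [hS]; exact Subgroup.mem_top x
    rw [Subgroup.mem_sup_of_normal_left] at hx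
    obtain ⟨g₀, hg₀, s₀, hs₀, rfl⟩ := hx
    have hmem : φ s₀ ((qG g : Gb) : Γ ⧸ T) ∈ Gb := hAG _ ⟨s₀, hs₀, rfl⟩ _ (qG g).2
    have h1 : qG ⟨g₀ * s₀ * g * (g₀ * s₀)⁻¹, hG.conj_mem g g.2 (g₀ * s₀)⟩ =
        qG ⟨g₀, hg₀⟩ * ⟨φ s₀ ((qG g : Gb) : Γ ⧸ T), hmem⟩ * (qG ⟨g₀, hg₀⟩)⁻¹ := by
      apply Subtype.ext
      show q (g₀ * s₀ * g * (g₀ * s₀)⁻¹) = q g₀ * (q s₀ * q g * (q s₀)⁻¹) * (q g₀)⁻¹
      simp only [map_mul, map_inv, mul_inv_rev, mul_assoc]
    rw [h1, hβbcf]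
    exact hβbinv (φ s₀) ⟨s₀, hs₀, rfl⟩ (qG g) hmem

end Cfsg.Agent.Lib.Helper75
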