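import Mathlib
import Cfsg.Prelude.Def_Characters
import Cfsg.Agent.Lib.Helper75.CentExt2
import Cfsg.Agent.Lib.Helper75.ItoSolv
import Cfsg.Agent.Lib.Helper75.Gallagher2
import Cfsg.Agent.Lib.Helper75.RelCentral
import Cfsg.Agent.Lib.Helper81.CoprimeChar

/-!
# Isaacs 13.31 when `Γ/G` is solvable: reduction to a central subgroup

`N ≤ G` normal in `Γ`, `(|Γ:G|, |G:N|) = 1`, `Γ/G` solvable, `θ ∈ Irr(N)` invariant in `Γ`.
The central extension `Γ̂` of `Γ` attached to a representation affording `θ` reduces the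
search for a `Γ`-invariant irreducible constituent of `θ^G` to the case of a central `N`
(`inv_constituent_central`).
-/

set_option autoImplicit false
set_option linter.unusedSectionVars false
set_option linter.style.haveILetI false
set_option maxHeartbeats 1000000

namespace Cfsg.Agent.Lib.Helper75

open Representation Module
open Cfsg.Agent.Lib.Helper3
open scoped ComplexConjugate

universe u

theorem inv_constituent_above_of_solvable_top {Γ : Type u} [Group Γ] [Fintype Γ]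
    (G N : Subgroup Γ) [hG : G.Normal] [hN : N.Normal] [Fintype G] [Fintype N] (hNG : N ≤ G)
    (hcop : (G.index).Coprime (N.relIndex G)) (hsolv : Group.IsSolvable (Γ ⧸ G)) {d : ℕ}
    (Y : Representation ℂ N (Fin d → ℂ)) [hY : Y.IsIrreducible]
    (hinv : ∀ (g : Γ) (n : N), Y.character (MulAut.conjNormal g n) = Y.character n) :
    ∃ χ : G → ℂ, Cfsg.IsIrrCharacter G χ ∧
      Cfsg.classInner (fun n : N => χ ⟨n, hNG n.2⟩) Y.character ≠ 0 ∧
      ∀ (x : Γ) (g : G), χ ⟨x * g * x⁻¹, hG.conj_mem g g.2 x⟩ = χ g := by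
  classical
  have hθ : Cfsg.IsIrrCharacter N Y.character := ⟨d, Y, hY, rfl⟩
  -- the central extension
  let pr : centExt N Y →* Γ := centExtProj N Y
  have hpr : Function.Surjective pr := centExtProj_surjective N Y hinv
  let N₀ : Subgroup (centExt N Y) := (centExtIncl N Y).range
  let τ : centExt N Y → ℂ := (centExtRep N Y).character
  have hτirr : Cfsg.IsIrrCharacter (centExt N Y) τ := centExtRep_isIrrCharacter N Y
  have hτcf := isClassFunction_of_isCharacter (isCharacter_of_irr hτirr)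
  haveI : Fintype (centExt N Y) := Fintype.ofFinite _
  let qm : centExt N Y →* centExt N Y ⧸ N₀ := QuotientGroup.mk' N₀
  have hqm : Function.Surjective qm := QuotientGroup.mk'_surjective N₀
  haveI : Fintype (centExt N Y ⧸ N₀) := Fintype.ofFinite _
  have hN₀G : N₀ ≤ ((QuotientGroup.mk' G).comp pr).ker := by
    rintro _ ⟨n, rfl⟩
    rw [MonoidHom.mem_ker]
    show ((pr (centExtIncl N Y n) : Γ) : Γ ⧸ G) = 1
    rw [QuotientGroup.eq_one_iff]
    exact hNG n.2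
  have hN₀N : N₀ ≤ ((QuotientGroup.mk' N).comp pr).ker := by
    rintro _ ⟨n, rfl⟩
    rw [MonoidHom.mem_ker]
    show ((pr (centExtIncl N Y n) : Γ) : Γ ⧸ N) = 1
    rw [QuotientGroup.eq_one_iff]
    exact n.2
  let pG : centExt N Y ⧸ N₀ →* Γ ⧸ G := QuotientGroup.lift N₀ ((QuotientGroup.mk' G).comp pr) hN₀G
  let pN : centExt N Y ⧸ N₀ →* Γ ⧸ N := QuotientGroup.lift N₀ ((QuotientGroup.mk' N).comp pr) hN₀N
  have hpG : ∀ x : centExt N Y, pG (qm x) = ((pr x : Γ) : Γ ⧸ G) := fun x => rfl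
  have hpN : ∀ x : centExt N Y, pN (qm x) = ((pr x : Γ) : Γ ⧸ N) := fun x => rfl
  have hpGsurj : Function.Surjective pG := by
    intro y
    obtain ⟨g, rfl⟩ := QuotientGroup.mk_surjective y
    obtain ⟨x, rfl⟩ := hpr g
    exact ⟨qm x, rfl⟩
  have hpNsurj : Function.Surjective pN := by
    intro y
    obtain ⟨g, rfl⟩ := QuotientGroup.mk_surjective y
    obtain ⟨x, rfl⟩ := hpr g
    exact ⟨qm x, rfl⟩
  let Gs : Subgroup (centExt N Y ⧸ N₀) := pG.ker
  let Zs : Subgroup (centExt N Y ⧸ N₀) := pN.ker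
  have hmemGs : ∀ x : centExt N Y, qm x ∈ Gs ↔ pr x ∈ G := by
    intro x
    show pG (qm x) = 1 ↔ _
    rw [hpG, QuotientGroup.eq_one_iff]
  have hmemZs : ∀ x : centExt N Y, qm x ∈ Zs ↔ pr x ∈ N := by
    intro x
    show pN (qm x) = 1 ↔ _
    rw [hpN, QuotientGroup.eq_one_iff]
  have hZsGs : Zs ≤ Gs := by
    intro y hy
    obtain ⟨x, rfl⟩ := hqm y
    exact (hmemGs x).2 (hNG ((hmemZs x).1 hy))
  -- `Zs` is central
  have hZsc : Zs ≤ Subgroup.center (centExt N Y ⧸ N₀) := by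
    intro y hy
    obtain ⟨x, rfl⟩ := hqm y
    have h1 : pr x ∈ N := (hmemZs x).1 hy
    set n : N := ⟨pr x, h1⟩ with hn
    set z : centExt N Y := (centExtIncl N Y n)⁻¹ * x with hz
    have hz1 : centExtProj N Y z = 1 := by
      rw [hz, map_mul, map_inv, centExtProj_incl]
      exact inv_mul_cancel _
    have hxz : qm x = qm z := by
      rw [hz, map_mul, map_inv]
      have h2 : qm (centExtIncl N Y n) = 1 := by
        show ((centExtIncl N Y n : centExt N Y) : centExt N Y ⧸ N₀) = 1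
        rw [QuotientGroup.eq_one_iff]
        exact ⟨n, rfl⟩
      rw [h2, inv_one, one_mul]
    rw [hxz, Subgroup.mem_center_iff]
    intro w
    obtain ⟨w', rfl⟩ := hqm w
    rw [← map_mul, ← map_mul, centExt_central N Y z hz1 w']
  -- indices
  have hGsidx : Gs.index = G.index := by
    show pG.ker.index = G.index
    rw [Subgroup.index_ker, MonoidHom.range_eq_top.2 hpGsurj, Subgroup.card_top,
      Subgroup.index_eq_card]
  have hZsidx : Zs.index = N.index := by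
    show pN.ker.index = N.index
    rw [Subgroup.index_ker, MonoidHom.range_eq_top.2 hpNsurj, Subgroup.card_top,
      Subgroup.index_eq_card]
  have hrel : Zs.relIndex Gs = N.relIndex G := by
    have h1 := Subgroup.relIndex_mul_index hZsGs
    have h2 := Subgroup.relIndex_mul_index hNG
    rw [hGsidx, hZsidx, ← h2] at h1
    exact Nat.eq_of_mul_eq_mul_right (Nat.pos_of_ne_zero Subgroup.index_ne_zero_of_finite) h1
  have hcop' : (Gs.index).Coprime (Zs.relIndex Gs) := by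
    rw [hGsidx, hrel]
    exact hcop
  have hsolv' : Group.IsSolvable ((centExt N Y ⧸ N₀) ⧸ Gs) := by
    haveI := hsolv
    exact Group.isSolvable_of_isSolvable_injective (QuotientGroup.kerLift_injective pG)
  -- the linear character of `Zs`
  obtain ⟨χ₀, hχ₀, hχ₀ne⟩ := exists_irr_over N hθ
  obtain ⟨β₀, hβ₀, hβ₀N, hβ₀χ⟩ := centExt_gallagher N Y hinv hχ₀ hχ₀ne
  obtain ⟨ψ₀, hψ₀, hψ₀eq⟩ := Helper80.exists_isIrrCharacter_deflate N₀ hβ₀ (by
    rintro _ ⟨n, rfl⟩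
    exact hβ₀N n)
  obtain ⟨lamS, hlamS⟩ := exists_central_hom Zs.subtype
    (fun z h => (Subgroup.mem_center_iff.1 (hZsc z.2) h).symm) hψ₀
  have hβ₀1 : β₀ 1 ≠ 0 := Helper80.char_one_ne_zero hβ₀
  have hψ₀1 : ψ₀ 1 = β₀ 1 := hψ₀eq 1
  have hstar : ∀ (z : centExt N Y) (hz : qm z ∈ Zs), pr z = 1 →
      ((lamS ⟨qm z, hz⟩ : ℂˣ) : ℂ) * τ z = τ 1 := by
    intro z hz hz1
    have h1 : β₀ z = β₀ 1 * ((lamS ⟨qm z, hz⟩ : ℂˣ) : ℂ) := by
      rw [← hψ₀1, ← hlamS ⟨qm z, hz⟩]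
      exact (hψ₀eq z).symm
    have h2 := hβ₀χ z
    have h3 := hβ₀χ 1
    have hz1' : centExtProj N Y z = 1 := hz1
    rw [hz1', ← map_one (centExtProj N Y), h3, h1] at h2
    have h4 : β₀ 1 * τ 1 = β₀ 1 * (((lamS ⟨qm z, hz⟩ : ℂˣ) : ℂ) * τ z) := by
      rw [← mul_assoc]
      exact h2
    exact (mul_left_cancel₀ hβ₀1 h4).symm
  -- the central case
  haveI : Fintype Gs := Fintype.ofFinite _
  obtain ⟨βs, hβs, hβsZ, hβsinv⟩ := inv_constituent_central Gs Zs hZsGs hZsc hcop' hsolv' lamS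
  have hβs1 : βs 1 ≠ 0 := Helper80.char_one_ne_zero hβs
  -- the preimage of `G`
  let Gh : Subgroup (centExt N Y) := G.comap pr
  haveI : Fintype Gh := Fintype.ofFinite _
  let qG : Gh →* Gs := (qm.comp Gh.subtype).codRestrict Gs (fun x => (hmemGs x).2 x.2)
  have hqG : Function.Surjective qG := by
    intro y
    obtain ⟨x, hx⟩ := hqm y
    have hxG : pr x ∈ G := (hmemGs x).1 (by rw [hx]; exact y.2)
    exact ⟨⟨x, hxG⟩, Subtype.ext hx⟩
  have hinclG : ∀ n : N, centExtIncl N Y n ∈ Gh := fun n => hNG n.2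
  let ρG : Representation ℂ Gh (Fin d → ℂ) := (centExtRep N Y).comp Gh.subtype
  haveI hρG : ρG.IsIrreducible := by
    haveI := Helper80.nontrivial_of_isIrreducible Y
    apply Helper81.isIrreducible_of_forall
    intro W hW
    apply Helper81.IsIrreducible.submodule_eq_bot_or_eq_top Y W
    intro n v hv
    exact hW ⟨centExtIncl N Y n, hinclG n⟩ v hv
  let τG : Gh → ℂ := fun x => τ x
  have hτG : Cfsg.IsIrrCharacter Gh τG := ⟨d, ρG, hρG, rfl⟩
  let N₁ : Subgroup Gh := N₀.subgroupOf Gh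
  haveI : Fintype N₁ := Fintype.ofFinite _
  have hinclN₁ : ∀ n : N, (⟨centExtIncl N Y n, hinclG n⟩ : Gh) ∈ N₁ := fun n => ⟨n, rfl⟩
  let ρN : Representation ℂ N₁ (Fin d → ℂ) := ρG.comp N₁.subtype
  haveI hρN : ρN.IsIrreducible := by
    haveI := Helper80.nontrivial_of_isIrreducible Y
    apply Helper81.isIrreducible_of_forall
    intro W hW
    apply Helper81.IsIrreducible.submodule_eq_bot_or_eq_top Y W
    intro n v hv
    exact hW ⟨⟨centExtIncl N Y n, hinclG n⟩, hinclN₁ n⟩ v hv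
  have hτGN : Cfsg.IsIrrCharacter N₁ (fun n : N₁ => τG n) := ⟨d, ρN, hρN, rfl⟩
  let βh : Gh → ℂ := fun x => βs (qG x)
  have hβh : Cfsg.IsIrrCharacter Gh βh := Helper80.isIrrCharacter_comp qG hqG hβs
  have hqGN : ∀ x : Gh, (x : centExt N Y) ∈ N₀ → qG x = 1 := by
    intro x hx
    apply Subtype.ext
    show ((x : centExt N Y) : centExt N Y ⧸ N₀) = 1
    rw [QuotientGroup.eq_one_iff]
    exact hx
  have hβhN : ∀ n : N₁, βh n = βh 1 := by
    intro n
    show βs (qG n) = βs (qG 1)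
    rw [hqGN n n.2, map_one]
  have hχh : Cfsg.IsIrrCharacter Gh (βh * τG) := gallagher_irr N₁ hτG hτGN hβh hβhN
  -- descend to `G`
  let prG : Gh →* G := (pr.comp Gh.subtype).codRestrict G (fun x => x.2)
  have hprG : Function.Surjective prG := by
    intro g
    obtain ⟨x, hx⟩ := hpr g
    exact ⟨⟨x, by show pr x ∈ G; rw [hx]; exact g.2⟩, Subtype.ext hx⟩
  have hker : ∀ x ∈ prG.ker, (βh * τG) x = (βh * τG) 1 := by
    intro x hx
    rw [MonoidHom.mem_ker] at hx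
    have hx1 : pr (x : centExt N Y) = 1 := congrArg Subtype.val hx
    have hxZ : qm (x : centExt N Y) ∈ Zs := (hmemZs x).2 (by rw [hx1]; exact one_mem N)
    show βs (qG x) * τ x = βs (qG 1) * τ 1
    have h1 : qG x = ⟨((⟨qm (x : centExt N Y), hxZ⟩ : Zs) : centExt N Y ⧸ N₀),
        hZsGs hxZ⟩ := rfl
    rw [h1, hβsZ ⟨qm (x : centExt N Y), hxZ⟩, map_one, mul_assoc, hstar x hxZ hx1]
  obtain ⟨χ, hχ, hχeq⟩ := exists_irr_descend prG hprG hχh hker
  refine ⟨χ, hχ, ?_, ?_⟩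
  · have hres : (fun n : N => χ ⟨n, hNG n.2⟩) = (βs 1) • Y.character := by
      funext n
      have h1 : (⟨(n : Γ), hNG n.2⟩ : G) = prG ⟨centExtIncl N Y n, hinclG n⟩ := rfl
      rw [h1, hχeq]
      show βs (qG ⟨centExtIncl N Y n, hinclG n⟩) * τ (centExtIncl N Y n) = βs 1 * Y.character n
      rw [hqGN ⟨centExtIncl N Y n, hinclG n⟩ ⟨n, rfl⟩]
      rfl
    rw [hres, classInner_smul_left, classInner_irr_self hθ, mul_one]
    exact hβs1
  · intro x g
    obtain ⟨xh, rfl⟩ := hpr x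
    obtain ⟨gh, rfl⟩ := hprG g
    have hmem : xh * (gh : centExt N Y) * xh⁻¹ ∈ Gh := by
      show pr (xh * (gh : centExt N Y) * xh⁻¹) ∈ G
      rw [map_mul, map_mul, map_inv]
      exact hG.conj_mem _ gh.2 _
    have h1 : (⟨pr xh * ((prG gh : G) : Γ) * (pr xh)⁻¹,
        hG.conj_mem (prG gh) (prG gh).2 (pr xh)⟩ : G) = prG ⟨xh * (gh : centExt N Y) * xh⁻¹, hmem⟩ := by
      apply Subtype.ext
      show pr xh * pr (gh : centExt N Y) * (pr xh)⁻¹ = pr (xh * (gh : centExt N Y) * xh⁻¹)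
      rw [map_mul, map_mul, map_inv]
    rw [h1, hχeq, hχeq]
    show βs (qG ⟨xh * (gh : centExt N Y) * xh⁻¹, hmem⟩) * τ (xh * (gh : centExt N Y) * xh⁻¹) =
      βs (qG gh) * τ gh
    rw [hτcf]
    congr 1
    have h2 : qG ⟨xh * (gh : centExt N Y) * xh⁻¹, hmem⟩ =
        ⟨qm xh * ((qG gh : Gs) : centExt N Y ⧸ N₀) * (qm xh)⁻¹,
          (inferInstance : Gs.Normal).conj_mem (qG gh) (qG gh).2 (qm xh)⟩ := by
      apply Subtype.ext
      show qm (xh * (gh : centExt N Y) * xh⁻¹) = qm xh * qm (gh : centExt N Y) * (qm xh)⁻¹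
      rw [map_mul, map_mul, map_inv]
    rw [h2]
    exact hβsinv (qm xh) (qG gh)

/-- **Isaacs 13.31**, case `G/N` solvable -/
theorem inv_constituent_above_of_solvable_bot {Γ : Type u} [Group Γ] [Fintype Γ]
    (G N : Subgroup Γ) [hG : G.Normal] [hN : N.Normal] [Fintype G] [Fintype N] (hNG : N ≤ G)
    (hcop : (G.index).Coprime (N.relIndex G))
    (hsolv : Group.IsSolvable (G ⧸ N.subgroupOf G)) {θ : N → ℂ}
    (hθ : Cfsg.IsIrrCharacter N θ)
    (hinv : ∀ (x : Γ) (n : N), θ ⟨x * n * x⁻¹, hN.conj_mem n n.2 x⟩ = θ n) :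
    ∃ χ : G → ℂ, Cfsg.IsIrrCharacter G χ ∧
      Cfsg.classInner (fun n : N => χ ⟨n, hNG n.2⟩) θ ≠ 0 ∧
      ∀ (x : Γ) (g : G), χ ⟨x * g * x⁻¹, hG.conj_mem g g.2 x⟩ = χ g := by
  classical
  obtain ⟨S, hS, hSp⟩ := exists_supplement_primes G
  have hs1 : (Nat.card S).Coprime (N.relIndex G) := by
    apply Nat.coprime_of_dvd
    intro p hp h1 h2
    have h3 := hSp p hp h1
    have h4 := Nat.dvd_gcd h3 h2
    rw [hcop.gcd_eq_one] at h4
    exact hp.one_lt.ne' (Nat.dvd_one.1 h4)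
  let φ : Γ →* MulAut Γ := MulAut.conj
  let A : Subgroup (MulAut Γ) := S.map φ
  have hAcard : Nat.card A ∣ Nat.card S :=
    Subgroup.card_dvd_of_surjective (φ.subgroupMap S) (φ.subgroupMap_surjective S)
  have hcopA : (Nat.card A).Coprime (N.relIndex G) := Nat.Coprime.coprime_dvd_left hAcard hs1
  have hAG : ∀ a ∈ A, ∀ g ∈ G, a g ∈ G := by
    rintro _ ⟨x, hx, rfl⟩ g hg
    exact hG.conj_mem g hg x
  have hAN : ∀ a ∈ A, ∀ n ∈ N, a n ∈ N := by
    rintro _ ⟨x, hx, rfl⟩ n hn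
    exact hN.conj_mem n hn x
  have hinvA : ∀ a ∈ A, ∀ n : N, ∀ h : a (n : Γ) ∈ N, θ ⟨a n, h⟩ = θ n := by
    rintro _ ⟨x, hx, rfl⟩ n h
    exact hinv x n
  obtain ⟨χ, hχ, hne, hχinv⟩ := Helper81.inv_constituent_above_rel G N hNG A hAG hAN hcopA
    hsolv hθ hinvA
  have hχcf := isClassFunction_of_isCharacter (isCharacter_of_irr hχ)
  refine ⟨χ, hχ, hne, ?_⟩
  intro x g
  have hx : x ∈ G ⊔ S := by
    rw [hS]
    exact Subgroup.mem_top x
  rw [Subgroup.mem_sup_of_normal_left] at hx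
  obtain ⟨g₀, hg₀, s₀, hs₀, rfl⟩ := hx
  have hmem : s₀ * (g : Γ) * s₀⁻¹ ∈ G := hG.conj_mem g g.2 s₀
  have h1 : (⟨g₀ * s₀ * g * (g₀ * s₀)⁻¹, hG.conj_mem g g.2 (g₀ * s₀)⟩ : G) =
      ⟨g₀, hg₀⟩ * ⟨s₀ * g * s₀⁻¹, hmem⟩ * (⟨g₀, hg₀⟩ : G)⁻¹ := by
    apply Subtype.ext
    show g₀ * s₀ * g * (g₀ * s₀)⁻¹ = g₀ * (s₀ * g * s₀⁻¹) * g₀⁻¹
    group
  rw [h1, hχcf]
  exact hχinv (φ s₀) ⟨s₀, hs₀, rfl⟩ g hmem

end Cfsg.Agent.Lib.Helper75
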